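import Mathlib
import Cfsg.Prelude.Def_LieClassical
import Cfsg.Agent.Lib.Classical.QuadExt
import Cfsg.Agent.Lib.Classical.SL2Tori
import Cfsg.Agent.Lib.Classical.SympForm

/-!
# Embedding `GU_m(q)` into `Sp_{2m}(q)` and `O^±_{2m}(q)`.

`K = F[ω]` is the quadratic extension of `F`, `|F| = q`, as a `QuadraticAlgebra`. An `F`-linear
isomorphism `T : F^ι ≃ K^m` transforms `GU_m(q)`, acting `F`-linearly on `K^m`, into matrices over `F`.
-/

set_option autoImplicit false
set_option linter.unusedSectionVars false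
set_option linter.style.haveILetI false

open QuadraticAlgebra Matrix

namespace Cfsg.Agent.Lib.Classical.GUEmbed

section transfer

variable {K K' : Type*} [Field K] [Field K']

/-- Transfer of `GU` along a field isomorphism. -/
noncomputable def guCongr (e : K ≃+* K') (m q : ℕ) : ↥(Cfsg.GU m K q) →* ↥(Cfsg.GU m K' q) where
  toFun g := ⟨Matrix.GeneralLinearGroup.map (e : K →+* K') g.1, by
    intro u v
    have hmv : ∀ w : Fin m → K', ((Matrix.GeneralLinearGroup.map (e : K →+* K') g.1 :
        Matrix.GeneralLinearGroup (Fin m) K') : Matrix (Fin m) (Fin m) K') *ᵥ w =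
        fun i => e (((g.1 : Matrix (Fin m) (Fin m) K) *ᵥ (fun j => e.symm (w j))) i) := by
      intro w
      ext i
      simp [Matrix.mulVec, dotProduct]
    have h := g.2 (fun j => e.symm (u j)) (fun j => e.symm (v j))
    have h' := congrArg e h
    simp only [Cfsg.hermForm, Units.coeHom_apply, map_sum, map_mul, map_pow] at h'
    simp only [RingEquiv.apply_symm_apply] at h'
    simp only [Cfsg.hermForm, Units.coeHom_apply]
    rw [hmv u, hmv v]
    exact h'⟩
  map_one' := by
    apply Subtype.ext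
    simp
  map_mul' x y := by
    apply Subtype.ext
    simp

theorem guCongr_injective (e : K ≃+* K') (m q : ℕ) : Function.Injective (guCongr e m q) := by
  intro x y h
  apply Subtype.ext
  apply Units.ext
  refine Matrix.ext fun i j => ?_
  have h1 := congrArg (fun g : ↥(Cfsg.GU m K' q) =>
    ((g.1 : Matrix.GeneralLinearGroup (Fin m) K') : Matrix (Fin m) (Fin m) K') i j) h
  simp only [guCongr, MonoidHom.coe_mk, OneHom.coe_mk] at h1
  exact e.injective h1

end transfer

section realify

variable {F : Type*} [Field F] {K : Type*} [Field K] [Algebra F K]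
variable {ι : Type} [Fintype ι] [DecidableEq ι] {m : ℕ}

/-- `F`-linear action of a matrix over `K` on `K^m`. -/
noncomputable def linF (A : Matrix (Fin m) (Fin m) K) : (Fin m → K) →ₗ[F] (Fin m → K) :=
  (Matrix.mulVecLin A).restrictScalars F

@[simp] theorem linF_apply (A : Matrix (Fin m) (Fin m) K) (u : Fin m → K) :
    linF (F := F) A u = A *ᵥ u := rfl

/-- The realification homomorphism, with respect to `T : F^ι ≃ K^m`. -/
noncomputable def realHom (T : (ι → F) ≃ₗ[F] (Fin m → K)) :
    Matrix (Fin m) (Fin m) K →* Matrix ι ι F where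
  toFun A := LinearMap.toMatrix' (T.symm.toLinearMap ∘ₗ linF (F := F) A ∘ₗ T.toLinearMap)
  map_one' := by
    have : (T.symm.toLinearMap ∘ₗ linF (F := F) (1 : Matrix (Fin m) (Fin m) K) ∘ₗ T.toLinearMap)
        = LinearMap.id := by
      ext x i
      simp
    rw [this, LinearMap.toMatrix'_id]
  map_mul' A B := by
    rw [← LinearMap.toMatrix'_comp]
    congr 1
    apply LinearMap.ext
    intro x
    simp [Matrix.mulVec_mulVec]

theorem realHom_mulVec (T : (ι → F) ≃ₗ[F] (Fin m → K)) (A : Matrix (Fin m) (Fin m) K)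
    (x : ι → F) : realHom T A *ᵥ x = T.symm (A *ᵥ T x) := by
  simp only [realHom, MonoidHom.coe_mk, OneHom.coe_mk, LinearMap.toMatrix'_mulVec]
  rfl

theorem realHom_injective (T : (ι → F) ≃ₗ[F] (Fin m → K)) : Function.Injective (realHom T) := by
  intro A B h
  apply Matrix.ext_of_mulVec_single
  intro j
  have h1 := congrArg (fun M => M *ᵥ T.symm (Pi.single j 1)) h
  simp only [realHom_mulVec, LinearEquiv.apply_symm_apply] at h1
  exact T.symm.injective h1

/-- The realification homomorphism on `GL`. -/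
noncomputable def realGL (T : (ι → F) ≃ₗ[F] (Fin m → K)) :
    Matrix.GeneralLinearGroup (Fin m) K →* Matrix.GeneralLinearGroup ι F :=
  Units.map (realHom T)

theorem realGL_injective (T : (ι → F) ≃ₗ[F] (Fin m → K)) : Function.Injective (realGL T) := by
  intro x y h
  apply Units.ext
  exact realHom_injective T (congrArg Units.val h)

theorem realGL_mulVec (T : (ι → F) ≃ₗ[F] (Fin m → K)) (g : Matrix.GeneralLinearGroup (Fin m) K)
    (x : ι → F) : ((realGL T g : Matrix.GeneralLinearGroup ι F) : Matrix ι ι F) *ᵥ x =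
      T.symm ((g : Matrix (Fin m) (Fin m) K) *ᵥ T x) :=
  realHom_mulVec T _ x

/-- The element of `GU` transforms to an isometry of any form which is the Hermitian form, via `T`. -/
theorem realGL_mem_isometry (T : (ι → F) ≃ₗ[F] (Fin m → K)) (q : ℕ) (Q : (ι → F) → F)
    (hQ : ∀ x, algebraMap F K (Q x) = Cfsg.hermForm m K q (T x) (T x))
    (g : ↥(Cfsg.GU m K q)) : realGL T g.1 ∈ Cfsg.isometryGroup F Q := by
  intro u _
  simp only [Units.coeHom_apply]
  apply (algebraMap F K).injective
  rw [realGL_mulVec, hQ, LinearEquiv.apply_symm_apply, hQ]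
  exact g.2 _ _

/-- The embedding of `GU` in the isometry group of `Q`. -/
noncomputable def guToIsometry (T : (ι → F) ≃ₗ[F] (Fin m → K)) (q : ℕ) (Q : (ι → F) → F)
    (hQ : ∀ x, algebraMap F K (Q x) = Cfsg.hermForm m K q (T x) (T x)) :
    ↥(Cfsg.GU m K q) →* ↥(Cfsg.isometryGroup F Q) :=
  ((realGL T).comp (Cfsg.GU m K q).subtype).codRestrict _ (realGL_mem_isometry T q Q hQ)

theorem guToIsometry_injective (T : (ι → F) ≃ₗ[F] (Fin m → K)) (q : ℕ) (Q : (ι → F) → F)
    (hQ : ∀ x, algebraMap F K (Q x) = Cfsg.hermForm m K q (T x) (T x)) :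
    Function.Injective (guToIsometry T q Q hQ) := by
  intro x y h
  apply Subtype.ext
  apply realGL_injective T
  exact congrArg Subtype.val h

end realify

section quad

variable {F : Type*} [Field F] [Fintype F] {a b : F} [hab : Fact (∀ r : F, r ^ 2 ≠ a + b * r)]

local notation "K'" => QuadraticAlgebra F a b
local notation "q" => Fintype.card F

/-- The element `ω - ω̄`. -/
theorem omega_sub_star_ne : (ω : K') - star ω ≠ 0 := by
  intro hd
  obtain ⟨z, hz⟩ := QuadExt.exists_pow_q_ne (F := F) (a := a) (b := b)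
  apply hz
  rw [QuadExt.pow_q_eq_star]
  have h1 := congrArg QuadraticAlgebra.re hd
  have h2 := congrArg QuadraticAlgebra.im hd
  simp at h1 h2
  ext
  · simp; exact Or.inl h1
  · simp; linear_combination -z.im * h2

/-- The coordinate isomorphism. -/
noncomputable def Tsymp (m : ℕ) : (Fin m ⊕ Fin m → F) ≃ₗ[F] (Fin m → K') where
  toFun x i := ⟨x (.inl i), x (.inr i)⟩
  invFun u := Sum.elim (fun i => (u i).re) (fun i => (u i).im)
  map_add' x y := by
    ext i <;> simp
  map_smul' c x := by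
    ext i <;> simp
  left_inv x := by
    ext (i | i) <;> simp
  right_inv u := by
    ext i <;> simp

theorem Tsymp_apply (m : ℕ) (x : Fin m ⊕ Fin m → F) (i : Fin m) :
    Tsymp (F := F) (a := a) (b := b) m x i = ⟨x (.inl i), x (.inr i)⟩ := rfl

/-- The symplectic form in terms of the Hermitian form. -/
theorem symp_eq_herm (m : ℕ) (x y : Fin m ⊕ Fin m → F) :
    ((ω : K') - star ω) * algebraMap F K' (Cfsg.sympForm m F x y) =
      Cfsg.hermForm m K' q (Tsymp m x) (Tsymp m y) - Cfsg.hermForm m K' q (Tsymp m y) (Tsymp m x) := by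
  rw [SympForm.sympForm_eq_sum]
  simp only [Cfsg.hermForm, QuadExt.pow_q_eq_star, map_sum, Finset.mul_sum, ← Finset.sum_sub_distrib]
  refine Finset.sum_congr rfl fun i _ => ?_
  rw [Tsymp_apply, Tsymp_apply]
  ext <;> simp <;> ring

/-- `GU` embedded in `Sp`. -/
noncomputable def guToSp (m : ℕ) : ↥(Cfsg.GU m K' q) →* ↥(Matrix.symplecticGroup (Fin m) F) :=
  MonoidHom.codRestrict
    ((realHom (Tsymp (F := F) (a := a) (b := b) m)).comp
      ((Units.coeHom (Matrix (Fin m) (Fin m) K')).comp (Cfsg.GU m K' q).subtype))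
    (Matrix.symplecticGroup (Fin m) F) (by
      intro g
      rw [SympForm.mem_symplecticGroup_iff]
      intro x y
      simp only [MonoidHom.comp_apply, Subgroup.subtype_apply, Units.coeHom_apply]
      apply (algebraMap F K').injective
      apply mul_left_cancel₀ (omega_sub_star_ne (F := F) (a := a) (b := b))
      rw [symp_eq_herm, symp_eq_herm, realHom_mulVec, realHom_mulVec,
        LinearEquiv.apply_symm_apply, LinearEquiv.apply_symm_apply]
      have h1 := g.2 (Tsymp m x) (Tsymp m y)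
      have h2 := g.2 (Tsymp m y) (Tsymp m x)
      simp only [Units.coeHom_apply] at h1 h2
      rw [h1, h2])

theorem guToSp_injective (m : ℕ) : Function.Injective (guToSp (F := F) (a := a) (b := b) m) := by
  intro x y h
  apply Subtype.ext
  apply Units.ext
  apply realHom_injective (Tsymp (F := F) (a := a) (b := b) m)
  exact congrArg Subtype.val h

/-- The identity behind the hyperbolic planes. -/
theorem local_identity {L : Type*} [Field L] (w sw c sc z sz m sm e x₁ x₂ y₁ y₂ : L)
    (hc : c * sc = -1) (hz : z * sz = 1) (hm : sm * (1 - sz) = 1) (hm' : m * (1 - z) = 1)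
    (he : e * (w - sw) = 1) :
    (x₁ + x₂ * w + (y₁ * w - y₂) * e * m) * (x₁ + x₂ * sw + (y₁ * sw - y₂) * (-e) * sm)
      + ((x₁ + x₂ * w) * c + (y₁ * w - y₂) * e * m * c * z)
        * ((x₁ + x₂ * sw) * sc + (y₁ * sw - y₂) * (-e) * sm * sc * sz) = x₁ * y₁ + x₂ * y₂ := by
  set X := x₁ + x₂ * w with hX
  set sX := x₁ + x₂ * sw with hsX
  set Y := (y₁ * w - y₂) * e with hY
  set sY := (y₁ * sw - y₂) * (-e) with hsY
  have h : X * sY + sX * Y = (x₁ * y₁ + x₂ * y₂) * (e * (w - sw)) := by
    rw [hX, hsX, hY, hsY]; ring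
  linear_combination (X * sX + Y * sY * m * sm * z * sz + X * sY * sm * sz + sX * Y * m * z) * hc
    - (Y * sY * m * sm) * hz + (X * sY) * hm + (sX * Y) * hm' + h + (x₁ * y₁ + x₂ * y₂) * he

/-- The parameters of the hyperbolic planes. -/
theorem exists_params : ∃ c z m : K', c * star c = -1 ∧ z * star z = 1 ∧ star m * (1 - star z) = 1 ∧
    m * (1 - z) = 1 ∧ z ≠ 1 ∧ c ≠ 0 ∧ m ≠ 0 := by
  classical
  obtain ⟨c, hc⟩ := SL2Tori.exists_norm_eq (F := F) (a := a) (b := b) (-1 : Fˣ)
  have hc' : c * star c = -1 := by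
    rw [← algebraMap_norm_eq_mul_star, hc]
    simp
  have hcard : 1 < Nat.card (QuadExt.normOne F a b) := by
    rw [QuadExt.card_normOne]
    have := QuadExt.one_lt_q (F := F)
    omega
  have : Nontrivial (QuadExt.normOne F a b) := Finite.one_lt_card_iff_nontrivial.mp hcard
  obtain ⟨u, hu⟩ := exists_ne (1 : QuadExt.normOne F a b)
  have hn : norm ((u : (K')ˣ) : K') = 1 := (QuadExt.mem_normOne_iff _).mp u.2
  set z : K' := ((u : (K')ˣ) : K') with hzdef
  have hz : z * star z = 1 := by
    rw [← algebraMap_norm_eq_mul_star, hn]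
    simp
  have hz1 : z ≠ 1 := by
    intro h
    apply hu
    apply Subtype.ext
    apply Units.ext
    exact h
  have hsub : 1 - z ≠ 0 := fun h => hz1 (sub_eq_zero.mp h).symm
  have hstar : star ((1 - z)⁻¹) * (1 - star z) = 1 := by
    have h1 : star (1 - z) = 1 - star z := by simp
    rw [star_inv₀, h1]
    apply inv_mul_cancel₀
    rw [← h1]
    exact fun h => hsub (star_eq_zero.mp h)
  refine ⟨c, z, (1 - z)⁻¹, hc', hz, hstar, inv_mul_cancel₀ hsub, hz1, ?_, inv_ne_zero hsub⟩
  rintro rfl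
  simp at hc'

theorem star_alg (x : F) : star (algebraMap F K' x) = algebraMap F K' x := by
  ext <;> simp

/-- A linear form in four coordinates. -/
noncomputable def lin4 {ι : Type*} (i₁ i₂ i₃ i₄ : ι) (k₁ k₂ k₃ k₄ : K') : (ι → F) →ₗ[F] K' where
  toFun x := algebraMap F K' (x i₁) * k₁ + algebraMap F K' (x i₂) * k₂ + algebraMap F K' (x i₃) * k₃
    + algebraMap F K' (x i₄) * k₄
  map_add' x y := by simp only [Pi.add_apply, map_add]; ring
  map_smul' r x := by
    simp only [Pi.smul_apply, smul_eq_mul, map_mul, RingHom.id_apply, Algebra.smul_def]; ring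

@[simp] theorem lin4_apply {ι : Type*} (i₁ i₂ i₃ i₄ : ι) (k₁ k₂ k₃ k₄ : K') (x : ι → F) :
    lin4 (F := F) i₁ i₂ i₃ i₄ k₁ k₂ k₃ k₄ x = algebraMap F K' (x i₁) * k₁ + algebraMap F K' (x i₂) * k₂
      + algebraMap F K' (x i₃) * k₃ + algebraMap F K' (x i₄) * k₄ := rfl

/-- Appending a coordinate. -/
noncomputable def snocL {V : Type*} [AddCommGroup V] [Module F V] {n : ℕ} (A : V →ₗ[F] (Fin n → K'))
    (B : V →ₗ[F] K') : V →ₗ[F] (Fin (n + 1) → K') where
  toFun x := Fin.snoc (α := fun _ => K') (A x) (B x)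
  map_add' x y := by
    funext i
    refine Fin.lastCases ?_ (fun j => ?_) i <;> simp
  map_smul' r x := by
    funext i
    refine Fin.lastCases ?_ (fun j => ?_) i <;> simp

theorem snocL_injective {V : Type*} [AddCommGroup V] [Module F V] {n : ℕ} (A : V →ₗ[F] (Fin n → K'))
    (B : V →ₗ[F] K') (h : ∀ x, A x = 0 → B x = 0 → x = 0) : Function.Injective (snocL A B) := by
  rw [← LinearMap.ker_eq_bot, LinearMap.ker_eq_bot']
  intro x hx
  apply h
  · funext j
    have := congrFun hx j.castSucc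
    simpa [snocL] using this
  · have := congrFun hx (Fin.last n)
    simpa [snocL] using this

theorem herm_snoc {n : ℕ} (k : ℕ) (u : Fin n → K') (c : K') :
    Cfsg.hermForm (n + 1) K' k (Fin.snoc (α := fun _ => K') u c) (Fin.snoc (α := fun _ => K') u c) =
      Cfsg.hermForm n K' k u u + c * c ^ k := by
  simp [Cfsg.hermForm, Fin.sum_univ_castSucc]

/-- The inductive step for the hyperbolic planes. -/
theorem T_step {n : ℕ} (T₀ : (Fin n ⊕ Fin n → F) →ₗ[F] (Fin n → K')) (hinj : Function.Injective T₀)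
    (hT₀ : ∀ x, algebraMap F K' (Cfsg.quadFormPlus n F x) = Cfsg.hermForm n K' q (T₀ x) (T₀ x)) :
    ∃ T : (Fin (n + 2) ⊕ Fin (n + 2) → F) →ₗ[F] (Fin (n + 2) → K'), Function.Injective T ∧
      ∀ x, algebraMap F K' (Cfsg.quadFormPlus (n + 2) F x) = Cfsg.hermForm (n + 2) K' q (T x) (T x) := by
  obtain ⟨c, z, m, hc, hz, hm, hm', hz1, hc0, hm0⟩ := exists_params (F := F) (a := a) (b := b)
  set d : K' := ω - star ω with hd
  have hd0 : d ≠ 0 := omega_sub_star_ne
  set e : K' := d⁻¹ with he
  have hed : e * (ω - star ω) = 1 := inv_mul_cancel₀ hd0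
  have hse : star e = -e := by
    rw [he, star_inv₀, hd]
    have : star ((ω : K') - star ω) = -(ω - star ω) := by simp
    rw [this, inv_neg]
  let cc : Fin n → Fin (n + 2) := fun i => i.castSucc.castSucc
  let i₁ : Fin (n + 2) := (Fin.last n).castSucc
  let i₂ : Fin (n + 2) := Fin.last (n + 1)
  let π : (Fin (n + 2) ⊕ Fin (n + 2) → F) →ₗ[F] (Fin n ⊕ Fin n → F) :=
    LinearMap.funLeft F F (Sum.map cc cc)
  have hπ : ∀ x j, π x j = x (Sum.map cc cc j) := fun _ _ => rfl
  let U₁ := lin4 (F := F) (a := a) (b := b) (.inl i₁ : Fin (n + 2) ⊕ Fin (n + 2)) (.inl i₂) (.inr i₁) (.inr i₂)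
    1 ω (ω * e * m) (-(e * m))
  let U₂ := lin4 (F := F) (a := a) (b := b) (.inl i₁ : Fin (n + 2) ⊕ Fin (n + 2)) (.inl i₂) (.inr i₁) (.inr i₂)
    c (ω * c) (ω * e * m * c * z) (-(e * m * c * z))
  refine ⟨snocL (snocL (T₀ ∘ₗ π) U₁) U₂, ?_, ?_⟩
  · apply snocL_injective
    intro x h1 h2
    have h3 : snocL (T₀ ∘ₗ π) U₁ x = 0 := h1
    have h4 : T₀ (π x) = 0 := by
      funext j
      have := congrFun h3 j.castSucc
      simpa [snocL] using this
    have h5 : U₁ x = 0 := by
      have := congrFun h3 (Fin.last n)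
      simpa [snocL] using this
    have h6 : π x = 0 := hinj (h4.trans (map_zero T₀).symm)
    -- the local injectivity
    have h7 : algebraMap F K' (x (.inr i₁)) * ω - algebraMap F K' (x (.inr i₂)) = 0 := by
      have h8 : (algebraMap F K' (x (.inr i₁)) * ω - algebraMap F K' (x (.inr i₂))) * e * m * c * (z - 1) = 0 := by
        simp only [U₁, U₂, lin4_apply] at h5 h2
        linear_combination h2 - c * h5
      have hz1' : z - 1 ≠ 0 := sub_ne_zero.mpr hz1
      have he0 : e ≠ 0 := inv_ne_zero hd0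
      simpa [hz1', hc0, hm0, he0] using h8
    have h9 : algebraMap F K' (x (.inl i₁)) + algebraMap F K' (x (.inl i₂)) * ω = 0 := by
      simp only [U₁, lin4_apply] at h5
      linear_combination h5 - e * m * h7
    have hr1 := congrArg QuadraticAlgebra.re h7
    have hi1 := congrArg QuadraticAlgebra.im h7
    have hr2 := congrArg QuadraticAlgebra.re h9
    have hi2 := congrArg QuadraticAlgebra.im h9
    simp at hr1 hi1 hr2 hi2
    have hall : ∀ j : Fin (n + 2), x (.inl j) = 0 ∧ x (.inr j) = 0 := by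
      intro j
      refine Fin.lastCases ?_ (fun j' => ?_) j
      · exact ⟨by simpa [i₂] using hi2, by simpa [i₂] using hr1⟩
      · refine Fin.lastCases ?_ (fun j'' => ?_) j'
        · exact ⟨by simpa [i₁] using hr2, by simpa [i₁] using hi1⟩
        · have h10 := congrFun h6 (.inl j'')
          have h11 := congrFun h6 (.inr j'')
          exact ⟨h10, h11⟩
    funext j
    rcases j with j | j
    · exact (hall j).1
    · exact (hall j).2
  · intro x
    have hsum : Cfsg.quadFormPlus (n + 2) F x = Cfsg.quadFormPlus n F (π x) + x (.inl i₁) * x (.inr i₁)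
        + x (.inl i₂) * x (.inr i₂) := by
      simp only [Cfsg.quadFormPlus, Fin.sum_univ_castSucc, hπ]
      rfl
    show _ = Cfsg.hermForm (n + 2) K' q (Fin.snoc (α := fun _ => K') (snocL (T₀ ∘ₗ π) U₁ x) (U₂ x))
      (Fin.snoc (α := fun _ => K') (snocL (T₀ ∘ₗ π) U₁ x) (U₂ x))
    rw [herm_snoc]
    show _ = Cfsg.hermForm (n + 1) K' q (Fin.snoc (α := fun _ => K') (T₀ (π x)) (U₁ x))
      (Fin.snoc (α := fun _ => K') (T₀ (π x)) (U₁ x)) + _
    rw [herm_snoc, ← hT₀, hsum, QuadExt.pow_q_eq_star, QuadExt.pow_q_eq_star]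
    simp only [map_add, map_mul, U₁, U₂, lin4_apply, star_add, star_mul', star_alg, star_neg, star_one, hse]
    have hstar : star (ω : K') = star ω := rfl
    have key := local_identity (ω : K') (star ω) c (star c) z (star z) m (star m) e
      (algebraMap F K' (x (.inl i₁))) (algebraMap F K' (x (.inl i₂)))
      (algebraMap F K' (x (.inr i₁))) (algebraMap F K' (x (.inr i₂))) hc hz hm hm' hed
    linear_combination -key

/-- Existence of the transformation to the hyperbolic form. -/
theorem exists_T_plus (t : ℕ) : ∃ T : (Fin (2 * t) ⊕ Fin (2 * t) → F) →ₗ[F] (Fin (2 * t) → K'),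
    Function.Injective T ∧ ∀ x, algebraMap F K' (Cfsg.quadFormPlus (2 * t) F x) =
      Cfsg.hermForm (2 * t) K' q (T x) (T x) := by
  induction t with
  | zero =>
    refine ⟨0, ?_, ?_⟩
    · intro x y _
      funext j
      rcases j with j | j <;> exact j.elim0
    · intro x
      simp [Cfsg.quadFormPlus, Cfsg.hermForm]
  | succ t ih =>
    obtain ⟨T₀, h1, h2⟩ := ih
    exact T_step T₀ h1 h2

/-- Injective linear maps between spaces of the same dimension are isomorphisms. -/
noncomputable def equivOfInj {ι : Type} [Fintype ι] [DecidableEq ι] {m : ℕ} (T : (ι → F) →ₗ[F] (Fin m → K'))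
    (hT : Function.Injective T) (hι : Fintype.card ι = 2 * m) : (ι → F) ≃ₗ[F] (Fin m → K') :=
  LinearMap.linearEquivOfInjective T hT (by
    rw [Module.finrank_fintype_fun_eq_card, Module.finrank_pi_fintype]
    simp [QuadraticAlgebra.finrank_eq_two, hι, mul_comm])

@[simp] theorem equivOfInj_apply {ι : Type} [Fintype ι] [DecidableEq ι] {m : ℕ} (T : (ι → F) →ₗ[F] (Fin m → K'))
    (hT : Function.Injective T) (hι : Fintype.card ι = 2 * m) (x : ι → F) :
    equivOfInj T hT hι x = T x := rfl

/-- `GU_m(q) ≤ O⁺_{2m}(q)`, `m` even. -/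
theorem gu_to_plus (m : ℕ) (hm : Even m) : ∃ φ : ↥(Cfsg.GU m K' q) →* ↥(Cfsg.isometryGroup F (Cfsg.quadFormPlus m F)),
    Function.Injective φ := by
  obtain ⟨t, rfl⟩ := hm
  rw [← two_mul]
  obtain ⟨T, h1, h2⟩ := exists_T_plus (F := F) (a := a) (b := b) t
  have hc : Fintype.card (Fin (2 * t) ⊕ Fin (2 * t)) = 2 * (2 * t) := by simp; ring
  exact ⟨guToIsometry (equivOfInj T h1 hc) q _ h2, guToIsometry_injective _ _ _ _⟩

/-- `GU_m(q) ≤ O⁻_{2m}(q)`, `m` odd, for the norm form. -/
theorem gu_to_minus (t : ℕ) :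
    ∃ φ : ↥(Cfsg.GU (2 * t + 1) K' q) →*
      ↥(Cfsg.isometryGroup F (Cfsg.quadFormMinus (2 * t) F b (-a))),
    Function.Injective φ := by
  obtain ⟨T₀, h1, h2⟩ := exists_T_plus (F := F) (a := a) (b := b) t
  let π : ((Fin (2 * t) ⊕ Fin (2 * t)) ⊕ Fin 2 → F) →ₗ[F] (Fin (2 * t) ⊕ Fin (2 * t) → F) :=
    LinearMap.funLeft F F Sum.inl
  have hπ : ∀ x j, π x j = x (.inl j) := fun _ _ => rfl
  let B : ((Fin (2 * t) ⊕ Fin (2 * t)) ⊕ Fin 2 → F) →ₗ[F] K' :=
    lin4 (F := F) (a := a) (b := b) (.inr 0) (.inr 1) (.inr 1) (.inr 1) 1 ω 0 0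
  have hB : ∀ x, B x = ⟨x (.inr 0), x (.inr 1)⟩ := by
    intro x
    ext <;> simp [B, lin4_apply]
  let T := snocL (T₀ ∘ₗ π) B
  have hinj : Function.Injective T := by
    apply snocL_injective
    intro x h3 h4
    have h5 : π x = 0 := h1 (h3.trans (map_zero T₀).symm)
    rw [hB] at h4
    have h6 : x (.inr 0) = 0 := congrArg QuadraticAlgebra.re h4
    have h7 : x (.inr 1) = 0 := congrArg QuadraticAlgebra.im h4
    funext j
    rcases j with j | j
    · exact congrFun h5 j
    · fin_cases j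
      · exact h6
      · exact h7
  have hQ : ∀ x, algebraMap F K' (Cfsg.quadFormMinus (2 * t) F b (-a) x) =
      Cfsg.hermForm (2 * t + 1) K' q (T x) (T x) := by
    intro x
    show _ = Cfsg.hermForm (2 * t + 1) K' q (Fin.snoc (α := fun _ => K') (T₀ (π x)) (B x))
      (Fin.snoc (α := fun _ => K') (T₀ (π x)) (B x))
    rw [herm_snoc, ← h2, QuadExt.pow_q_eq_star, ← algebraMap_norm_eq_mul_star, ← map_add]
    congr 1
    rw [hB]
    simp only [Cfsg.quadFormMinus, Cfsg.quadFormPlus, hπ, QuadraticAlgebra.norm_def]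
    ring
  have hc : Fintype.card ((Fin (2 * t) ⊕ Fin (2 * t)) ⊕ Fin 2) = 2 * (2 * t + 1) := by simp; ring
  exact ⟨guToIsometry (equivOfInj T hinj hc) q _ hQ, guToIsometry_injective _ _ _ _⟩

end quad

end Cfsg.Agent.Lib.Classical.GUEmbed
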