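import Mathlib

/-!
# The number of nilpotent matrices over a finite field (Fine–Herstein)

The proof goes through the Fitting decomposition: an endomorphism of `V` is the same as a
decomposition `V = V₀ ⊕ V₁` with a nilpotent endomorphism of `V₀` and an automorphism of `V₁`.
-/

set_option autoImplicit false
set_option linter.unusedSectionVars false
set_option linter.style.haveILetI false

namespace Cfsg.Agent.Lib.Classical.NilCount

open Module

variable {F : Type*} [Field F]

section gk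

variable {V : Type*} [AddCommGroup V] [Module F V]

/-- The generalized kernel. -/
def gk (A : Module.End F V) : Submodule F V where
  carrier := {x | ∃ i : ℕ, (A ^ i) x = 0}
  add_mem' := by
    rintro x y ⟨i, hi⟩ ⟨j, hj⟩
    refine ⟨i + j, ?_⟩
    have h1 : (A ^ (i + j)) x = (A ^ j) ((A ^ i) x) := by rw [add_comm, pow_add]; rfl
    have h2 : (A ^ (i + j)) y = (A ^ i) ((A ^ j) y) := by rw [pow_add]; rfl
    rw [map_add, h1, h2, hi, hj, map_zero, map_zero, add_zero]
  zero_mem' := ⟨0, by simp⟩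
  smul_mem' := by
    rintro c x ⟨i, hi⟩
    exact ⟨i, by rw [map_smul, hi, smul_zero]⟩

theorem mem_gk {A : Module.End F V} {x : V} : x ∈ gk A ↔ ∃ i : ℕ, (A ^ i) x = 0 := Iff.rfl

end gk

section prod

variable {V₀ V₁ : Type*} [AddCommGroup V₀] [Module F V₀] [AddCommGroup V₁] [Module F V₁]

theorem prodMap_pow_apply (N : Module.End F V₀) (U : Module.End F V₁) (i : ℕ) (z : V₀ × V₁) :
    ((LinearMap.prodMap N U : Module.End F (V₀ × V₁)) ^ i) z = ((N ^ i) z.1, (U ^ i) z.2) := by
  induction i with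
  | zero => simp
  | succ i ih =>
    rw [pow_succ', Module.End.mul_apply, ih, pow_succ', pow_succ']
    simp

/-- Powers of an automorphism, as a linear map, are injective. -/
theorem pow_inj (U : V₁ ≃ₗ[F] V₁) (i : ℕ) :
    Function.Injective ((U.toLinearMap : Module.End F V₁) ^ i) := by
  induction i with
  | zero =>
    intro x y h
    simpa using h
  | succ i ih =>
    rw [pow_succ']
    intro x y h
    exact ih (U.injective h)

theorem pow_surj (U : V₁ ≃ₗ[F] V₁) (i : ℕ) :
    Function.Surjective ((U.toLinearMap : Module.End F V₁) ^ i) := by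
  induction i with
  | zero =>
    intro y
    exact ⟨y, by simp⟩
  | succ i ih =>
    rw [pow_succ]
    intro y
    obtain ⟨z, hz⟩ := ih y
    obtain ⟨w, rfl⟩ := U.surjective z
    exact ⟨w, hz⟩

/-- Generalized kernel of a block map. -/
theorem mem_gk_prodMap {N : Module.End F V₀} (hN : IsNilpotent N) (U : V₁ ≃ₗ[F] V₁) (z : V₀ × V₁) :
    z ∈ gk (LinearMap.prodMap N U.toLinearMap : Module.End F (V₀ × V₁)) ↔ z.2 = 0 := by
  obtain ⟨m, hm⟩ := hN
  constructor
  · rintro ⟨i, hi⟩
    rw [prodMap_pow_apply] at hi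
    have h2 := congrArg Prod.snd hi
    exact pow_inj U i (by simpa using h2)
  · intro h
    refine ⟨m, ?_⟩
    rw [prodMap_pow_apply, hm, h]
    simp

/-- An intertwiner of block maps is itself a block map. -/
theorem intertwine_snd {N N₀ : Module.End F V₀} (hN : IsNilpotent N) (U U₀ : V₁ ≃ₗ[F] V₁)
    (h : (V₀ × V₁) →ₗ[F] (V₀ × V₁))
    (hc : ∀ z, LinearMap.prodMap N₀ U₀.toLinearMap (h z) = h (LinearMap.prodMap N U.toLinearMap z))
    (x : V₀) : (h (x, 0)).2 = 0 := by
  obtain ⟨m, hm⟩ := hN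
  have hp : ∀ (i : ℕ) (z), ((LinearMap.prodMap N₀ U₀.toLinearMap : Module.End F (V₀ × V₁)) ^ i) (h z)
      = h (((LinearMap.prodMap N U.toLinearMap : Module.End F (V₀ × V₁)) ^ i) z) := by
    intro i
    induction i with
    | zero => simp
    | succ i ih =>
      intro z
      rw [pow_succ, Module.End.mul_apply, hc, ih, pow_succ, Module.End.mul_apply]
  have h1 := hp m (x, 0)
  rw [prodMap_pow_apply, prodMap_pow_apply, hm] at h1
  simp only [LinearMap.zero_apply, map_zero, Prod.mk_zero_zero] at h1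
  have h2 := congrArg Prod.snd h1
  exact pow_inj U₀ m (by simpa using h2)

theorem intertwine_fst {N N₀ : Module.End F V₀} (hN₀ : IsNilpotent N₀) (U U₀ : V₁ ≃ₗ[F] V₁)
    (h : (V₀ × V₁) →ₗ[F] (V₀ × V₁))
    (hc : ∀ z, LinearMap.prodMap N₀ U₀.toLinearMap (h z) = h (LinearMap.prodMap N U.toLinearMap z))
    (y : V₁) : (h (0, y)).1 = 0 := by
  obtain ⟨m, hm⟩ := hN₀
  have hp : ∀ (i : ℕ) (z), ((LinearMap.prodMap N₀ U₀.toLinearMap : Module.End F (V₀ × V₁)) ^ i) (h z)
      = h (((LinearMap.prodMap N U.toLinearMap : Module.End F (V₀ × V₁)) ^ i) z) := by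
    intro i
    induction i with
    | zero => simp
    | succ i ih =>
      intro z
      rw [pow_succ, Module.End.mul_apply, hc, ih, pow_succ, Module.End.mul_apply]
  obtain ⟨y', rfl⟩ := pow_surj U m y
  have h1 := hp m (0, y')
  rw [prodMap_pow_apply, prodMap_pow_apply, hm] at h1
  simp only [LinearMap.zero_apply, map_zero] at h1
  have h2 := congrArg Prod.fst h1
  simpa using h2.symm

end prod

section fibration

variable {V₀ V₁ V : Type*} [AddCommGroup V₀] [Module F V₀] [AddCommGroup V₁] [Module F V₁]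
  [AddCommGroup V] [Module F V]

/-- The nilpotent endomorphisms. -/
abbrev NilE (F : Type*) [Field F] (V : Type*) [AddCommGroup V] [Module F V] : Type _ :=
  {T : Module.End F V // IsNilpotent T}

/-- The source of the parametrization of endomorphisms with a given Fitting dimension. -/
abbrev XX (F : Type*) [Field F] (V₀ V₁ V : Type*) [AddCommGroup V₀] [Module F V₀] [AddCommGroup V₁]
    [Module F V₁] [AddCommGroup V] [Module F V] : Type _ :=
  ((V₀ × V₁) ≃ₗ[F] V) × NilE F V₀ × (V₁ ≃ₗ[F] V₁)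

/-- The block map attached to a parameter. -/
noncomputable def phi (x : XX F V₀ V₁ V) : Module.End F V :=
  (x.1.toLinearMap ∘ₗ (LinearMap.prodMap x.2.1.1 x.2.2.toLinearMap)) ∘ₗ x.1.symm.toLinearMap

theorem phi_apply_theta (x : XX F V₀ V₁ V) (z : V₀ × V₁) :
    phi x (x.1 z) = x.1 (LinearMap.prodMap x.2.1.1 x.2.2.toLinearMap z) := by
  simp [phi]

theorem phi_pow_apply_theta (x : XX F V₀ V₁ V) (i : ℕ) (z : V₀ × V₁) :
    (phi x ^ i) (x.1 z) = x.1 (((LinearMap.prodMap x.2.1.1 x.2.2.toLinearMap :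
      Module.End F (V₀ × V₁)) ^ i) z) := by
  induction i generalizing z with
  | zero => simp
  | succ i ih =>
    rw [pow_succ, Module.End.mul_apply, phi_apply_theta, ih, pow_succ, Module.End.mul_apply]

/-- The Fitting dimension of `phi x`. -/
theorem finrank_gk_phi (x : XX F V₀ V₁ V) : finrank F (gk (phi x)) = finrank F V₀ := by
  have hmem : ∀ z : V₀ × V₁, x.1 z ∈ gk (phi x) ↔ z.2 = 0 := by
    intro z
    rw [← mem_gk_prodMap x.2.1.2 x.2.2 z, mem_gk, mem_gk]
    refine exists_congr fun i => ?_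
    rw [phi_pow_apply_theta]
    simp
  let f : V₀ →ₗ[F] gk (phi x) :=
    LinearMap.codRestrict (gk (phi x)) (x.1.toLinearMap ∘ₗ LinearMap.inl F V₀ V₁) (by
      intro z
      exact (hmem (z, 0)).mpr rfl)
  have hf : Function.Bijective f := by
    constructor
    · intro a b hab
      have h1 : x.1 (a, 0) = x.1 (b, 0) := congrArg Subtype.val hab
      have h2 := x.1.injective h1
      exact congrArg Prod.fst h2
    · rintro ⟨y, hy⟩
      obtain ⟨z, rfl⟩ := x.1.surjective y
      have h1 := (hmem z).mp hy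
      refine ⟨z.1, Subtype.ext ?_⟩
      show x.1 (z.1, 0) = x.1 z
      congr 1
      exact Prod.ext rfl h1.symm
  exact (LinearEquiv.ofBijective f hf).finrank_eq.symm

/-- The space of endomorphisms with Fitting dimension `k`. -/
abbrev EE (F : Type*) [Field F] (V : Type*) [AddCommGroup V] [Module F V] (k : ℕ) : Type _ :=
  {A : Module.End F V // finrank F (gk A) = k}

/-- The map to the space of endomorphisms with Fitting dimension `k`. -/
noncomputable def Phi (x : XX F V₀ V₁ V) : EE F V (finrank F V₀) := ⟨phi x, finrank_gk_phi x⟩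

variable [FiniteDimensional F V₀] [FiniteDimensional F V₁] [FiniteDimensional F V]

/-- The Fitting decomposition in our terms. -/
theorem Phi_surjective (hdim : finrank F V₀ + finrank F V₁ = finrank F V) :
    Function.Surjective (Phi : XX F V₀ V₁ V → EE F V (finrank F V₀)) := by
  rintro ⟨A, hA⟩
  obtain ⟨m, hm, hm1⟩ := (A.eventually_isCompl_ker_pow_range_pow.and
    (Filter.eventually_ge_atTop 1)).exists
  set Y₀ := LinearMap.ker (A ^ m) with hY₀
  set Y₁ := LinearMap.range (A ^ m) with hY₁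
  have hinv₀ : ∀ y ∈ Y₀, A y ∈ Y₀ := by
    intro y hy
    rw [hY₀, LinearMap.mem_ker] at hy ⊢
    rw [← Module.End.mul_apply, ← pow_succ, pow_succ', Module.End.mul_apply, hy, map_zero]
  have hinv₁ : ∀ y ∈ Y₁, A y ∈ Y₁ := by
    rintro _ ⟨z, rfl⟩
    refine ⟨A z, ?_⟩
    rw [← Module.End.mul_apply, ← pow_succ, pow_succ', Module.End.mul_apply]
  have hinj₁ : ∀ y ∈ Y₁, A y = 0 → y = 0 := by
    intro y hy h0
    have h1 : y ∈ Y₀ := by
      rw [hY₀, LinearMap.mem_ker]
      obtain ⟨r, hr⟩ : ∃ r, m = r + 1 := ⟨m - 1, by omega⟩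
      rw [hr, pow_succ, Module.End.mul_apply, h0, map_zero]
    have h2 : y ∈ Y₀ ⊓ Y₁ := ⟨h1, hy⟩
    rw [hm.inf_eq_bot] at h2
    simpa using h2
  have hinjp : ∀ (i : ℕ) (y), y ∈ Y₁ → (A ^ i) y = 0 → y = 0 := by
    intro i
    induction i with
    | zero => intro y _ h; simpa using h
    | succ i ih =>
      intro y hy h
      rw [pow_succ, Module.End.mul_apply] at h
      exact hinj₁ y hy (ih _ (hinv₁ y hy) h)
  have hgk : gk A = Y₀ := by
    apply le_antisymm
    · rintro x ⟨i, hi⟩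
      have hx : x ∈ Y₀ ⊔ Y₁ := by rw [hm.sup_eq_top]; trivial
      obtain ⟨y₀, hy₀, y₁, hy₁, rfl⟩ := Submodule.mem_sup.mp hx
      have h1 : (A ^ m) y₀ = 0 := hy₀
      have h2 : (A ^ (i + m)) y₀ = 0 := by
        rw [pow_add, Module.End.mul_apply, h1, map_zero]
      have h3 : (A ^ (i + m)) (y₀ + y₁) = 0 := by
        rw [add_comm i m, pow_add, Module.End.mul_apply, hi, map_zero]
      rw [map_add, h2, zero_add] at h3
      rw [hinjp _ _ hy₁ h3, add_zero]
      exact hy₀
    · intro x hx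
      exact ⟨m, hx⟩
  have hd₀ : finrank F V₀ = finrank F Y₀ := by rw [← hA, hgk]
  have hd₁ : finrank F V₁ = finrank F Y₁ := by
    have := Submodule.finrank_add_eq_of_isCompl hm
    omega
  let e₀ : V₀ ≃ₗ[F] Y₀ := LinearEquiv.ofFinrankEq _ _ hd₀
  let e₁ : V₁ ≃ₗ[F] Y₁ := LinearEquiv.ofFinrankEq _ _ hd₁
  let θ : (V₀ × V₁) ≃ₗ[F] V := (LinearEquiv.prodCongr e₀ e₁).trans (Submodule.prodEquivOfIsCompl Y₀ Y₁ hm)
  have hθ : ∀ z : V₀ × V₁, θ z = (e₀ z.1 : V) + (e₁ z.2 : V) := fun z => rfl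
  let N : Module.End F V₀ := e₀.symm.toLinearMap ∘ₗ (A.restrict hinv₀) ∘ₗ e₀.toLinearMap
  let U' : Module.End F V₁ := e₁.symm.toLinearMap ∘ₗ (A.restrict hinv₁) ∘ₗ e₁.toLinearMap
  have hN : ∀ z, (e₀ (N z) : V) = A (e₀ z) := by
    intro z
    simp [N]
  have hU' : ∀ z, (e₁ (U' z) : V) = A (e₁ z) := by
    intro z
    simp [U']
  have hU'inj : Function.Injective U' := by
    rw [← LinearMap.ker_eq_bot, LinearMap.ker_eq_bot']
    intro z hz
    have h1 : A (e₁ z) = 0 := by
      rw [← hU', hz]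
      simp
    have h2 := hinj₁ _ (e₁ z).2 h1
    have h3 : e₁ z = 0 := Subtype.ext h2
    simpa using h3
  let U : V₁ ≃ₗ[F] V₁ := LinearEquiv.ofInjectiveEndo U' hU'inj
  have hU : ∀ z, U z = U' z := fun z => rfl
  have hNpow : ∀ (i : ℕ) (z), (e₀ ((N ^ i) z) : V) = (A ^ i) (e₀ z) := by
    intro i
    induction i with
    | zero => intro z; simp
    | succ i ih =>
      intro z
      rw [pow_succ', Module.End.mul_apply, hN, ih, pow_succ', Module.End.mul_apply]
  have hNnil : IsNilpotent N := by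
    refine ⟨m, ?_⟩
    apply LinearMap.ext
    intro z
    have h1 := hNpow m z
    have h2 : (A ^ m) (e₀ z : V) = 0 := (e₀ z).2
    rw [h2] at h1
    have h3 : e₀ ((N ^ m) z) = 0 := Subtype.ext h1
    simpa using h3
  refine ⟨(θ, ⟨N, hNnil⟩, U), Subtype.ext ?_⟩
  apply LinearMap.ext
  intro v
  obtain ⟨z, rfl⟩ := θ.surjective v
  show phi (θ, ⟨N, hNnil⟩, U) (θ z) = A (θ z)
  rw [phi_apply_theta]
  simp only [LinearMap.prodMap_apply, LinearEquiv.coe_coe]
  rw [hθ, hθ, hN, hU, hU', map_add]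

/-- A linear automorphism preserving the two summands is a block map. -/
theorem exists_block (k : (V₀ × V₁) ≃ₗ[F] (V₀ × V₁)) (hs : ∀ z, (k (z, 0)).2 = 0)
    (hf : ∀ y, (k (0, y)).1 = 0) (hs' : ∀ z, (k.symm (z, 0)).2 = 0)
    (hf' : ∀ y, (k.symm (0, y)).1 = 0) :
    ∃ (h₀ : V₀ ≃ₗ[F] V₀) (h₁ : V₁ ≃ₗ[F] V₁), ∀ a b, k (a, b) = (h₀ a, h₁ b) := by
  let f₀ : V₀ →ₗ[F] V₀ := LinearMap.fst F V₀ V₁ ∘ₗ k.toLinearMap ∘ₗ LinearMap.inl F V₀ V₁
  let g₀ : V₀ →ₗ[F] V₀ := LinearMap.fst F V₀ V₁ ∘ₗ k.symm.toLinearMap ∘ₗ LinearMap.inl F V₀ V₁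
  let f₁ : V₁ →ₗ[F] V₁ := LinearMap.snd F V₀ V₁ ∘ₗ k.toLinearMap ∘ₗ LinearMap.inr F V₀ V₁
  let g₁ : V₁ →ₗ[F] V₁ := LinearMap.snd F V₀ V₁ ∘ₗ k.symm.toLinearMap ∘ₗ LinearMap.inr F V₀ V₁
  have hf₀ : ∀ z, k (z, 0) = (f₀ z, 0) := fun z => Prod.ext rfl (hs z)
  have hg₀ : ∀ z, k.symm (z, 0) = (g₀ z, 0) := fun z => Prod.ext rfl (hs' z)
  have hf₁ : ∀ y, k (0, y) = (0, f₁ y) := fun y => Prod.ext (hf y) rfl
  have hg₁ : ∀ y, k.symm (0, y) = (0, g₁ y) := fun y => Prod.ext (hf' y) rfl
  let h₀ : V₀ ≃ₗ[F] V₀ := LinearEquiv.ofLinearMap f₀ g₀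
    (by
      apply LinearMap.ext
      intro z
      have h1 : k (k.symm (z, 0)) = (z, 0) := k.apply_symm_apply _
      rw [hg₀, hf₀] at h1
      exact congrArg Prod.fst h1)
    (by
      apply LinearMap.ext
      intro z
      have h1 : k.symm (k (z, 0)) = (z, 0) := k.symm_apply_apply _
      rw [hf₀, hg₀] at h1
      exact congrArg Prod.fst h1)
  let h₁ : V₁ ≃ₗ[F] V₁ := LinearEquiv.ofLinearMap f₁ g₁
    (by
      apply LinearMap.ext
      intro z
      have h1 : k (k.symm (0, z)) = (0, z) := k.apply_symm_apply _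
      rw [hg₁, hf₁] at h1
      exact congrArg Prod.snd h1)
    (by
      apply LinearMap.ext
      intro z
      have h1 : k.symm (k (0, z)) = (0, z) := k.symm_apply_apply _
      rw [hf₁, hg₁] at h1
      exact congrArg Prod.snd h1)
  refine ⟨h₀, h₁, fun a b => ?_⟩
  have h1 : ((a, b) : V₀ × V₁) = (a, 0) + (0, b) := by simp
  rw [h1, map_add, hf₀, hf₁]
  simp only [Prod.mk_add_mk, add_zero, zero_add]
  rfl

/-- The group acting on the parameters. -/
abbrev HH (F : Type*) [Field F] (V₀ V₁ : Type*) [AddCommGroup V₀] [Module F V₀] [AddCommGroup V₁]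
    [Module F V₁] : Type _ :=
  (V₀ ≃ₗ[F] V₀) × (V₁ ≃ₗ[F] V₁)

/-- The action on parameters. -/
noncomputable def act (x : XX F V₀ V₁ V) (h : HH F V₀ V₁) : XX F V₀ V₁ V :=
  ((LinearEquiv.prodCongr h.1 h.2).trans x.1,
    ⟨h.1.symm.toLinearMap ∘ₗ x.2.1.1 ∘ₗ h.1.toLinearMap, by
      obtain ⟨m, hm⟩ := x.2.1.2
      refine ⟨m, ?_⟩
      have hp : ∀ (i : ℕ) (z), ((h.1.symm.toLinearMap ∘ₗ x.2.1.1 ∘ₗ h.1.toLinearMap :
          Module.End F V₀) ^ i) z = h.1.symm ((x.2.1.1 ^ i) (h.1 z)) := by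
        intro i
        induction i with
        | zero => intro z; simp
        | succ i ih =>
          intro z
          rw [pow_succ', Module.End.mul_apply, ih, pow_succ', Module.End.mul_apply]
          simp
      apply LinearMap.ext
      intro z
      rw [hp, hm]
      simp⟩,
    (h.2.trans x.2.2).trans h.2.symm)

theorem act_phi (x : XX F V₀ V₁ V) (h : HH F V₀ V₁) : phi (act x h) = phi x := by
  apply LinearMap.ext
  intro v
  obtain ⟨z, rfl⟩ := (act x h).1.surjective v
  rw [phi_apply_theta]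
  obtain ⟨a, b⟩ := z
  have h1 : ∀ c d, (act x h).1 (c, d) = x.1 (h.1 c, h.2 d) := fun _ _ => rfl
  rw [LinearMap.prodMap_apply, h1, h1, phi_apply_theta]
  simp [act]

theorem act_injective (x : XX F V₀ V₁ V) : Function.Injective (act x) := by
  intro h h' he
  have h1 := congrArg Prod.fst he
  have h2 : ∀ z : V₀ × V₁, x.1 (h.1 z.1, h.2 z.2) = x.1 (h'.1 z.1, h'.2 z.2) :=
    fun z => LinearEquiv.congr_fun h1 z
  have h3 : ∀ z : V₀ × V₁, (h.1 z.1, h.2 z.2) = (h'.1 z.1, h'.2 z.2) :=
    fun z => x.1.injective (h2 z)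
  refine Prod.ext ?_ ?_
  · apply LinearEquiv.ext
    intro a
    exact congrArg Prod.fst (h3 (a, 0))
  · apply LinearEquiv.ext
    intro b
    exact congrArg Prod.snd (h3 (0, b))

theorem act_surjective (x₀ x : XX F V₀ V₁ V) (he : phi x = phi x₀) : ∃ h, act x₀ h = x := by
  let k : (V₀ × V₁) ≃ₗ[F] (V₀ × V₁) := x.1.trans x₀.1.symm
  have hk : ∀ z, x₀.1 (k z) = x.1 z := fun z => by simp [k]
  have hc : ∀ z, LinearMap.prodMap x₀.2.1.1 x₀.2.2.toLinearMap (k z) =
      k (LinearMap.prodMap x.2.1.1 x.2.2.toLinearMap z) := by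
    intro z
    apply x₀.1.injective
    rw [← phi_apply_theta, hk, hk, ← phi_apply_theta, he]
  have hc' : ∀ z, LinearMap.prodMap x.2.1.1 x.2.2.toLinearMap (k.symm z) =
      k.symm (LinearMap.prodMap x₀.2.1.1 x₀.2.2.toLinearMap z) := by
    intro z
    apply k.injective
    rw [← hc]
    simp
  have hs := intertwine_snd x.2.1.2 x.2.2 x₀.2.2 k.toLinearMap hc
  have hf := intertwine_fst x₀.2.1.2 x.2.2 x₀.2.2 k.toLinearMap hc
  have hs' := intertwine_snd x₀.2.1.2 x₀.2.2 x.2.2 k.symm.toLinearMap hc'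
  have hf' := intertwine_fst x.2.1.2 x₀.2.2 x.2.2 k.symm.toLinearMap hc'
  obtain ⟨h₀, h₁, hb⟩ := exists_block k hs hf hs' hf'
  refine ⟨(h₀, h₁), ?_⟩
  have hc2 : ∀ a b, (x₀.2.1.1 (h₀ a), x₀.2.2 (h₁ b)) = (h₀ (x.2.1.1 a), h₁ (x.2.2 b)) := by
    intro a b
    have h1 := hc (a, b)
    rw [LinearMap.prodMap_apply] at h1
    simp only [hb, LinearMap.prodMap_apply, LinearEquiv.coe_coe] at h1
    simpa using h1
  refine Prod.ext ?_ (Prod.ext ?_ ?_)
  · apply LinearEquiv.ext
    rintro ⟨a, b⟩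
    show x₀.1 (h₀ a, h₁ b) = x.1 (a, b)
    rw [← hb, hk]
  · apply Subtype.ext
    apply LinearMap.ext
    intro a
    show h₀.symm (x₀.2.1.1 (h₀ a)) = x.2.1.1 a
    have h1 := congrArg Prod.fst (hc2 a 0)
    simp only at h1
    rw [h1]
    simp
  · apply LinearEquiv.ext
    intro b
    show h₁.symm (x₀.2.2 (h₁ b)) = x.2.2 b
    have h1 := congrArg Prod.snd (hc2 0 b)
    simp only at h1
    rw [h1]
    simp

omit [FiniteDimensional F V₀] [FiniteDimensional F V₁] [FiniteDimensional F V] in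
theorem finite_linearEquiv (A B : Type*) [AddCommGroup A] [Module F A] [AddCommGroup B] [Module F B]
    [FiniteDimensional F A] [FiniteDimensional F B] [Finite F] : Finite (A ≃ₗ[F] B) := by
  haveI : Finite B := Module.finite_of_finite F
  haveI : Finite (A →ₗ[F] B) := Module.finite_of_finite F
  exact Finite.of_injective (fun e : A ≃ₗ[F] B => e.toLinearMap) LinearEquiv.toLinearMap_injective

/-- The parameter count. -/
theorem card_XX [Finite F] (hdim : finrank F V₀ + finrank F V₁ = finrank F V) :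
    Nat.card (XX F V₀ V₁ V) = Nat.card (EE F V (finrank F V₀)) * Nat.card (HH F V₀ V₁) := by
  classical
  haveI : Finite V₀ := Module.finite_of_finite F
  haveI : Finite V₁ := Module.finite_of_finite F
  haveI : Finite V := Module.finite_of_finite F
  haveI : Finite (Module.End F V) := Module.finite_of_finite F
  haveI : Finite (Module.End F V₀) := Module.finite_of_finite F
  haveI : Finite (Module.End F V₁) := Module.finite_of_finite F
  haveI : Finite (Module.End F (V₀ × V₁)) := Module.finite_of_finite F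
  haveI := finite_linearEquiv (F := F) (V₀ × V₁) V
  haveI := finite_linearEquiv (F := F) V₀ V₀
  haveI := finite_linearEquiv (F := F) V₁ V₁
  haveI : Fintype (EE F V (finrank F V₀)) := Fintype.ofFinite _
  have hfib : ∀ e : EE F V (finrank F V₀), Nat.card {x : XX F V₀ V₁ V // Phi x = e} =
      Nat.card (HH F V₀ V₁) := by
    intro e
    obtain ⟨x₀, rfl⟩ := Phi_surjective (V₀ := V₀) (V₁ := V₁) hdim e
    refine (Nat.card_congr (Equiv.ofBijective
      (fun h : HH F V₀ V₁ => (⟨act x₀ h, Subtype.ext (act_phi x₀ h)⟩ :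
        {x : XX F V₀ V₁ V // Phi x = Phi x₀})) ⟨?_, ?_⟩)).symm
    · intro h h' he
      exact act_injective x₀ (congrArg Subtype.val he)
    · rintro ⟨x, hx⟩
      obtain ⟨h, rfl⟩ := act_surjective x₀ x (congrArg Subtype.val hx)
      exact ⟨h, rfl⟩
  rw [Nat.card_congr (Equiv.sigmaFiberEquiv (Phi : XX F V₀ V₁ V → EE F V (finrank F V₀))).symm,
    Nat.card_sigma]
  simp only [hfib]
  rw [Finset.sum_const, Finset.card_univ, smul_eq_mul, Nat.card_eq_fintype_card (α := EE F V _)]

end fibration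

section count

variable (F) [Fintype F]

/-- The order of `GL_n(q)`. -/
def gg (n : ℕ) : ℕ := ∏ i : Fin n, (Fintype.card F ^ n - Fintype.card F ^ (i : ℕ))

/-- The order of `GL_n(q)`, as a rational number. -/
noncomputable def gQ (n : ℕ) : ℚ := ∏ i : Fin n, ((Fintype.card F : ℚ) ^ n - (Fintype.card F : ℚ) ^ (i : ℕ))

theorem one_lt_q : 1 < Fintype.card F := Fintype.one_lt_card

theorem gg_cast (n : ℕ) : (gg F n : ℚ) = gQ F n := by
  simp only [gg, gQ, Nat.cast_prod]
  refine Finset.prod_congr rfl fun i _ => ?_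
  rw [Nat.cast_sub (Nat.pow_le_pow_right (by have := one_lt_q F; omega) i.2.le)]
  push_cast
  rfl

theorem gQ_ne_zero (n : ℕ) : gQ F n ≠ 0 := by
  rw [gQ, Finset.prod_ne_zero_iff]
  intro i _ h
  have hq : (1 : ℚ) < Fintype.card F := by exact_mod_cast one_lt_q F
  have hlt : (Fintype.card F : ℚ) ^ (i : ℕ) < (Fintype.card F : ℚ) ^ n := pow_lt_pow_right₀ hq i.2
  linarith

theorem gg_ne_zero (n : ℕ) : gg F n ≠ 0 := by
  intro h
  apply gQ_ne_zero F n
  rw [← gg_cast, h]
  simp

theorem gQ_succ (n : ℕ) : gQ F (n + 1) =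
    ((Fintype.card F : ℚ) ^ (n + 1) - 1) * (Fintype.card F : ℚ) ^ n * gQ F n := by
  simp only [gQ]
  rw [Fin.prod_univ_succ]
  simp only [Fin.val_zero, pow_zero, Fin.val_succ]
  rw [mul_assoc]
  congr 1
  have h : ∀ i : Fin n, (Fintype.card F : ℚ) ^ (n + 1) - (Fintype.card F : ℚ) ^ ((i : ℕ) + 1) =
      (Fintype.card F : ℚ) * ((Fintype.card F : ℚ) ^ n - (Fintype.card F : ℚ) ^ (i : ℕ)) := by
    intro i
    ring
  simp only [h]
  rw [Finset.prod_mul_distrib]
  simp

/-- The `q`-series identity. -/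
theorem sum_identity (n : ℕ) : ∑ k ∈ Finset.range (n + 1),
    (Fintype.card F : ℚ) ^ (k * k - k) / gQ F k = (Fintype.card F : ℚ) ^ (n * n) / gQ F n := by
  have hq0 : (Fintype.card F : ℚ) ≠ 0 := by
    have := one_lt_q F
    exact_mod_cast (by omega : Fintype.card F ≠ 0)
  induction n with
  | zero => simp
  | succ n ih =>
    rw [Finset.sum_range_succ, ih]
    have h1 := gQ_ne_zero F n
    have h2 := gQ_ne_zero F (n + 1)
    rw [div_add_div _ _ h1 h2, div_eq_div_iff (mul_ne_zero h1 h2) h2]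
    have e1 : (n + 1) * (n + 1) - (n + 1) = n * n + n := by
      have : (n + 1) * (n + 1) = n * n + n + (n + 1) := by ring
      omega
    have e2 : (n + 1) * (n + 1) = n * n + n + n + 1 := by ring
    rw [e1, e2, gQ_succ]
    ring

/-- The number of nilpotent endomorphisms. -/
noncomputable def Nc (n : ℕ) : ℕ := Nat.card (NilE F (Fin n → F))

theorem card_aut (n : ℕ) : Nat.card ((Fin n → F) ≃ₗ[F] (Fin n → F)) = gg F n := by
  rw [gg, ← Matrix.card_GL_field (𝔽 := F) n]
  exact (Nat.card_congr ((Matrix.GeneralLinearGroup.toLin (n := Fin n) (R := F)).toEquiv.trans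
    (LinearMap.GeneralLinearGroup.generalLinearEquiv F (Fin n → F)).toEquiv)).symm

theorem card_theta (k l n : ℕ) (h : k + l = n) :
    Nat.card (((Fin k → F) × (Fin l → F)) ≃ₗ[F] (Fin n → F)) = gg F n := by
  rw [← card_aut]
  have hd : finrank F ((Fin k → F) × (Fin l → F)) = finrank F (Fin n → F) := by
    simp [h]
  let θ₀ : ((Fin k → F) × (Fin l → F)) ≃ₗ[F] (Fin n → F) := LinearEquiv.ofFinrankEq _ _ hd
  exact Nat.card_congr
    { toFun := fun θ => θ₀.symm.trans θ
      invFun := fun σ => θ₀.trans σ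
      left_inv := fun θ => by
        apply LinearEquiv.ext
        intro z
        simp
      right_inv := fun σ => by
        apply LinearEquiv.ext
        intro z
        simp }

/-- The key count: `|E_k| · |GL_k| = |GL_n| · N(k)`. -/
theorem card_EE (k l n : ℕ) (h : k + l = n) :
    Nat.card (EE F (Fin n → F) k) * gg F k = gg F n * Nc F k := by
  have h1 := card_XX (F := F) (V₀ := Fin k → F) (V₁ := Fin l → F) (V := Fin n → F) (by simp [h])
  have e : finrank F (Fin k → F) = k := by simp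
  rw [e, XX, HH] at h1
  haveI : Finite (Module.End F (Fin k → F)) := Module.finite_of_finite F
  haveI := finite_linearEquiv (F := F) (Fin l → F) (Fin l → F)
  haveI := finite_linearEquiv (F := F) (Fin k → F) (Fin k → F)
  haveI := finite_linearEquiv (F := F) ((Fin k → F) × (Fin l → F)) (Fin n → F)
  rw [Nat.card_prod, Nat.card_prod, Nat.card_prod, card_theta F k l n h, card_aut, card_aut] at h1
  have h2 : gg F l ≠ 0 := gg_ne_zero F l
  apply Nat.eq_of_mul_eq_mul_right (Nat.pos_of_ne_zero h2)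
  rw [mul_assoc, mul_assoc, ← h1]
  rfl

/-- The partition of all endomorphisms. -/
theorem sum_card_EE (n : ℕ) : ∑ k ∈ Finset.range (n + 1), Nat.card (EE F (Fin n → F) k) =
    Fintype.card F ^ (n * n) := by
  classical
  haveI : Finite (Module.End F (Fin n → F)) := Module.finite_of_finite F
  have hle : ∀ A : Module.End F (Fin n → F), finrank F (gk A) < n + 1 := by
    intro A
    have := Submodule.finrank_le (gk A)
    simp at this
    omega
  let f : Module.End F (Fin n → F) → Fin (n + 1) := fun A => ⟨finrank F (gk A), hle A⟩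
  have h1 : Nat.card (Module.End F (Fin n → F)) = Fintype.card F ^ (n * n) := by
    rw [Module.natCard_eq_pow_finrank (K := F), Module.finrank_linearMap]
    simp
  rw [← h1, Nat.card_congr (Equiv.sigmaFiberEquiv f).symm, Nat.card_sigma,
    Finset.sum_range (fun k => Nat.card (EE F (Fin n → F) k))]
  refine Finset.sum_congr rfl fun k _ => Nat.card_congr ?_
  exact
    { toFun := fun A => ⟨A.1, Fin.ext A.2⟩
      invFun := fun A => ⟨A.1, congrArg Fin.val A.2⟩
      left_inv := fun A => rfl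
      right_inv := fun A => rfl }

/-- **Fine–Herstein**: the number of nilpotent `n × n` matrices over `F_q` is `q^(n² - n)`. -/
theorem Nc_eq (n : ℕ) : Nc F n = Fintype.card F ^ (n * n - n) := by
  induction n using Nat.strong_induction_on with
  | _ n ih =>
    have hsum : ∑ k ∈ Finset.range (n + 1), (Nc F k : ℚ) / gQ F k =
        (Fintype.card F : ℚ) ^ (n * n) / gQ F n := by
      have h1 := sum_card_EE F n
      have h2 : ∀ k ∈ Finset.range (n + 1), (Nat.card (EE F (Fin n → F) k) : ℚ) =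
          gQ F n * ((Nc F k : ℚ) / gQ F k) := by
        intro k hk
        have hk' : k + (n - k) = n := by
          have := Finset.mem_range.mp hk
          omega
        have h3 := card_EE F k (n - k) n hk'
        have h4 : (Nat.card (EE F (Fin n → F) k) : ℚ) * gQ F k = gQ F n * Nc F k := by
          rw [← gg_cast, ← gg_cast]
          exact_mod_cast h3
        have h5 := gQ_ne_zero F k
        field_simp
        linarith
      have h3 : (∑ k ∈ Finset.range (n + 1), (Nat.card (EE F (Fin n → F) k) : ℚ)) =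
          (Fintype.card F : ℚ) ^ (n * n) := by
        exact_mod_cast h1
      rw [Finset.sum_congr rfl h2, ← Finset.mul_sum] at h3
      have h5 := gQ_ne_zero F n
      rw [← h3]
      field_simp
    have hid := sum_identity F n
    rw [Finset.sum_range_succ] at hsum hid
    have hlt : ∀ k ∈ Finset.range n, (Nc F k : ℚ) / gQ F k =
        (Fintype.card F : ℚ) ^ (k * k - k) / gQ F k := by
      intro k hk
      rw [ih k (Finset.mem_range.mp hk)]
      push_cast
      rfl
    rw [Finset.sum_congr rfl hlt] at hsum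
    have h6 : (Nc F n : ℚ) / gQ F n = (Fintype.card F : ℚ) ^ (n * n - n) / gQ F n := by
      linarith
    have h7 := gQ_ne_zero F n
    rw [div_left_inj' h7] at h6
    exact_mod_cast h6

end count

end Cfsg.Agent.Lib.Classical.NilCount
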