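/-
Class counts over a quadratic subfield: the subgroup of square multipliers and the index computation.
-/
import Mathlib
import Cfsg.Agent.Lib.Classical.OmegaLift
import Cfsg.Agent.Lib.Orth.Levi

set_option autoImplicit false
set_option linter.unusedSimpArgs false
set_option linter.unusedSectionVars false
set_option linter.style.haveILetI false
set_option linter.unusedVariables false
set_option linter.unnecessarySimpa false

namespace Cfsg.Agent.Lib.Classical.OmegaQuadCount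



open Module MulAction QuadraticMap Matrix Cfsg.Agent.Lib.Witt.Quadratic Cfsg.Agent.Lib.Orth.Refl
open Cfsg.Agent.Lib.Orth.Gen Cfsg.Agent.Lib.OrthRefl.Eichler Cfsg.Agent.Lib.Classical.QuadEichler
open Cfsg.Agent.Lib.Classical.QuadEichSimple Cfsg.Agent.Lib.Classical.OmegaHP Cfsg.Agent.Lib.Classical.OmegaLocal
open Cfsg.Agent.Lib.Classical.OmegaRoot Cfsg.Agent.Lib.Classical.OmegaSemi Cfsg.Agent.Lib.Classical.OmegaConj
open Cfsg.Agent.Lib.Classical.OmegaBar Cfsg.Agent.Lib.Classical.OmegaAut Cfsg.Agent.Lib.Classical.OmegaCount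
open Cfsg.Agent.Lib.Orth.Forms Cfsg.Agent.Lib.Classical.BinaryForms Cfsg.Agent.Lib.Classical.QuadEichBridge
open Cfsg.Agent.Lib.Classical.OmegaForms Cfsg.Agent.Lib.Classical.OmegaOut Cfsg.Agent.Lib.Orth.Bridge
open Cfsg.Agent.Lib.Classical.MatrixBridge Cfsg.Agent.Lib.Classical.SympSimple
open Cfsg.Agent.Lib.Classical.OmegaPGO Cfsg.Agent.Lib.Classical.OmegaPGO2 Cfsg.Agent.Lib.Classical.OmegaFrob
open Cfsg.Agent.Lib.Classical.OmegaOutOdd Cfsg.Agent.Lib.KS71.Speiser Cfsg.Agent.Lib.Classical.OmegaDesc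
open Cfsg.Agent.Lib.Classical.OmegaFieldOdd Cfsg.Agent.Lib.Classical.OmegaCent Cfsg.Agent.Lib.KS71.ClassSplit
open Cfsg.Agent.Lib.Classical.OmegaFieldCount Cfsg.Agent.Lib.QuadFn.MaxSingular Cfsg.Agent.Lib.Orth.Parity
open Cfsg.Agent.Lib.Classical.OmegaClass Cfsg.Agent.Lib.Orth.HypBasis Cfsg.Agent.Lib.QuadFn.PlusForm
open Cfsg.Agent.Lib.Classical.OmegaType Cfsg.Agent.Lib.Classical.OmegaPlusConj Cfsg.Agent.Lib.Classical.OmegaCentF
open Cfsg.Agent.Lib.Classical.OmegaCross Cfsg.Agent.Lib.Classical.OmegaMinusP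
open Cfsg.Agent.Lib.Classical.OmegaMinusConj
open Cfsg.Agent.Lib.Classical.OmegaLift Cfsg.Agent.Lib.Orth.Levi
open scoped commutatorElement

universe u v

section squares

variable {F : Type u} [Field F] [Fintype F]

theorem sq_mul_iff {s t : F} (hs : s ≠ 0) (ht : t ≠ 0) : IsSquare (s * t) ↔ (IsSquare s ↔ IsSquare t) := by
  classical
  have h1 : quadraticChar F (s * t) = quadraticChar F s * quadraticChar F t := map_mul _ _ _
  have hst := mul_ne_zero hs ht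
  by_cases h3 : IsSquare s <;> by_cases h4 : IsSquare t
  · exact iff_of_true (h3.mul h4) (iff_of_true h3 h4)
  · refine iff_of_false (fun h5 => ?_) (fun h6 => h4 (h6.1 h3))
    rw [(quadraticChar_one_iff_isSquare hst).2 h5, (quadraticChar_one_iff_isSquare hs).2 h3,
      quadraticChar_neg_one_iff_not_isSquare.2 h4] at h1
    norm_num at h1
  · refine iff_of_false (fun h5 => ?_) (fun h6 => h3 (h6.2 h4))
    rw [(quadraticChar_one_iff_isSquare hst).2 h5, (quadraticChar_one_iff_isSquare ht).2 h4,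
      quadraticChar_neg_one_iff_not_isSquare.2 h3] at h1
    norm_num at h1
  · refine iff_of_true ?_ (iff_of_false h3 h4)
    apply (quadraticChar_one_iff_isSquare hst).1
    rw [h1, quadraticChar_neg_one_iff_not_isSquare.2 h3, quadraticChar_neg_one_iff_not_isSquare.2 h4]
    norm_num

theorem isSquare_units_iff (u : Fˣ) : IsSquare u ↔ IsSquare (u : F) := by
  constructor
  · rintro ⟨t, rfl⟩
    exact ⟨t, by simp⟩
  · rintro ⟨t, ht⟩
    have h0 : t ≠ 0 := by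
      rintro rfl
      exact u.ne_zero (by simpa using ht)
    exact ⟨Units.mk0 t h0, Units.ext (by simpa using ht)⟩

end squares

section crit

variable {F : Type u} [Field F] [Fintype F] {ι : Type} [Fintype ι] [DecidableEq ι] {Q : QuadraticForm F (ι → F)} [Nontrivial (ι → F)]
variable (hQ : (polarBilin Q).Nondegenerate) (hn : 5 ≤ Fintype.card ι) (p : ℕ) [hp : Fact p.Prime] [hc : CharP F p]

include hQ hn p in
/-- Scalar multiples act in the same way. -/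
theorem conjHom_smul (g g' : Hs ⇑Q) (d : F) (hd : d ≠ 0) (h : g'.1.val = d • g.1.val) : conjHom ⇑Q g' = conjHom ⇑Q g := by
  have h4 : conjHom ⇑Q (g' * g⁻¹) = 1 := by
    rw [conjHom_eq_one_iff (p := p) hQ hn]
    refine ⟨d, hd, ?_⟩
    show (g'.1 * (g⁻¹ : Hs ⇑Q).1 : GL ι F).val = _
    rw [Units.val_mul, h, Matrix.smul_mul]
    congr 1
    rw [← Units.val_mul]
    have : g.1 * (g⁻¹ : Hs ⇑Q).1 = 1 := by
      rw [← Subgroup.coe_mul, mul_inv_cancel]
      rfl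
    rw [this]
    rfl
  rw [map_mul, map_inv] at h4
  exact mul_inv_eq_one.1 h4

include hQ hn p in
/-- An element acting as an element of `Ω` is a scalar multiple of it. -/
theorem exists_smul_of_inn (g : Hs ⇑Q) (h : conjHom ⇑Q g ∈ Cfsg.Inn (Cfsg.POmega F ⇑Q)) :
    ∃ (s : Cfsg.Omega F ⇑Q) (d : F), d ≠ 0 ∧ g.1.val = d • (s.1.1 : GL ι F).val := by
  rw [inn_eq] at h
  obtain ⟨y, ⟨s, rfl⟩, hy⟩ := h
  have h1 : conjHom ⇑Q (g * (omegaToHs s)⁻¹) = 1 := by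
    rw [map_mul, map_inv]
    exact mul_inv_eq_one.2 hy.symm
  obtain ⟨d, hd0, hd⟩ := (conjHom_eq_one_iff (p := p) hQ hn _).1 h1
  refine ⟨s, d, hd0, ?_⟩
  have e : g * (omegaToHs s)⁻¹ * omegaToHs s = g := by group
  rw [← e]
  show ((g * (omegaToHs s)⁻¹ : Hs ⇑Q).1 * (omegaToHs s).1 : GL ι F).val = _
  rw [Units.val_mul, hd, Matrix.smul_mul, Matrix.one_mul]
  rfl

include hQ hn p in
/-- When `-1` lies in `Ω`, the isometries acting as elements of `Ω` lie in `Ω`. -/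
theorem omega_of_inn (hneg : ∃ s : Cfsg.Omega F ⇑Q, (s.1.1 : GL ι F).val = -1) (g : Hs ⇑Q) (W : Cfsg.isometryGroup F ⇑Q)
    (c : F) (hc0 : c ≠ 0) (hg : g.1.val = c • (W : GL ι F).val) (h : conjHom ⇑Q g ∈ Cfsg.Inn (Cfsg.POmega F ⇑Q)) : W ∈ Cfsg.Omega F ⇑Q := by
  obtain ⟨s, d, hd0, hd⟩ := exists_smul_of_inn hQ hn p g h
  have h4 : (W : GL ι F).val = (c⁻¹ * d) • (s.1.1 : GL ι F).val := by
    rw [mul_smul, ← hd, hg, smul_smul, inv_mul_cancel₀ hc0, one_smul]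
  set e : F := c⁻¹ * d with he
  have hsq : e * e = 1 := by
    obtain ⟨v, hv⟩ := Cfsg.Agent.Lib.Orth.Closure.exists_nonsingular (Q := Q) hQ
    have h5 := (mem_isometryGroup_iff _ _).1 W.2 v
    rw [h4, Matrix.smul_mulVec, QuadraticMap.map_smul, smul_eq_mul,
      (mem_isometryGroup_iff _ _).1 s.1.2 v] at h5
    exact mul_right_cancel₀ hv (by rw [h5, one_mul])
  rcases mul_self_eq_one_iff.1 hsq with he1 | he1
  · have hWs : W = s.1 := by
      apply Subtype.ext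
      apply Units.ext
      rw [h4, he1, one_smul]
    rw [hWs]
    exact s.2
  · obtain ⟨n, hn'⟩ := hneg
    have hWs : W = s.1 * n.1 := by
      apply Subtype.ext
      apply Units.ext
      show (W : GL ι F).val = ((s.1 : GL ι F) * (n.1 : GL ι F)).val
      rw [h4, he1, Units.val_mul, hn']
      simp
    rw [hWs]
    exact mul_mem s.2 n.2

include hQ hn p in
/-- The criterion for an element of the `Ω`-part when `-1 ∈ Ω`. -/
theorem inn_iff_word (hneg : ∃ s : Cfsg.Omega F ⇑Q, (s.1.1 : GL ι F).val = -1) (g : Hs ⇑Q) (c : F) (hc0 : c ≠ 0) (vs : List (ι → F))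
    (hvs : ∀ v ∈ vs, Q v ≠ 0) (hev : Even vs.length)
    (hg : g.1.val = c • (vs.map (fun v => Cfsg.reflectionMatrix ⇑Q v)).prod) :
    conjHom ⇑Q g ∈ Cfsg.Inn (Cfsg.POmega F ⇑Q) ↔ IsSquare (vs.map (fun v => Q v)).prod := by
  refine ⟨fun h => ?_, fun hsq => inn_of_word hQ hn p g c hc0 vs hvs hev hsq hg⟩
  have hcard : Fintype.card F ≠ 2 ∨ Fintype.card ι ≠ 4 := Or.inr (by omega)
  obtain ⟨W, hW⟩ := word_isometry (Q := Q) vs hvs
  have hmem := Cfsg.Agent.Lib.Orth.Bridge.word_mem_Omega_iff Q hQ hcard W vs hvs hW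
  exact (hmem.1 (omega_of_inn hQ hn p hneg g W c hc0 (by rw [hg, hW]) h)).2

include hQ hn in
/-- Elements of the class subgroup with square multiplier are scalar times even words. -/
theorem exists_word_of_sq {m : ℕ} {P : Subgroup (Hs ⇑Q)} (hP : IsClassSub hQ m P) (g : Hs ⇑Q) (hg : g ∈ P) (t : F) (ht : t ≠ 0)
    (hm : (mult hQ g : F) = t * t) :
    ∃ vs : List (ι → F), (∀ v ∈ vs, Q v ≠ 0) ∧ Even vs.length ∧ g.1.val = t • (vs.map (fun v => Cfsg.reflectionMatrix ⇑Q v)).prod := by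
  classical
  let tu : Fˣ := Units.mk0 t ht
  let g₂ : Hs ⇑Q := (scH tu)⁻¹ * g
  have hg₂ker : g₂ ∈ (mult hQ).ker := by
    rw [MonoidHom.mem_ker, map_mul, map_inv, mult_scH]
    apply Units.ext
    simp only [Units.val_mul, Units.val_inv_eq_inv_val, Units.val_one, Units.val_mk0, tu, hm]
    field_simp
  have hiso : g₂.1 ∈ Cfsg.isometryGroup F ⇑Q := (mem_ker_mult hQ).1 hg₂ker
  have hcard : Fintype.card F ≠ 2 ∨ Fintype.card ι ≠ 4 := Or.inr (by omega)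
  obtain ⟨vs, hvs, hvs2⟩ := Cfsg.Agent.Lib.Orth.Closure.exists_word Q hQ hcard ⟨g₂.1, hiso⟩
  have hval : (g₂.1 : GL ι F).val = (vs.map (fun v => Cfsg.reflectionMatrix ⇑Q v)).prod := by
    have := Cfsg.Agent.Lib.Orth.Closure.word_val Q vs
    rw [← this, ← hvs2]
  have hscP : scH tu ∈ P := by
    refine (hP.word (scH tu) (tu : F) [] tu.ne_zero (by simp) ?_).2 (by simp)
    rw [scH_val]
    simp
  have hg₂P : g₂ ∈ P := mul_mem (inv_mem hscP) hg
  have hev : Even vs.length := (hP.word g₂ 1 vs one_ne_zero hvs (by rw [one_smul]; exact hval)).1 hg₂P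
  refine ⟨vs, hvs, hev, ?_⟩
  have e : g = scH tu * g₂ := by
    simp only [g₂]
    group
  rw [e]
  show ((scH tu : Hs ⇑Q).1 * g₂.1 : GL ι F).val = _
  rw [Units.val_mul, scH_val, hval, Matrix.smul_mul, Matrix.one_mul]
  rfl

end crit

section index

variable {F : Type u} [Field F] [Fintype F] {ι : Type} [Fintype ι] [DecidableEq ι] {Q : QuadraticForm F (ι → F)} [Nontrivial (ι → F)]
variable (hQ : (polarBilin Q).Nondegenerate) (hn : 5 ≤ Fintype.card ι) (p : ℕ) [hp : Fact p.Prime] [hc : CharP F p]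
variable {m : ℕ} {P : Subgroup (Hs ⇑Q)}

/-- The elements of square multiplier. -/
noncomputable def Msq (hQ : (polarBilin Q).Nondegenerate) (P : Subgroup (Hs ⇑Q)) : Subgroup P :=
  (Subgroup.square Fˣ).comap ((mult hQ).comp P.subtype)

theorem mem_Msq (g : P) : g ∈ Msq hQ P ↔ IsSquare (mult hQ g.1 : F) := by
  show IsSquare (mult hQ g.1) ↔ _
  exact isSquare_units_iff _

/-- The elements acting through `Ω`. -/
noncomputable def Nom (P : Subgroup (Hs ⇑Q)) : Subgroup P :=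
  (Cfsg.Inn (Cfsg.POmega F ⇑Q)).comap ((conjHom ⇑Q).comp P.subtype)

theorem mem_Nom (g : P) : g ∈ Nom P ↔ conjHom ⇑Q g.1 ∈ Cfsg.Inn (Cfsg.POmega F ⇑Q) := Iff.rfl

include hQ hn p in
theorem Nom_le_Msq : Nom P ≤ Msq hQ P := by
  intro g hg
  rw [mem_Msq]
  obtain ⟨s, d, hd0, hd⟩ := exists_smul_of_inn hQ hn p g.1 hg
  have hdd : mult hQ g.1 = Units.mk0 d hd0 * Units.mk0 d hd0 := by
    apply mult_eq
    intro v
    rw [hd, Matrix.smul_mulVec, QuadraticMap.map_smul, (mem_isometryGroup_iff _ _).1 s.1.2 v]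
    simp [smul_eq_mul]
  rw [hdd]
  exact ⟨d, by simp⟩

theorem index_Msq (hodd : (2 : F) ≠ 0) (a : P) (ha : ¬ IsSquare (mult hQ a.1 : F)) : (Msq hQ P).index = 2 := by
  rw [Subgroup.index_eq_two_iff]
  refine ⟨a, fun b => ?_⟩
  rw [mem_Msq, mem_Msq]
  have e : (mult hQ (b * a : P).1 : F) = (mult hQ b.1 : F) * (mult hQ a.1 : F) := by
    show ((mult hQ (b.1 * a.1) : Fˣ) : F) = _
    rw [map_mul, Units.val_mul]
  rw [e, sq_mul_iff (mult hQ b.1).ne_zero (mult hQ a.1).ne_zero]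
  by_cases h : IsSquare (mult hQ b.1 : F)
  · right
    simp [h, ha]
  · left
    simp [h, ha]

include hQ hn p in
/-- `Nom` has index two in `Msq` when `-1 ∈ Ω`. -/
theorem relIndex_Nom (hodd : (2 : F) ≠ 0) (hP : IsClassSub hQ m P) (hneg : ∃ s : Cfsg.Omega F ⇑Q, (s.1.1 : GL ι F).val = -1) :
    (Nom P).relIndex (Msq hQ P) = 2 := by
  classical
  have hch : ringChar F ≠ 2 := by
    intro h
    apply hodd
    have := ringChar.spec F 2
    exact_mod_cast this.2 (by rw [h])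
  obtain ⟨δ, hδ⟩ := FiniteField.exists_nonsquare hch
  have hδ0 : δ ≠ 0 := by
    rintro rfl
    exact hδ IsSquare.zero
  have hfr : 2 ≤ finrank F (ι → F) := by
    rw [finrank_eq]
    omega
  obtain ⟨v₁, hv₁⟩ := Cfsg.Agent.Lib.Orth.Closure.exists_Q_eq (Q := Q) hodd hQ hfr δ
  obtain ⟨v₂, hv₂⟩ := Cfsg.Agent.Lib.Orth.Closure.exists_Q_eq (Q := Q) hodd hQ hfr 1
  have hvs₀ : ∀ u ∈ [v₁, v₂], Q u ≠ 0 := by
    intro u hu
    simp only [List.mem_cons, List.not_mem_nil, or_false] at hu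
    rcases hu with rfl | rfl
    · rw [hv₁]
      exact hδ0
    · rw [hv₂]
      exact one_ne_zero
  have hw₀ : (wordH Q [v₁, v₂]).1.val = (1 : F) • (([v₁, v₂] : List (ι → F)).map (fun v => Cfsg.reflectionMatrix ⇑Q v)).prod := by
    rw [one_smul, wordH_val]
  have hwP : wordH Q [v₁, v₂] ∈ P := (hP.word _ 1 [v₁, v₂] one_ne_zero hvs₀ hw₀).2 (by simp)
  have hwm : mult hQ (wordH Q [v₁, v₂]) = 1 := by
    apply mult_eq
    intro w
    rw [wordH_val, Units.val_one, one_mul]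
    have hm := (mem_isometryGroup_iff _ _).1 (word_isometry (Q := Q) [v₁, v₂] hvs₀).choose.2 w
    rw [(word_isometry (Q := Q) [v₁, v₂] hvs₀).choose_spec] at hm
    exact hm
  have hwM : (⟨wordH Q [v₁, v₂], hwP⟩ : P) ∈ Msq hQ P := by
    rw [mem_Msq]
    show IsSquare (mult hQ (wordH Q [v₁, v₂]) : F)
    rw [hwm]
    exact ⟨1, by simp⟩
  rw [Subgroup.relIndex, Subgroup.index_eq_two_iff]
  refine ⟨⟨⟨wordH Q [v₁, v₂], hwP⟩, hwM⟩, fun b => ?_⟩
  rw [Subgroup.mem_subgroupOf, Subgroup.mem_subgroupOf, mem_Nom, mem_Nom]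
  obtain ⟨⟨g, hgP⟩, hgM⟩ := b
  have hgM' : IsSquare (mult hQ g : F) := (mem_Msq hQ _).1 hgM
  obtain ⟨t, ht⟩ := hgM'
  have ht0 : t ≠ 0 := by
    rintro rfl
    exact (mult hQ g).ne_zero (by simpa using ht)
  obtain ⟨vs, hvs, hev, hw⟩ := exists_word_of_sq hQ hn hP g hgP t ht0 ht
  have h1 := inn_iff_word hQ hn p hneg g t ht0 vs hvs hev hw
  have hvs3 : ∀ u ∈ vs ++ [v₁, v₂], Q u ≠ 0 := by
    intro u hu
    rcases List.mem_append.1 hu with hu | hu
    · exact hvs u hu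
    · exact hvs₀ u hu
  have h3 := inn_iff_word hQ hn p hneg (g * wordH Q [v₁, v₂]) t ht0 (vs ++ [v₁, v₂]) hvs3 (by
      rw [List.length_append]
      exact hev.add (by simp)) (by
      show (g.1 * (wordH Q [v₁, v₂]).1 : GL ι F).val = _
      rw [Units.val_mul, hw, wordH_val, Matrix.smul_mul, List.map_append, List.prod_append])
  have hs0 : (vs.map (fun v => Q v)).prod ≠ 0 := by
    rw [Ne, List.prod_eq_zero_iff]
    intro h
    obtain ⟨u, hu, hu2⟩ := List.mem_map.1 h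
    exact hvs u hu hu2
  have hprod : ((vs ++ [v₁, v₂]).map (fun v => Q v)).prod = (vs.map (fun v => Q v)).prod * δ := by
    simp [hv₁, hv₂]
  rw [hprod, sq_mul_iff hs0 hδ0] at h3
  show Xor (conjHom ⇑Q (g * wordH Q [v₁, v₂]) ∈ _) (conjHom ⇑Q g ∈ _)
  rw [h3, h1]
  by_cases h : IsSquare (vs.map (fun v => Q v)).prod
  · right
    simp [h, hδ]
  · left
    simp [h, hδ]

include hQ hn p in
theorem index_Nom (hodd : (2 : F) ≠ 0) (hP : IsClassSub hQ m P) (hneg : ∃ s : Cfsg.Omega F ⇑Q, (s.1.1 : GL ι F).val = -1)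
    (a : P) (ha : ¬ IsSquare (mult hQ a.1 : F)) : (Nom P).index = 4 := by
  have h1 := Subgroup.relIndex_mul_index (Nom_le_Msq hQ hn p (P := P))
  rw [relIndex_Nom hQ hn p hodd hP hneg, index_Msq hQ hodd a ha] at h1
  omega

end index

section count

variable {F : Type u} [Field F] [Fintype F] {F₀ : Type v} [Field F₀] [Fintype F₀]
variable {ι J : Type} [Fintype ι] [DecidableEq ι] [Fintype J] [DecidableEq J]
variable {Q : QuadraticForm F (ι → F)} {Q₀ : QuadraticForm F₀ (J → F₀)}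
variable (ε : F₀ →+* F) (K : (J → F) ≃ₗ[F] (ι → F)) (b : F)
variable (hc : ∀ y : J → F₀, b * Q (K (mapV ε y)) = ε (Q₀ y)) (hb : b ≠ 0)
variable (σ : F ≃+* F) (hε : ∀ x, σ x = x ↔ x ∈ Set.range ε)
variable (T₀ : SemiEl Q) (hT : ∀ y, T₀.1 (K y) = K (fun j => σ (y j)))
variable (hQ : (polarBilin Q).Nondegenerate) (hQ₀ : (polarBilin Q₀).Nondegenerate) (hn : 5 ≤ Fintype.card ι) (hn₀ : 5 ≤ Fintype.card J)
variable (p : ℕ) [hp : Fact p.Prime] [hcp : CharP F p] [hcp₀ : CharP F₀ p]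
variable [Nontrivial (ι → F)] [Nontrivial (J → F₀)]
variable {m : ℕ} {P : Subgroup (Hs ⇑Q)} {P₀ : Subgroup (Hs ⇑Q₀)}

/-- The centraliser part. -/
noncomputable def Ccent (hQ : (polarBilin Q).Nondegenerate) (hn : 5 ≤ Fintype.card ι) (T₀ : SemiEl Q) (P : Subgroup (Hs ⇑Q)) : Subgroup P :=
  (Subgroup.centralizer {conjS hQ hn T₀}).comap ((conjHom ⇑Q).comp P.subtype)

theorem mem_Ccent (g : P) : g ∈ Ccent hQ hn T₀ P ↔ conjHom ⇑Q g.1 * conjS hQ hn T₀ = conjS hQ hn T₀ * conjHom ⇑Q g.1 := by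
  show conjHom ⇑Q g.1 ∈ Subgroup.centralizer {conjS hQ hn T₀} ↔ _
  rw [Subgroup.mem_centralizer_iff]
  constructor
  · intro h
    exact (h _ rfl).symm
  · rintro h _ rfl
    exact h.symm

include hε hT in
theorem lift_mem_Ccent (g₀ : Hs ⇑Q₀) (hg₀ : liftH ε K b hc hb g₀ ∈ P) : (⟨liftH ε K b hc hb g₀, hg₀⟩ : P) ∈ Ccent hQ hn T₀ P := by
  rw [mem_Ccent]
  rw [← conjS_toSemi hQ hn, ← map_mul, ← map_mul, lift_comm' ε K b hc hb σ hε T₀ hT]

include hc hb hε hT hQ₀ hn p in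
/-- Elements of the centraliser have square multiplier. -/
theorem Ccent_le_Msq (h2 : (2 : F) ≠ 0) (hquad : Fintype.card F = Fintype.card F₀ ^ 2) : Ccent hQ hn T₀ P ≤ Msq hQ P := by
  intro g hg
  rw [mem_Msq]
  obtain ⟨d, g₀, hd, hg₀⟩ := exists_lift_of_comm' ε K b hc hb σ hε T₀ hT hQ hQ₀ hn p g.1 ((mem_Ccent T₀ hQ hn g).1 hg)
  have h1 := mult_lift ε K b hc hb hQ hQ₀ g₀
  have h3 : mult hQ (liftH ε K b hc hb g₀) = Units.mk0 d hd * Units.mk0 d hd * mult hQ g.1 := by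
    apply mult_eq
    intro v
    rw [hg₀, Matrix.smul_mulVec, QuadraticMap.map_smul, mult_spec hQ, smul_eq_mul]
    simp [Units.val_mul]
    ring
  rw [h3] at h1
  simp only [Units.val_mul, Units.val_mk0] at h1
  obtain ⟨s, hs⟩ := isSquare_of_quadratic ε h2 hquad (mult hQ₀ g₀ : F₀)
  rw [hs] at h1
  refine ⟨s / d, ?_⟩
  field_simp
  linear_combination h1

include hc hb hε hT hQ hQ₀ hn hn₀ p in
/-- When the lift of an element of non-square multiplier acts through `Ω`, so does the whole centraliser. -/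
theorem Ccent_le_Nom (h2 : (2 : F) ≠ 0) (hquad : Fintype.card F = Fintype.card F₀ ^ 2) (hP : IsClassSub hQ m P) (hP₀ : IsClassSub hQ₀ m P₀)
    (hcard : Fintype.card ι = 2 * m) (g₁ : Hs ⇑Q₀) (hg₁ : g₁ ∈ P₀) (hg₁m : ¬ IsSquare (mult hQ₀ g₁ : F₀))
    (hlift : conjHom ⇑Q (liftH ε K b hc hb g₁) ∈ Cfsg.Inn (Cfsg.POmega F ⇑Q)) : Ccent hQ hn T₀ P ≤ Nom P := by
  classical
  have key : ∀ g₂ ∈ P₀, IsSquare (mult hQ₀ g₂ : F₀) → conjHom ⇑Q (liftH ε K b hc hb g₂) ∈ Cfsg.Inn (Cfsg.POmega F ⇑Q) := by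
    rintro g₂ hg₂ ⟨t, ht⟩
    have ht0 : t ≠ 0 := by
      rintro rfl
      exact (mult hQ₀ g₂).ne_zero (by simpa using ht)
    obtain ⟨vs, hvs, hev, hw⟩ := exists_word_of_sq hQ₀ hn₀ hP₀ g₂ hg₂ t ht0 ht
    refine inn_of_word hQ hn p _ (ε t) (fun h => ht0 ((map_eq_zero ε).1 h)) (vs.map (fun v => K (mapV ε v))) ?_ (by rwa [List.length_map]) ?_
      (liftH_word ε K b hc hb g₂ t vs hw)
    · intro u hu
      obtain ⟨v, hv, rfl⟩ := List.mem_map.1 hu
      exact Q_lift_ne ε K b hc hb (hvs v hv)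
    · -- the spinor norm
      have e : ∀ us : List (J → F₀), (((us.map (fun v => K (mapV ε v))).map (fun v => Q v)).prod) = (b⁻¹) ^ us.length * ε ((us.map (fun v => Q₀ v)).prod) := by
        intro us
        induction us with
        | nil => simp
        | cons u us ih =>
          simp only [List.map_cons, List.prod_cons, List.length_cons, map_mul]
          rw [ih, Q_lift_eq ε K b hc hb u]
          ring
      rw [e]
      obtain ⟨j, hj⟩ := hev
      rw [hj, pow_add]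
      exact (IsSquare.mul_self _).mul (isSquare_of_quadratic ε h2 hquad _)
  intro g hg
  rw [mem_Nom]
  obtain ⟨d, g₀, hd, hg₀⟩ := exists_lift_of_comm' ε K b hc hb σ hε T₀ hT hQ hQ₀ hn p g.1 ((mem_Ccent T₀ hQ hn g).1 hg)
  have hg₀P : g₀ ∈ P₀ := (lift_mem_iff ε K b hc hb hQ hQ₀ hn₀ hP hP₀ g₀).2 ((class_smul hQ hn hP hcard d hd g.1 _ hg₀).1 g.2)
  rw [← conjHom_smul hQ hn p g.1 _ d hd hg₀]
  by_cases hs : IsSquare (mult hQ₀ g₀ : F₀)
  · exact key g₀ hg₀P hs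
  · have h3 : IsSquare (mult hQ₀ (g₀ * g₁⁻¹) : F₀) := by
      have e : (mult hQ₀ g₁ : F₀) * (mult hQ₀ (g₀ * g₁⁻¹) : F₀) = (mult hQ₀ g₀ : F₀) := by
        rw [map_mul, map_inv, ← Units.val_mul]
        congr 1
        rw [mul_comm (mult hQ₀ g₀), mul_inv_cancel_left]
      have h4 : IsSquare ((mult hQ₀ g₁ : F₀) * (mult hQ₀ g₀ : F₀)) :=
        (sq_mul_iff (mult hQ₀ g₁).ne_zero (mult hQ₀ g₀).ne_zero).2 (iff_of_false hg₁m hs)
      rw [← e, ← mul_assoc] at h4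
      have h5 := (sq_mul_iff (mul_ne_zero (mult hQ₀ g₁).ne_zero (mult hQ₀ g₁).ne_zero) (mult hQ₀ (g₀ * g₁⁻¹)).ne_zero).1 h4
      exact h5.1 (IsSquare.mul_self _)
    have h4 := key _ (mul_mem hg₀P (inv_mem hg₁)) h3
    have e : g₀ = (g₀ * g₁⁻¹) * g₁ := by group
    rw [e, map_mul, map_mul]
    exact mul_mem h4 hlift

include hc hb hε hT hQ hQ₀ hn hn₀ p in
/-- **Count four.** -/
theorem count_four (h2 : (2 : F) ≠ 0) (hquad : Fintype.card F = Fintype.card F₀ ^ 2) (hP : IsClassSub hQ m P) (hP₀ : IsClassSub hQ₀ m P₀)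
    (hcard : Fintype.card ι = 2 * m) (hneg : ∃ s : Cfsg.Omega F ⇑Q, (s.1.1 : GL ι F).val = -1)
    (a : P) (ha : ¬ IsSquare (mult hQ a.1 : F))
    (g₁ : Hs ⇑Q₀) (hg₁ : g₁ ∈ P₀) (hg₁m : ¬ IsSquare (mult hQ₀ g₁ : F₀))
    (hlift : conjHom ⇑Q (liftH ε K b hc hb g₁) ∈ Cfsg.Inn (Cfsg.POmega F ⇑Q)) :
    Cfsg.splitClassCount (P.map (conjHom ⇑Q)) (Cfsg.Inn (Cfsg.POmega F ⇑Q)) (conjS hQ hn T₀) = 4 := by
  rw [split_class hQ hn hP]
  have h1 : (Subgroup.centralizer {conjS hQ hn T₀}).comap ((conjHom ⇑Q).comp P.subtype) ≤ (Cfsg.Inn (Cfsg.POmega F ⇑Q)).comap ((conjHom ⇑Q).comp P.subtype) :=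
    Ccent_le_Nom ε K b hc hb σ hε T₀ hT hQ hQ₀ hn hn₀ p h2 hquad hP hP₀ hcard g₁ hg₁ hg₁m hlift
  rw [sup_eq_right.2 h1]
  exact index_Nom hQ hn p h2 hP hneg a ha

include hc hb hε hT hQ hQ₀ hn hn₀ p in
/-- **Count two.** -/
theorem count_two (h2 : (2 : F) ≠ 0) (hquad : Fintype.card F = Fintype.card F₀ ^ 2) (hP : IsClassSub hQ m P) (hP₀ : IsClassSub hQ₀ m P₀)
    (hneg : ∃ s : Cfsg.Omega F ⇑Q, (s.1.1 : GL ι F).val = -1)
    (a : P) (ha : ¬ IsSquare (mult hQ a.1 : F))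
    (g₁ : Hs ⇑Q₀) (hg₁ : g₁ ∈ P₀)
    (hlift : conjHom ⇑Q (liftH ε K b hc hb g₁) ∉ Cfsg.Inn (Cfsg.POmega F ⇑Q)) :
    Cfsg.splitClassCount (P.map (conjHom ⇑Q)) (Cfsg.Inn (Cfsg.POmega F ⇑Q)) (conjS hQ hn T₀) = 2 := by
  rw [split_class hQ hn hP]
  set C := Ccent hQ hn T₀ P with hC
  set N := Nom P with hN
  set M := Msq hQ P with hM
  show (C ⊔ N).index = 2
  have hCM : C ≤ M := Ccent_le_Msq ε K b hc hb σ hε T₀ hT hQ hQ₀ hn p h2 hquad
  have hNM : N ≤ M := Nom_le_Msq hQ hn p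
  have hle : C ⊔ N ≤ M := sup_le hCM hNM
  have hNL : N ≤ C ⊔ N := le_sup_right
  have h1 := Subgroup.relIndex_mul_relIndex N (C ⊔ N) M hNL hle
  have h3 : N.relIndex M = 2 := relIndex_Nom hQ hn p h2 hP hneg
  rw [h3] at h1
  have hgP : liftH ε K b hc hb g₁ ∈ P := (lift_mem_iff ε K b hc hb hQ hQ₀ hn₀ hP hP₀ g₁).1 hg₁
  have h4 : N.relIndex (C ⊔ N) ≠ 1 := by
    intro h5
    have h6 := Subgroup.relIndex_eq_one.1 h5
    have h7 : (⟨liftH ε K b hc hb g₁, hgP⟩ : P) ∈ N :=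
      h6 (Subgroup.mem_sup_left (lift_mem_Ccent ε K b hc hb σ hε T₀ hT hQ hn g₁ hgP))
    exact hlift h7
  have h5 : N.relIndex (C ⊔ N) ∣ 2 := ⟨_, h1.symm⟩
  have h6 : N.relIndex (C ⊔ N) = 2 := by
    rcases (Nat.dvd_prime Nat.prime_two).1 h5 with h | h
    · exact absurd h h4
    · exact h
  have h7 : (C ⊔ N).relIndex M = 1 := by
    rw [h6] at h1
    omega
  have h8 : M ≤ C ⊔ N := Subgroup.relIndex_eq_one.1 h7
  have h9 : C ⊔ N = M := le_antisymm hle h8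
  rw [h9]
  exact index_Msq hQ h2 a ha

end count

end Cfsg.Agent.Lib.Classical.OmegaQuadCount
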