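/-
Levi elements in the count of classes over a quadratic subfield.
-/
import Mathlib
import Cfsg.Agent.Lib.Classical.OmegaQuadCount

set_option autoImplicit false
set_option linter.unusedSimpArgs false
set_option linter.unusedSectionVars false
set_option linter.style.haveILetI false
set_option linter.unusedVariables false
set_option linter.unnecessarySimpa false

namespace Cfsg.Agent.Lib.Classical.OmegaLeviCount




open Module MulAction QuadraticMap Matrix Cfsg.Agent.Lib.Witt.Quadratic Cfsg.Agent.Lib.Orth.Refl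
open Cfsg.Agent.Lib.Orth.Gen Cfsg.Agent.Lib.OrthRefl.Eichler Cfsg.Agent.Lib.Classical.QuadEichler
open Cfsg.Agent.Lib.Classical.QuadEichSimple Cfsg.Agent.Lib.Classical.OmegaHP Cfsg.Agent.Lib.Classical.OmegaLocal
open Cfsg.Agent.Lib.Classical.OmegaRoot Cfsg.Agent.Lib.Classical.OmegaSemi Cfsg.Agent.Lib.Classical.OmegaConj
open Cfsg.Agent.Lib.Classical.OmegaBar Cfsg.Agent.Lib.Classical.OmegaAut Cfsg.Agent.Lib.Classical.OmegaCount
open Cfsg.Agent.Lib.Orth.Forms Cfsg.Agent.Lib.Classical.BinaryForms Cfsg.Agent.Lib.Classical.QuadEichBridge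
open Cfsg.Agent.Lib.Classical.OmegaForms Cfsg.Agent.Lib.Classical.OmegaOut Cfsg.Agent.Lib.Orth.Bridge
open Cfsg.Agent.Lib.Classical.MatrixBridge Cfsg.Agent.Lib.Classical.SympSimple
open Cfsg.Agent.Lib.Classical.OmegaPGO Cfsg.Agent.Lib.Classical.OmegaPGO2 Cfsg.Agent.Lib.Classical.OmegaFrob
open Cfsg.Agent.Lib.Classical.OmegaOutOdd Cfsg.Agent.Lib.KS71.Speiser Cfsg.Agent.Lib.Classical.OmegaDesc
open Cfsg.Agent.Lib.Classical.OmegaFieldOdd Cfsg.Agent.Lib.Classical.OmegaCent Cfsg.Agent.Lib.KS71.ClassSplit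
open Cfsg.Agent.Lib.Classical.OmegaFieldCount Cfsg.Agent.Lib.QuadFn.MaxSingular Cfsg.Agent.Lib.Orth.Parity
open Cfsg.Agent.Lib.Classical.OmegaClass Cfsg.Agent.Lib.Orth.HypBasis Cfsg.Agent.Lib.QuadFn.PlusForm
open Cfsg.Agent.Lib.Classical.OmegaType Cfsg.Agent.Lib.Classical.OmegaPlusConj Cfsg.Agent.Lib.Classical.OmegaCentF
open Cfsg.Agent.Lib.Classical.OmegaCross Cfsg.Agent.Lib.Classical.OmegaMinusP
open Cfsg.Agent.Lib.Classical.OmegaMinusConj
open Cfsg.Agent.Lib.Classical.OmegaLift Cfsg.Agent.Lib.Orth.Levi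
open Cfsg.Agent.Lib.Classical.OmegaQuadCount
open scoped commutatorElement

universe u v

section levi

variable {F : Type u} [Field F] [Fintype F] {m : ℕ}

/-- The Levi element as a similarity. -/
noncomputable def leviH (A : GL (Fin m) F) : Hs ⇑(plusForm m F) := ⟨(levi A).1, isometry_le_Hs (levi A).2⟩

/-- Diagonal elements. -/
def diagGL (d d' : Fin m → F) (h : ∀ i, d i * d' i = 1) : GL (Fin m) F :=
  ⟨Matrix.diagonal d, Matrix.diagonal d', by
    rw [Matrix.diagonal_mul_diagonal, ← Matrix.diagonal_one]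
    congr 1
    funext i
    exact h i, by
    rw [Matrix.diagonal_mul_diagonal, ← Matrix.diagonal_one]
    congr 1
    funext i
    rw [mul_comm]
    exact h i⟩

theorem diagGL_val (d d' : Fin m → F) (h : ∀ i, d i * d' i = 1) : (diagGL d d' h : GL (Fin m) F).val = Matrix.diagonal d := rfl

theorem diagGL_inv (d d' : Fin m → F) (h : ∀ i, d i * d' i = 1) : (diagGL d d' h : GL (Fin m) F).val⁻¹ = Matrix.diagonal d' := by
  rw [← Matrix.coe_units_inv]
  rfl

theorem levi_diag_mulVec (d d' : Fin m → F) (h : ∀ i, d i * d' i = 1) (z : Fin m ⊕ Fin m → F) :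
    (leviH (diagGL d d' h)).1.val *ᵥ z = Sum.elim (fun i => d i * z (Sum.inl i)) (fun i => d' i * z (Sum.inr i)) := by
  show ((levi (diagGL d d' h) : Cfsg.isometryGroup F (Cfsg.quadFormPlus m F)) : GL (Fin m ⊕ Fin m) F).val *ᵥ z = _
  rw [levi_val, diagGL_inv, diagGL_val, Matrix.diagonal_transpose, Matrix.fromBlocks_mulVec]
  ext (i | i)
  · simp [Matrix.mulVec_diagonal]
  · simp [Matrix.mulVec_diagonal]

theorem det_leviH (A : GL (Fin m) F) : (leviH A).1.val.det = 1 := by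
  show ((levi A : Cfsg.isometryGroup F (Cfsg.quadFormPlus m F)) : GL (Fin m ⊕ Fin m) F).val.det = 1
  rw [levi_val, Matrix.det_fromBlocks_zero₂₁, Matrix.det_transpose, ← Matrix.coe_units_inv, ← Matrix.det_mul, ← Units.val_mul, mul_inv_cancel]
  simp

theorem mult_leviH (hQ : (polarBilin (plusForm m F)).Nondegenerate) [Nontrivial (Fin m ⊕ Fin m → F)] (A : GL (Fin m) F) : mult hQ (leviH A) = 1 := by
  apply mult_eq
  intro v
  rw [Units.val_one, one_mul]
  exact (mem_isometryGroup_iff _ _).1 (levi A).2 v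

/-- `-1` lies in `Ω` when `-1` is a square in the field. -/
theorem hneg_plus (hm : 1 ≤ m) (hm2 : m ≠ 2) (hi : IsSquare (-1 : F)) :
    ∃ s : Cfsg.Omega F ⇑(plusForm m F), (s.1.1 : GL (Fin m ⊕ Fin m) F).val = -1 := by
  have h1 : levi (-1 : GL (Fin m) F) ∈ Cfsg.Omega F (Cfsg.quadFormPlus m F) := by
    rw [levi_mem_Omega_iff hm (Or.inr hm2)]
    have e : ((-1 : GL (Fin m) F) : Matrix (Fin m) (Fin m) F).det = (-1) ^ m := by
      rw [Units.val_neg, Units.val_one, Matrix.det_neg, Matrix.det_one, mul_one]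
      simp
    rw [e]
    exact hi.pow m
  refine ⟨⟨levi (-1 : GL (Fin m) F), h1⟩, ?_⟩
  show ((levi (-1 : GL (Fin m) F) : Cfsg.isometryGroup F (Cfsg.quadFormPlus m F)) : GL (Fin m ⊕ Fin m) F).val = -1
  rw [levi_val, Units.val_neg, Units.val_one]
  have e : (-1 : Matrix (Fin m) (Fin m) F)⁻¹ = -1 := Matrix.inv_eq_left_inv (by simp)
  rw [e]
  ext (i | i) (j | j) <;> simp [Matrix.one_apply, Matrix.neg_apply]

end levi

section conjlevi

variable {F : Type u} [Field F] [Fintype F] {m : ℕ} [Nontrivial (Fin m ⊕ Fin m → F)]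
variable (hn : 5 ≤ Fintype.card (Fin m ⊕ Fin m)) (p : ℕ) [hp : Fact p.Prime] [hc : CharP F p]

include hn p in
theorem inn_levi_iff (hm : 1 ≤ m) (hm2 : m ≠ 2)
    (hneg : ∃ s : Cfsg.Omega F ⇑(plusForm m F), (s.1.1 : GL (Fin m ⊕ Fin m) F).val = -1) (A : GL (Fin m) F) :
    conjHom ⇑(plusForm m F) (leviH A) ∈ Cfsg.Inn (Cfsg.POmega F ⇑(plusForm m F)) ↔ IsSquare (A : Matrix (Fin m) (Fin m) F).det := by
  have hQ := plusForm_nondeg (F := F) m
  rw [← levi_mem_Omega_iff hm (Or.inr hm2)]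
  constructor
  · intro h
    exact omega_of_inn hQ hn p hneg (leviH A) (levi A) 1 one_ne_zero (by rw [one_smul]; rfl) h
  · intro h
    rw [inn_eq]
    exact ⟨omegaToHs ⟨levi A, h⟩, ⟨⟨levi A, h⟩, rfl⟩, rfl⟩

end conjlevi

section liftlevi

variable {F : Type u} [Field F] [Fintype F] {F₀ : Type v} [Field F₀] [Fintype F₀] {m : ℕ}
variable {J : Type} [Fintype J] [DecidableEq J]
variable {Q₀ : QuadraticForm F₀ (J → F₀)}
variable (ε : F₀ →+* F) (K : (J → F) ≃ₗ[F] (Fin m ⊕ Fin m → F)) (b : F)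
variable (hc : ∀ y : J → F₀, b * plusForm m F (K (mapV ε y)) = ε (Q₀ y)) (hb : b ≠ 0)
variable [Nontrivial (Fin m ⊕ Fin m → F)] [Nontrivial (J → F₀)]
variable (hn : 5 ≤ Fintype.card (Fin m ⊕ Fin m)) (p : ℕ) [hp : Fact p.Prime] [hcp : CharP F p]
variable {P : Subgroup (Hs ⇑(plusForm m F))}

/-- The similarity attached to a linear similarity. -/
noncomputable def ofLin (τ : (Fin m ⊕ Fin m → F) ≃ₗ[F] (Fin m ⊕ Fin m → F)) (e : F) (he : e ≠ 0)
    (hτ : ∀ z, plusForm m F (τ z) = e * plusForm m F z) : Hs ⇑(plusForm m F) :=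
  ⟨glToLin.symm τ, Units.mk0 e he, fun v => by
    rw [glToLin_symm_mulVec, hτ]
    rfl⟩

theorem ofLin_mulVec (τ : (Fin m ⊕ Fin m → F) ≃ₗ[F] (Fin m ⊕ Fin m → F)) (e : F) (he : e ≠ 0)
    (hτ : ∀ z, plusForm m F (τ z) = e * plusForm m F z) (z : Fin m ⊕ Fin m → F) : (ofLin τ e he hτ).1.val *ᵥ z = τ z :=
  glToLin_symm_mulVec τ z

/-- The lift compared with a Levi element: the matrix. -/
theorem lift_val_levi (τ : (Fin m ⊕ Fin m → F) ≃ₗ[F] (Fin m ⊕ Fin m → F)) (e : F) (he : e ≠ 0)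
    (hτ : ∀ z, plusForm m F (τ z) = e * plusForm m F z) (c : F) (A : GL (Fin m) F) (g₁ : Hs ⇑Q₀)
    (h : ∀ z, (liftH ε K b hc hb g₁).1.val *ᵥ τ z = c • τ ((leviH A).1.val *ᵥ z)) :
    (liftH ε K b hc hb g₁).1.val = c • (ofLin τ e he hτ * leviH A * (ofLin τ e he hτ)⁻¹).1.val := by
  set τH := ofLin τ e he hτ with hτH
  set D := τH * leviH A * τH⁻¹ with hD
  apply Cfsg.Agent.Lib.Orth.Words.mat_eq_of_mulVec
  intro x
  obtain ⟨z, rfl⟩ := τ.surjective x
  rw [h, Matrix.smul_mulVec]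
  congr 1
  have e1 : D * τH = τH * leviH A := by
    rw [hD]
    group
  have e2 : (D * τH).1.val *ᵥ z = (τH * leviH A).1.val *ᵥ z := by rw [e1]
  have e3 : ∀ u v : Hs ⇑(plusForm m F), (u * v).1.val *ᵥ z = u.1.val *ᵥ (v.1.val *ᵥ z) := by
    intro u v
    rw [Matrix.mulVec_mulVec]
    rfl
  rw [e3, e3] at e2
  have e4 : τH.1.val *ᵥ ((leviH A).1.val *ᵥ z) = τ ((leviH A).1.val *ᵥ z) := ofLin_mulVec τ e he hτ _
  have e5 : τH.1.val *ᵥ z = τ z := ofLin_mulVec τ e he hτ _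
  rw [e4, e5] at e2
  exact e2.symm

include hn p in
/-- The lift compared with a Levi element. -/
theorem lift_inn_iff (hm : 1 ≤ m) (hm2 : m ≠ 2)
    (hneg : ∃ s : Cfsg.Omega F ⇑(plusForm m F), (s.1.1 : GL (Fin m ⊕ Fin m) F).val = -1)
    (τ : (Fin m ⊕ Fin m → F) ≃ₗ[F] (Fin m ⊕ Fin m → F)) (e : F) (he : e ≠ 0)
    (hτ : ∀ z, plusForm m F (τ z) = e * plusForm m F z) (c : F) (hc0 : c ≠ 0) (A : GL (Fin m) F) (g₁ : Hs ⇑Q₀)
    (h : ∀ z, (liftH ε K b hc hb g₁).1.val *ᵥ τ z = c • τ ((leviH A).1.val *ᵥ z)) :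
    conjHom ⇑(plusForm m F) (liftH ε K b hc hb g₁) ∈ Cfsg.Inn (Cfsg.POmega F ⇑(plusForm m F)) ↔ IsSquare (A : Matrix (Fin m) (Fin m) F).det := by
  have hQ := plusForm_nondeg (F := F) m
  set τH := ofLin τ e he hτ with hτH
  set D := τH * leviH A * τH⁻¹ with hD
  have hval : (liftH ε K b hc hb g₁).1.val = c • D.1.val := lift_val_levi ε K b hc hb τ e he hτ c A g₁ h
  rw [conjHom_smul hQ hn p D _ c hc0 hval, hD, map_mul, map_mul, map_inv, ← inn_levi_iff hn p hm hm2 hneg A]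
  constructor
  · intro h1
    have h2 := inn_normal' (conjHom ⇑(plusForm m F) τH)⁻¹ _ h1
    have e6 : (conjHom ⇑(plusForm m F) τH)⁻¹ * (conjHom ⇑(plusForm m F) τH * conjHom ⇑(plusForm m F) (leviH A) * (conjHom ⇑(plusForm m F) τH)⁻¹) * ((conjHom ⇑(plusForm m F) τH)⁻¹)⁻¹ = conjHom ⇑(plusForm m F) (leviH A) := by
      group
    rwa [e6] at h2
  · intro h1
    exact inn_normal' _ _ h1

include hn p in
/-- The lift compared with a Levi element: membership. -/
theorem lift_mem_of_levi (h2 : (2 : F) ≠ 0) (hP : IsClassSub (plusForm_nondeg (F := F) m) m P) (hcard : Fintype.card (Fin m ⊕ Fin m) = 2 * m)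
    (τ : (Fin m ⊕ Fin m → F) ≃ₗ[F] (Fin m ⊕ Fin m → F)) (e : F) (he : e ≠ 0)
    (hτ : ∀ z, plusForm m F (τ z) = e * plusForm m F z) (c : F) (hc0 : c ≠ 0) (A : GL (Fin m) F) (g₁ : Hs ⇑Q₀)
    (h : ∀ z, (liftH ε K b hc hb g₁).1.val *ᵥ τ z = c • τ ((leviH A).1.val *ᵥ z)) :
    liftH ε K b hc hb g₁ ∈ P := by
  have hQ := plusForm_nondeg (F := F) m
  set τH := ofLin τ e he hτ with hτH
  set D := τH * leviH A * τH⁻¹ with hD
  have hval : (liftH ε K b hc hb g₁).1.val = c • D.1.val := lift_val_levi ε K b hc hb τ e he hτ c A g₁ h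
  refine (class_smul hQ hn hP hcard c hc0 D _ hval).1 ?_
  rw [hP.det h2]
  have hm1 : mult hQ D = 1 := by
    rw [hD, map_mul, map_mul, map_inv, mult_leviH, mul_one, mul_inv_cancel]
  rw [hm1, Units.val_one, one_pow]
  have hdet : D.1.val.det = (leviH A).1.val.det := by
    rw [hD]
    show (τH.1 * (leviH A).1 * (τH⁻¹ : Hs ⇑(plusForm m F)).1 : GL (Fin m ⊕ Fin m) F).val.det = _
    have e1 : (τH⁻¹ : Hs ⇑(plusForm m F)).1 = τH.1⁻¹ := rfl
    rw [e1, Units.val_mul, Units.val_mul, Matrix.det_mul, Matrix.det_mul]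
    have e2 : τH.1.val.det * (τH.1⁻¹ : GL (Fin m ⊕ Fin m) F).val.det = 1 := by
      rw [← Matrix.det_mul, ← Units.val_mul, mul_inv_cancel]
      simp
    calc τH.1.val.det * (leviH A).1.val.det * (τH.1⁻¹ : GL (Fin m ⊕ Fin m) F).val.det
        = (τH.1.val.det * (τH.1⁻¹ : GL (Fin m ⊕ Fin m) F).val.det) * (leviH A).1.val.det := by ring
      _ = _ := by rw [e2, one_mul]
  rw [hdet, det_leviH]

end liftlevi

section roots

variable {F : Type u} [Field F] [Fintype F] {F₀ : Type v} [Field F₀] [Fintype F₀]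

/-- The quadratic character of a square root of a non-square of the subfield. -/
theorem isSquare_root_iff (ε : F₀ →+* F) (hquad : Fintype.card F = Fintype.card F₀ ^ 2) (h2 : (2 : F) ≠ 0) {c : F} {ν : F₀}
    (hc : c * c = ε ν) (hν0 : ν ≠ 0) (hν : ¬ IsSquare ν) : IsSquare c ↔ Fintype.card F₀ % 4 = 3 := by
  classical
  have h20 : (2 : F₀) ≠ 0 := by
    intro h
    apply h2
    have := congrArg ε h
    rwa [map_ofNat, map_zero] at this
  have hch : ringChar F ≠ 2 := by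
    intro h
    apply h2
    have := ringChar.spec F 2
    exact_mod_cast this.2 (by rw [h])
  have hch₀ : ringChar F₀ ≠ 2 := by
    intro h
    apply h20
    have := ringChar.spec F₀ 2
    exact_mod_cast this.2 (by rw [h])
  have hc0 : c ≠ 0 := by
    rintro rfl
    rw [zero_mul] at hc
    exact hν0 ((map_eq_zero ε).1 hc.symm)
  have hq := Nat.odd_iff.2 (FiniteField.odd_card_of_char_ne_two hch₀)
  rw [FiniteField.isSquare_iff hch hc0]
  have hne : (-1 : F) ≠ 1 := neg_one_ne h2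
  obtain ⟨j, hj⟩ := hq
  have h5 : Fintype.card F / 2 = 2 * (j * (j + 1)) := by
    rw [hquad, hj]
    have : (2 * j + 1) ^ 2 = 2 * (2 * (j * (j + 1))) + 1 := by ring
    rw [this]
    omega
  have h6 : Fintype.card F₀ / 2 = j := by
    omega
  have h7 : ν ^ j = -1 := by
    have h8 := FiniteField.pow_dichotomy hch₀ hν0
    rw [h6] at h8
    rcases h8 with h8 | h8
    · exfalso
      apply hν
      rw [FiniteField.isSquare_iff hch₀ hν0, h6]
      exact h8
    · exact h8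
  rw [h5, pow_mul, pow_two, hc, ← map_pow, pow_mul, h7, hj]
  rw [map_pow, map_neg, map_one]
  constructor
  · intro h9
    by_contra h10
    have hj2 : Even j := by
      by_contra h11
      obtain ⟨i, hi⟩ := Nat.not_even_iff_odd.1 h11
      apply h10
      omega
    rw [(hj2.add_one).neg_one_pow] at h9
    exact hne h9
  · intro h9
    have hj2 : Odd j := by
      obtain ⟨i, hi⟩ : ∃ i, j = 2 * i + 1 := ⟨j / 2, by omega⟩
      exact ⟨i, hi⟩
    rw [(hj2.add_one).neg_one_pow]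

end roots

end Cfsg.Agent.Lib.Classical.OmegaLeviCount
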