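/-
Explicit model of the minus form over a quadratic extension: coordinates, similarities, Levi elements.
-/
import Mathlib
import Cfsg.Agent.Lib.Classical.OmegaLeviCount

set_option autoImplicit false
set_option linter.unusedSimpArgs false
set_option linter.unusedSectionVars false
set_option linter.style.haveILetI false
set_option linter.unusedVariables false
set_option linter.unnecessarySimpa false

namespace Cfsg.Agent.Lib.Classical.OmegaModel





open Module MulAction QuadraticMap Matrix Cfsg.Agent.Lib.Witt.Quadratic Cfsg.Agent.Lib.Orth.Refl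
open Cfsg.Agent.Lib.Orth.Gen Cfsg.Agent.Lib.OrthRefl.Eichler Cfsg.Agent.Lib.Classical.QuadEichler
open Cfsg.Agent.Lib.Classical.QuadEichSimple Cfsg.Agent.Lib.Classical.OmegaHP Cfsg.Agent.Lib.Classical.OmegaLocal
open Cfsg.Agent.Lib.Classical.OmegaRoot Cfsg.Agent.Lib.Classical.OmegaSemi Cfsg.Agent.Lib.Classical.OmegaConj
open Cfsg.Agent.Lib.Classical.OmegaBar Cfsg.Agent.Lib.Classical.OmegaAut Cfsg.Agent.Lib.Classical.OmegaCount
open Cfsg.Agent.Lib.Orth.Forms Cfsg.Agent.Lib.Classical.BinaryForms Cfsg.Agent.Lib.Classical.QuadEichBridge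
open Cfsg.Agent.Lib.Classical.OmegaForms Cfsg.Agent.Lib.Classical.OmegaOut Cfsg.Agent.Lib.Orth.Bridge
open Cfsg.Agent.Lib.Classical.MatrixBridge Cfsg.Agent.Lib.Classical.SympSimple
open Cfsg.Agent.Lib.Classical.OmegaPGO Cfsg.Agent.Lib.Classical.OmegaPGO2 Cfsg.Agent.Lib.Classical.OmegaFrob
open Cfsg.Agent.Lib.Classical.OmegaOutOdd Cfsg.Agent.Lib.KS71.Speiser Cfsg.Agent.Lib.Classical.OmegaDesc
open Cfsg.Agent.Lib.Classical.OmegaFieldOdd Cfsg.Agent.Lib.Classical.OmegaCent Cfsg.Agent.Lib.KS71.ClassSplit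
open Cfsg.Agent.Lib.Classical.OmegaFieldCount Cfsg.Agent.Lib.QuadFn.MaxSingular Cfsg.Agent.Lib.Orth.Parity
open Cfsg.Agent.Lib.Classical.OmegaClass Cfsg.Agent.Lib.Orth.HypBasis Cfsg.Agent.Lib.QuadFn.PlusForm
open Cfsg.Agent.Lib.Classical.OmegaType Cfsg.Agent.Lib.Classical.OmegaPlusConj Cfsg.Agent.Lib.Classical.OmegaCentF
open Cfsg.Agent.Lib.Classical.OmegaCross Cfsg.Agent.Lib.Classical.OmegaMinusP
open Cfsg.Agent.Lib.Classical.OmegaMinusConj
open Cfsg.Agent.Lib.Classical.OmegaLift Cfsg.Agent.Lib.Orth.Levi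
open Cfsg.Agent.Lib.Classical.OmegaQuadCount
open Cfsg.Agent.Lib.Classical.OmegaLeviCount
open scoped commutatorElement

universe u v

section maplin

variable {F : Type u} [Field F] [Fintype F] {F₀ : Type v} [Field F₀] [Fintype F₀] {J : Type} [Fintype J] [DecidableEq J]

theorem map_mulVec_of_linear (ε : F₀ →+* F) (g : Matrix J J F₀) (fF : (J → F) →ₗ[F] (J → F))
    (h : ∀ y, fF (mapV ε y) = mapV ε (g *ᵥ y)) (y : J → F) : (g.map ε) *ᵥ y = fF y := by
  have key : Matrix.toLin' (g.map ε) = fF := by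
    apply LinearMap.pi_ext
    intro i x
    have e : (Pi.single i x : J → F) = x • mapV ε (Pi.single i 1) := by
      rw [mapV_single, map_one]
      ext j
      simp [Pi.single_apply]
    rw [e, map_smul, map_smul, Matrix.toLin'_apply, mapV_mulVec, h]
  rw [← key, Matrix.toLin'_apply]

end maplin

section model

variable {F : Type u} [Field F] {k : ℕ}

/-- The coordinate change from the binary part to a hyperbolic plane. -/
def toPlus (k : ℕ) (ρ ρ' : F) : ((Fin k ⊕ Fin k) ⊕ Fin 2 → F) →ₗ[F] (Fin (k + 1) ⊕ Fin (k + 1) → F) where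
  toFun y := Sum.elim (Fin.snoc (α := fun _ => F) (fun i => y (Sum.inl (Sum.inl i))) (y (Sum.inr 0) - ρ * y (Sum.inr 1)))
    (Fin.snoc (α := fun _ => F) (fun i => y (Sum.inl (Sum.inr i))) (y (Sum.inr 0) - ρ' * y (Sum.inr 1)))
  map_add' x y := by
    ext (i | i) <;> refine Fin.lastCases ?_ (fun j => ?_) i
    · simp only [Sum.elim_inl, Fin.snoc_last, Pi.add_apply]
      ring
    · simp only [Sum.elim_inl, Fin.snoc_castSucc, Pi.add_apply]
    · simp only [Sum.elim_inr, Fin.snoc_last, Pi.add_apply]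
      ring
    · simp only [Sum.elim_inr, Fin.snoc_castSucc, Pi.add_apply]
  map_smul' c x := by
    ext (i | i) <;> refine Fin.lastCases ?_ (fun j => ?_) i
    · simp only [Sum.elim_inl, Fin.snoc_last, Pi.smul_apply, smul_eq_mul, RingHom.id_apply]
      ring
    · simp only [Sum.elim_inl, Fin.snoc_castSucc, Pi.smul_apply, smul_eq_mul, RingHom.id_apply]
    · simp only [Sum.elim_inr, Fin.snoc_last, Pi.smul_apply, smul_eq_mul, RingHom.id_apply]
      ring
    · simp only [Sum.elim_inr, Fin.snoc_castSucc, Pi.smul_apply, smul_eq_mul, RingHom.id_apply]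

@[simp] theorem toPlus_inl_cast (ρ ρ' : F) (y) (j : Fin k) : toPlus k ρ ρ' y (Sum.inl j.castSucc) = y (Sum.inl (Sum.inl j)) := by
  simp [toPlus]

@[simp] theorem toPlus_inr_cast (ρ ρ' : F) (y) (j : Fin k) : toPlus k ρ ρ' y (Sum.inr j.castSucc) = y (Sum.inl (Sum.inr j)) := by
  simp [toPlus]

@[simp] theorem toPlus_inl_last (ρ ρ' : F) (y) : toPlus k ρ ρ' y (Sum.inl (Fin.last k)) = y (Sum.inr 0) - ρ * y (Sum.inr 1) := by
  simp [toPlus]

@[simp] theorem toPlus_inr_last (ρ ρ' : F) (y) : toPlus k ρ ρ' y (Sum.inr (Fin.last k)) = y (Sum.inr 0) - ρ' * y (Sum.inr 1) := by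
  simp [toPlus]

theorem plus_toPlus {a b ρ ρ' : F} (ha : ρ + ρ' = -a) (hb : ρ * ρ' = b) (y) :
    plusForm (k + 1) F (toPlus k ρ ρ' y) = minusForm k F a b y := by
  rw [coe_plusForm, coe_minusForm]
  simp only [Cfsg.quadFormPlus, Cfsg.quadFormMinus, Fin.sum_univ_castSucc, toPlus_inl_cast, toPlus_inr_cast, toPlus_inl_last, toPlus_inr_last]
  congr 1
  rw [← hb]
  have : a = -(ρ + ρ') := by rw [ha, neg_neg]
  rw [this]
  ring

theorem toPlus_inj {ρ ρ' : F} (h : ρ ≠ ρ') : Function.Injective (toPlus k ρ ρ') := by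
  rw [injective_iff_map_eq_zero]
  intro y hy
  have hz : ∀ i, toPlus k ρ ρ' y i = 0 := fun i => congrFun hy i
  have h1 := hz (Sum.inl (Fin.last k))
  have h2 := hz (Sum.inr (Fin.last k))
  rw [toPlus_inl_last] at h1
  rw [toPlus_inr_last] at h2
  have h3 : (ρ' - ρ) * y (Sum.inr 1) = 0 := by linear_combination h1 - h2
  have h4 : y (Sum.inr 1) = 0 := by
    rcases mul_eq_zero.1 h3 with h5 | h5
    · exact absurd (sub_eq_zero.1 h5).symm h
    · exact h5
  have h5 : y (Sum.inr 0) = 0 := by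
    rw [h4, mul_zero, sub_zero] at h1
    exact h1
  ext (i | i)
  · rcases i with i | i
    · simpa using hz (Sum.inl i.castSucc)
    · simpa using hz (Sum.inr i.castSucc)
  · fin_cases i
    · exact h5
    · exact h4

/-- The linear equivalence. -/
noncomputable def toPlusE (k : ℕ) {ρ ρ' : F} (h : ρ ≠ ρ') [Fintype F] :
    ((Fin k ⊕ Fin k) ⊕ Fin 2 → F) ≃ₗ[F] (Fin (k + 1) ⊕ Fin (k + 1) → F) :=
  LinearMap.linearEquivOfInjective (toPlus k ρ ρ') (toPlus_inj h) (by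
    rw [finrank_minus, finrank_total])

theorem toPlusE_apply [Fintype F] {ρ ρ' : F} (h : ρ ≠ ρ') (y) : toPlusE k h y = toPlus k ρ ρ' y := rfl

/-- The explicit similarity of the minus-type form. -/
def minusMul (k : ℕ) (ν w₁ w₂ a b : F) : ((Fin k ⊕ Fin k) ⊕ Fin 2 → F) →ₗ[F] ((Fin k ⊕ Fin k) ⊕ Fin 2 → F) where
  toFun v := Sum.elim (Sum.elim (fun j => ν * v (Sum.inl (Sum.inl j))) (fun j => v (Sum.inl (Sum.inr j))))
        ![v (Sum.inr 0) * w₁ - b * v (Sum.inr 1) * w₂, v (Sum.inr 0) * w₂ + v (Sum.inr 1) * w₁ + a * v (Sum.inr 1) * w₂]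
  map_add' x y := by
    ext (i | i)
    · rcases i with i | i
      · simp [mul_add]
      · simp
    · fin_cases i
      · simp
        ring
      · simp
        ring
  map_smul' e x := by
    ext (i | i)
    · rcases i with i | i
      · simp
        ring
      · simp
    · fin_cases i
      · simp
        ring
      · simp
        ring

@[simp] theorem minusMul_x (ν w₁ w₂ a b : F) (v) (j : Fin k) : minusMul k ν w₁ w₂ a b v (Sum.inl (Sum.inl j)) = ν * v (Sum.inl (Sum.inl j)) := rfl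
@[simp] theorem minusMul_y (ν w₁ w₂ a b : F) (v) (j : Fin k) : minusMul k ν w₁ w₂ a b v (Sum.inl (Sum.inr j)) = v (Sum.inl (Sum.inr j)) := rfl
@[simp] theorem minusMul_0 (ν w₁ w₂ a b : F) (v : (Fin k ⊕ Fin k) ⊕ Fin 2 → F) : minusMul k ν w₁ w₂ a b v (Sum.inr 0) = v (Sum.inr 0) * w₁ - b * v (Sum.inr 1) * w₂ := rfl
@[simp] theorem minusMul_1 (ν w₁ w₂ a b : F) (v : (Fin k ⊕ Fin k) ⊕ Fin 2 → F) : minusMul k ν w₁ w₂ a b v (Sum.inr 1) = v (Sum.inr 0) * w₂ + v (Sum.inr 1) * w₁ + a * v (Sum.inr 1) * w₂ := rfl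

theorem minus_minusMul {ν w₁ w₂ a b : F} (hw : w₁ ^ 2 + a * w₁ * w₂ + b * w₂ ^ 2 = ν) (x) :
    minusForm k F a b (minusMul k ν w₁ w₂ a b x) = ν * minusForm k F a b x := by
  rw [coe_minusForm]
  simp only [Cfsg.quadFormMinus, minusMul_x, minusMul_y, minusMul_0, minusMul_1, mul_add, Finset.mul_sum]
  congr 1
  · refine Finset.sum_congr rfl fun i _ => ?_
    ring
  · rw [← hw]
    ring

/-- The explicit similarity as an element of the conformal group. -/
theorem exists_minus_sim [Fintype F] [Nontrivial ((Fin k ⊕ Fin k) ⊕ Fin 2 → F)] {a b : F} (hab : ∀ z₁ z₂ : F, z₁ ^ 2 + a * z₁ * z₂ + b * z₂ ^ 2 = 0 → z₁ = 0 ∧ z₂ = 0) (ν : F) (hν : ν ≠ 0) :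
    ∃ (w₁ w₂ : F) (g : Hs ⇑(minusForm k F a b)), w₁ ^ 2 + a * w₁ * w₂ + b * w₂ ^ 2 = ν ∧ (mult (minusForm_nondeg (F := F) k hab) g : F) = ν ∧
      ∀ v, g.1.val *ᵥ v = minusMul k ν w₁ w₂ a b v := by
  obtain ⟨w₁, w₂, hw⟩ := exists_norm_eq hab ν
  obtain ⟨g, hg, H⟩ := exists_semi_of_fun (minusForm_nondeg (F := F) k hab) (minusMul k ν w₁ w₂ a b).toAddMonoidHom (RingEquiv.refl F) ν hν
    (fun c x => (minusMul k ν w₁ w₂ a b).map_smul c x) (fun x => minus_minusMul hw x)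
  obtain ⟨ĝ, h1, h2⟩ := exists_Hs_of_semi (minusForm_nondeg (F := F) k hab) H
  exact ⟨w₁, w₂, ĝ, hw, h2, fun v => by rw [h1, hg]; rfl⟩

theorem mapV_minusMul [Fintype F] {F₀ : Type v} [Field F₀] [Fintype F₀] (ε : F₀ →+* F) (ν w₁ w₂ a b : F₀) (y : (Fin k ⊕ Fin k) ⊕ Fin 2 → F₀) :
    minusMul k (ε ν) (ε w₁) (ε w₂) (ε a) (ε b) (mapV ε y) = mapV ε (minusMul k ν w₁ w₂ a b y) := by
  ext (i | i)
  · rcases i with i | i
    · simp [mapV_apply]
    · simp [mapV_apply]
  · fin_cases i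
    · simp [mapV_apply]
    · simp [mapV_apply]

/-- The diagonal entries of the Levi element. -/
def dA (k : ℕ) (c w : F) : Fin (k + 1) → F := Fin.snoc (α := fun _ => F) (fun _ => c) (w / c)

/-- The inverse diagonal entries of the Levi element. -/
def dA' (k : ℕ) (c w : F) : Fin (k + 1) → F := Fin.snoc (α := fun _ => F) (fun _ => c⁻¹) (c / w)

theorem dA_mul {c w : F} (hc : c ≠ 0) (hw : w ≠ 0) (i : Fin (k + 1)) : dA k c w i * dA' k c w i = 1 := by
  refine Fin.lastCases ?_ (fun j => ?_) i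
  · simp only [dA, dA', Fin.snoc_last]
    field_simp
  · simp only [dA, dA', Fin.snoc_castSucc]
    field_simp

theorem det_dA [Fintype F] {c w : F} (hc : c ≠ 0) (hw : w ≠ 0) :
    (diagGL (dA k c w) (dA' k c w) (dA_mul hc hw) : GL (Fin (k + 1)) F).val.det = c ^ k * (w / c) := by
  rw [diagGL_val, Matrix.det_diagonal, Fin.prod_univ_castSucc]
  simp [dA, Finset.prod_const]

/-- The key coordinates computation. -/
theorem toPlus_minusMul [Fintype F] {a b ρ ρ' c w₁ w₂ : F} (hc : c ≠ 0) (hw : w₁ - ρ * w₂ ≠ 0) (hρ : ρ ^ 2 + a * ρ + b = 0) (hρ' : ρ' ^ 2 + a * ρ' + b = 0)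
    (hcc : (w₁ - ρ * w₂) * (w₁ - ρ' * w₂) = c * c) (y) :
    toPlus k ρ ρ' (minusMul k (c * c) w₁ w₂ a b y) =
      c • (leviH (diagGL (dA k c (w₁ - ρ * w₂)) (dA' k c (w₁ - ρ * w₂)) (dA_mul hc hw))).1.val *ᵥ (toPlus k ρ ρ' y) := by
  rw [levi_diag_mulVec]
  ext (i | i) <;> refine Fin.lastCases ?_ (fun j => ?_) i
  · simp only [toPlus_inl_last, minusMul_0, minusMul_1, Pi.smul_apply, Sum.elim_inl, dA, Fin.snoc_last, smul_eq_mul]
    field_simp
    linear_combination (-(w₂ * y (Sum.inr 1))) * hρ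
  · simp only [toPlus_inl_cast, minusMul_x, Pi.smul_apply, Sum.elim_inl, dA, Fin.snoc_castSucc, smul_eq_mul]
    ring
  · simp only [toPlus_inr_last, minusMul_0, minusMul_1, Pi.smul_apply, Sum.elim_inr, dA', Fin.snoc_last, smul_eq_mul]
    have e : c * (c / (w₁ - ρ * w₂)) = w₁ - ρ' * w₂ := by
      field_simp
      linear_combination -hcc
    rw [← mul_assoc, e]
    linear_combination (-(w₂ * y (Sum.inr 1))) * hρ'
  · simp only [toPlus_inr_cast, minusMul_y, Pi.smul_apply, Sum.elim_inr, dA', Fin.snoc_castSucc, smul_eq_mul]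
    field_simp

end model

end Cfsg.Agent.Lib.Classical.OmegaModel
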