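/-
Involutory graph-field automorphisms of `PΩ⁺` (S2717).
-/
import Mathlib
import Cfsg.Agent.Lib.Classical.OmegaModel

set_option autoImplicit false
set_option linter.unusedSimpArgs false
set_option linter.unusedSectionVars false
set_option linter.style.haveILetI false
set_option linter.unusedVariables false
set_option linter.unnecessarySimpa false

namespace Cfsg.Agent.Lib.Classical.OmegaGF






open Module MulAction QuadraticMap Matrix Cfsg.Agent.Lib.Witt.Quadratic Cfsg.Agent.Lib.Orth.Refl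
open Cfsg.Agent.Lib.Orth.Gen Cfsg.Agent.Lib.OrthRefl.Eichler Cfsg.Agent.Lib.Classical.QuadEichler
open Cfsg.Agent.Lib.Classical.QuadEichSimple Cfsg.Agent.Lib.Classical.OmegaHP Cfsg.Agent.Lib.Classical.OmegaLocal
open Cfsg.Agent.Lib.Classical.OmegaRoot Cfsg.Agent.Lib.Classical.OmegaSemi Cfsg.Agent.Lib.Classical.OmegaConj
open Cfsg.Agent.Lib.Classical.OmegaBar Cfsg.Agent.Lib.Classical.OmegaAut Cfsg.Agent.Lib.Classical.OmegaCount
open Cfsg.Agent.Lib.Orth.Forms Cfsg.Agent.Lib.Classical.BinaryForms Cfsg.Agent.Lib.Classical.QuadEichBridge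
open Cfsg.Agent.Lib.Classical.OmegaForms Cfsg.Agent.Lib.Classical.OmegaOut Cfsg.Agent.Lib.Orth.Bridge
open Cfsg.Agent.Lib.Classical.MatrixBridge Cfsg.Agent.Lib.Classical.SympSimple
open Cfsg.Agent.Lib.Classical.OmegaPGO Cfsg.Agent.Lib.Classical.OmegaPGO2 Cfsg.Agent.Lib.Classical.OmegaFrob
open Cfsg.Agent.Lib.Classical.OmegaOutOdd Cfsg.Agent.Lib.KS71.Speiser Cfsg.Agent.Lib.Classical.OmegaDesc
open Cfsg.Agent.Lib.Classical.OmegaFieldOdd Cfsg.Agent.Lib.Classical.OmegaCent Cfsg.Agent.Lib.KS71.ClassSplit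
open Cfsg.Agent.Lib.Classical.OmegaFieldCount Cfsg.Agent.Lib.QuadFn.MaxSingular Cfsg.Agent.Lib.Orth.Parity
open Cfsg.Agent.Lib.Classical.OmegaClass Cfsg.Agent.Lib.Orth.HypBasis Cfsg.Agent.Lib.QuadFn.PlusForm
open Cfsg.Agent.Lib.Classical.OmegaType Cfsg.Agent.Lib.Classical.OmegaPlusConj Cfsg.Agent.Lib.Classical.OmegaCentF
open Cfsg.Agent.Lib.Classical.OmegaCross Cfsg.Agent.Lib.Classical.OmegaMinusP
open Cfsg.Agent.Lib.Classical.OmegaMinusConj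
open Cfsg.Agent.Lib.Classical.OmegaLift Cfsg.Agent.Lib.Orth.Levi
open Cfsg.Agent.Lib.Classical.OmegaQuadCount
open Cfsg.Agent.Lib.Classical.OmegaLeviCount
open Cfsg.Agent.Lib.Classical.OmegaModel
open scoped commutatorElement

universe u v

section data

variable {F : Type u} [Field F] [Fintype F] {ι : Type} [Fintype ι] [DecidableEq ι] {Q : QuadraticForm F (ι → F)} [Nontrivial (ι → F)]

/-- The data of an involutory graph-field automorphism. -/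
theorem exists_gf_data {k : ℕ} (hQ : (polarBilin Q).Nondegenerate) (p : ℕ) [hp : Fact p.Prime] [hc : CharP F p]
    (hdim : finrank F (ι → F) = 2 * (k + 1)) (hn7 : 7 ≤ Fintype.card ι) (hn : 5 ≤ Fintype.card ι) (h8 : NoSolid Q)
    {U : Submodule F (ι → F)} (hU : TS (⇑Q) U) (hUm : finrank F U = k + 1)
    (hUσ : ∀ (σ : F ≃+* F), ∀ u ∈ U, (fun i => σ (u i)) ∈ U)
    (hcoord : ∀ (σ : F ≃+* F) (x : ι → F), Q (fun i => σ (x i)) = σ (Q x))
    (x : MulAut (Cfsg.POmega F ⇑Q)) (hx : IsGF Q x) (hxr : orderOf x = 2) :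
    ∃ (σ : F ≃+* F) (T : SemiEl Q) (l : F) (v : ι → F) (c : F), orderOf σ = 2 ∧ Semi Q T.1 σ l ∧ conjS hQ hn T = x ∧ T ^ 2 = 1 ∧
      ¬ EvenT (k + 1) T ∧ T.1 v = c • v ∧ Q v ≠ 0 := by
  classical
  obtain ⟨α, γ, φ, σ, v, r', hσ1, hQv, hvfix, hr', hγ, hφ, hα⟩ := hx
  have hφ' := eq_conjS_coord hQ hn σ (hcoord σ) hφ
  set g₀ := reflH Q v with hg₀
  have hr'' : r' = g₀.1 := Units.ext (hr'.trans (Cfsg.Agent.Lib.Orth.Closure.reflEl_val Q v).symm)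
  have hγ' : γ = conjHom ⇑Q g₀ := (induced_iff g₀ γ).1 (by
    rw [← hr'']
    exact hγ)
  set S := coordS σ (hcoord σ) with hS
  set R := toSemi Q g₀ with hR
  have hSv : S.1 v = (1 : F) • v := by
    rw [one_smul]
    funext i
    exact hvfix i
  have hcomm : R * S = S * R := refl_comm (semiOfCoord σ (hcoord σ)) hSv hQv
  have hα' : α * x * α⁻¹ = conjS hQ hn (R * S) := by
    rw [hα, hφ', hγ', map_mul, hR, conjS_toSemi]
  have hoc : orderOf (conjS hQ hn (R * S)) = 2 := by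
    rw [← hα', ← hxr]
    exact (MulAut.conj α).orderOf_eq x
  have hnotE : ¬ EvenT (k + 1) (R * S) := by
    rw [evenT_mul hQ hdim hU hUm]
    have h1 : ¬ EvenT (k + 1) R := not_evenT_refl hQ hdim hU hUm hQv
    have h2 : EvenT (k + 1) S := by
      apply evenT_of_stable hQ hdim (semiOfCoord σ (hcoord σ)) hU hUm
      apply Submodule.eq_of_le_of_finrank_eq
      · rintro _ ⟨u, hu, rfl⟩
        exact hUσ σ u hu
      · exact finrank_img _ U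
    simp [h1, h2]
  have hR2 : R ^ 2 = 1 := by
    rw [pow_two, hR, ← toSemi_mul, hg₀, reflH_sq hQ, toSemi_one]
  have hRS2 : (R * S) ^ 2 = S ^ 2 := by
    rw [(show Commute R S from hcomm).mul_pow, hR2, one_mul]
  have hσ2 : orderOf σ = 2 := by
    have h1 : (conjS hQ hn S) ^ 2 = 1 := by
      rw [← map_pow, ← hRS2, map_pow, ← hoc]
      exact pow_orderOf_eq_one _
    have h2 : orderOf σ ∣ 2 := by
      rw [← orderOf_conjS_coord hQ hn p σ (hcoord σ)]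
      exact orderOf_dvd_of_pow_eq_one h1
    rcases (Nat.dvd_prime Nat.prime_two).1 h2 with h3 | h3
    · exact absurd (orderOf_eq_one_iff.1 h3) hσ1
    · exact h3
  have hT₁ : (R * S) ^ 2 = 1 := by
    rw [hRS2]
    exact coordS_pow_order (hcoord σ) hσ2
  have hT₁v : (R * S).1 v = (-1 : F) • v := by
    show R.1 (S.1 v) = _
    rw [hSv, one_smul, hR, toSemi_apply, reflH_mulVec, refl_self_apply hQv]
  have H₁ : Semi Q (R * S).1 σ _ := semi_toSemi_mul hQ g₀ (T₀ := S) (semiOfCoord σ (hcoord σ))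
  obtain ⟨A, rfl⟩ := conjS_surjective hQ hn p hn7 h8 α
  have hx' : x = conjS hQ hn (A⁻¹ * (R * S) * A) := by
    rw [map_mul, map_mul, map_inv, ← hα']
    group
  obtain ⟨l', H₀⟩ := semi_conj A (R * S) H₁
  have hT₀ : (A⁻¹ * (R * S) * A) ^ 2 = 1 := by
    have e : A⁻¹ * (R * S) * A = A⁻¹ * (R * S) * (A⁻¹)⁻¹ := by simp
    rw [e, conj_pow, hT₁]
    simp
  obtain ⟨θ, a, HA⟩ := A.2
  have hA' : Semi Q A⁻¹.1 θ.symm (θ.symm a⁻¹) := HA.symm
  have hv₀ : (A⁻¹ * (R * S) * A).1 (A⁻¹.1 v) = (θ.symm (-1)) • A⁻¹.1 v := by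
    show A⁻¹.1 ((R * S).1 (A.1 (A⁻¹.1 v))) = _
    have e : A.1 (A⁻¹.1 v) = v := A.1.apply_symm_apply v
    rw [e, hT₁v, hA'.smul]
  have hQv₀ : Q (A⁻¹.1 v) ≠ 0 := by
    rw [hA'.Q_eq]
    exact mul_ne_zero hA'.ne (fun h => hQv (θ.symm.map_eq_zero_iff.1 h))
  refine ⟨σ, A⁻¹ * (R * S) * A, l', A⁻¹.1 v, θ.symm (-1), hσ2, H₀, hx'.symm, hT₀, ?_, hv₀, hQv₀⟩
  rw [evenT_mul hQ hdim hU hUm, evenT_mul hQ hdim hU hUm, evenT_inv hQ hdim hU hUm]
  tauto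

/-- The frame of a non-even involution. -/
theorem exists_frame_gf {k : ℕ} (hQ : (polarBilin Q).Nondegenerate) (hcard : Fintype.card ι = 2 * (k + 1)) (hdim : finrank F (ι → F) = 2 * (k + 1))
    {σ : F ≃+* F} {T : SemiEl Q} {l : F} (H : Semi Q T.1 σ l) (hσ : orderOf σ = 2) (hT : T ^ 2 = 1) (hE : ¬ EvenT (k + 1) T) :
    ∃ (b : F) (K : ((Fin k ⊕ Fin k) ⊕ Fin 2 → F) ≃ₗ[F] (ι → F)) (a₁ b₁ : Fx σ), b ≠ 0 ∧
      (∀ z₁ z₂ : Fx σ, z₁ ^ 2 + a₁ * z₁ * z₂ + b₁ * z₂ ^ 2 = 0 → z₁ = 0 ∧ z₂ = 0) ∧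
      (∀ y, b * Q (K y) = minusForm k F (a₁ : F) (b₁ : F) y) ∧ (∀ y, T.1 (K y) = K (fun j => σ (y j))) := by
  obtain ⟨k₀, β, D⟩ := exists_desc hQ H hσ (by norm_num) hT
  have hnd := descend_nondeg _ D.stable (twistForm_nondeg hQ k₀ D.b_ne)
  have hL : ¬ ∃ U₀ : Submodule (Fx σ) (ι → Fx σ), TS (⇑(descend (twistForm Q k₀ β) D.stable)) U₀ ∧ finrank (Fx σ) U₀ = k + 1 := by
    rintro ⟨U₀, h1, h2⟩
    obtain ⟨W, hW, hWm, hWT⟩ := stable_of_lagr hQ H D (m := k + 1) hcard hnd h1 h2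
    exact hE (evenT_of_stable hQ hdim H hW hWm hWT)
  obtain ⟨a₁, b₁, K, hab₁, hform, hTK⟩ := exists_minus_model hQ H D hcard hnd hL
  exact ⟨β, K, a₁, b₁, D.b_ne, hab₁, hform, hTK⟩

end data

section plus

variable {F : Type u} [Field F] [Fintype F]

theorem isClassSub_HpPlus (m : ℕ) [Nontrivial (Fin m ⊕ Fin m → F)] : IsClassSub (plusForm_nondeg (F := F) m) m (HpPlus m F) :=
  isClassSub_Hp (plusForm_nondeg (F := F) m) (finrank_total F m) (card_plus m) (stdM_ts F m) (stdM_finrank F m)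

/-- An element of non-square multiplier in the class subgroup. -/
theorem exists_nonsq_plus (m : ℕ) (hm : 5 ≤ Fintype.card (Fin m ⊕ Fin m)) [Nontrivial (Fin m ⊕ Fin m → F)] (h2 : (2 : F) ≠ 0) :
    ∃ a : HpPlus m F, ¬ IsSquare (mult (plusForm_nondeg (F := F) m) a.1 : F) := by
  classical
  have hch : ringChar F ≠ 2 := by
    intro h
    apply h2
    have := ringChar.spec F 2
    exact_mod_cast this.2 (by rw [h])
  obtain ⟨δ, hδ⟩ := FiniteField.exists_nonsquare hch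
  have hδ0 : δ ≠ 0 := by
    rintro rfl
    exact hδ IsSquare.zero
  obtain ⟨g, hg⟩ := semi_plus_mult m δ hδ0
  obtain ⟨ĝ, -, h3⟩ := exists_Hs_of_semi (plusForm_nondeg (F := F) m) hg
  obtain ⟨g', hg', h4⟩ := exists_mult_class (plusForm_nondeg (F := F) m) hm (isClassSub_HpPlus m) (card_plus m) ĝ
  refine ⟨⟨g', hg'⟩, ?_⟩
  show ¬ IsSquare (mult (plusForm_nondeg (F := F) m) g' : F)
  rw [h4, h3]
  exact hδ

end plus

section pieces

variable {F : Type u} [Field F] [Fintype F] {F₀ : Type v} [Field F₀] [Fintype F₀] {k : ℕ}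
variable (ε : F₀ →+* F) (K : ((Fin k ⊕ Fin k) ⊕ Fin 2 → F) ≃ₗ[F] (Fin (k + 1) ⊕ Fin (k + 1) → F)) (b : F) {a₀ b₀ : F₀}
variable (hc : ∀ y : (Fin k ⊕ Fin k) ⊕ Fin 2 → F₀, b * plusForm (k + 1) F (K (mapV ε y)) = ε (minusForm k F₀ a₀ b₀ y)) (hb : b ≠ 0)
variable (σ : F ≃+* F) (hε : ∀ x, σ x = x ↔ x ∈ Set.range ε)
variable (T : SemiEl (plusForm (k + 1) F)) (hT : ∀ y, T.1 (K y) = K (fun j => σ (y j)))
variable (hab₀ : ∀ z₁ z₂ : F₀, z₁ ^ 2 + a₀ * z₁ * z₂ + b₀ * z₂ ^ 2 = 0 → z₁ = 0 ∧ z₂ = 0)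
variable (hn : 5 ≤ Fintype.card (Fin (k + 1) ⊕ Fin (k + 1))) (hn' : 5 ≤ 2 * k + 2)
variable (p : ℕ) [hp : Fact p.Prime] [hcp : CharP F p] [hcp₀ : CharP F₀ p]
variable [Nontrivial (Fin (k + 1) ⊕ Fin (k + 1) → F)]

include hε hT hc hb p in
theorem gf_cent : Nonempty (↥((HpPlus (k + 1) F).map (conjHom ⇑(plusForm (k + 1) F)) ⊓ Subgroup.centralizer {conjS (plusForm_nondeg (k + 1)) hn T}) ≃*
    ↥((Pm hn' hab₀).map (conjHom ⇑(minusForm k F₀ a₀ b₀)))) := by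
  have hQ₀ := minusForm_nondeg (F := F₀) k hab₀
  have hn₀ : 5 ≤ Fintype.card ((Fin k ⊕ Fin k) ⊕ Fin 2) := by
    rw [card_minus']
    omega
  have hP := isClassSub_HpPlus (F := F) (k + 1)
  have hP₀ := isClassSub_Pm (F := F₀) (a := a₀) (b := b₀) hn' hab₀
  have e1 : ∀ g, g ∈ Pm hn' hab₀ ↔ liftH ε K b hc hb g ∈ HpPlus (k + 1) F :=
    fun g => lift_mem_iff ε K b hc hb (plusForm_nondeg (k + 1)) hQ₀ hn₀ hP hP₀ g
  have e2 : ∀ (d : F) (hd : d ≠ 0) (g g' : Hs ⇑(plusForm (k + 1) F)), g'.1.val = d • g.1.val → (g ∈ HpPlus (k + 1) F ↔ g' ∈ HpPlus (k + 1) F) :=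
    fun d hd g g' h => class_smul (plusForm_nondeg (k + 1)) hn hP (card_plus (k + 1)) d hd g g' h
  exact cent_equiv' ε K b hc hb σ hε T hT (plusForm_nondeg (k + 1)) hQ₀ hn p hn₀ (HpPlus (k + 1) F) (Pm hn' hab₀) e1 e2

include hε hT hc hb hab₀ hn' p in
theorem gf_one (h2 : (2 : F) = 0) : Cfsg.splitClassCount ((HpPlus (k + 1) F).map (conjHom ⇑(plusForm (k + 1) F))) (Cfsg.Inn (Cfsg.POmega F ⇑(plusForm (k + 1) F)))
    (conjS (plusForm_nondeg (k + 1)) hn T) = 1 := by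
  have hQ₀ := minusForm_nondeg (F := F₀) k hab₀
  have hn₀ : 5 ≤ Fintype.card ((Fin k ⊕ Fin k) ⊕ Fin 2) := by
    rw [card_minus']
    omega
  have hP := isClassSub_HpPlus (F := F) (k + 1)
  have hP₀ := isClassSub_Pm (F := F₀) (a := a₀) (b := b₀) hn' hab₀
  refine count_one ε K b hc hb σ hε T hT (plusForm_nondeg (k + 1)) hQ₀ hn hn₀ p hP hP₀ (card_minus' k) ?_ ?_
  · intro t ht
    obtain ⟨g, hg⟩ := semi_minus_mult (k := k) hab₀ t ht
    obtain ⟨ĝ, -, h3⟩ := exists_Hs_of_semi hQ₀ hg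
    exact ⟨ĝ, h3⟩
  · intro h3
    exact absurd h2 h3

theorem sq_sq_mul {t u : F} (ht : t ≠ 0) (hu : u ≠ 0) : IsSquare (t * t * u) ↔ IsSquare u := by
  rw [sq_mul_iff (mul_ne_zero ht ht) hu]
  exact ⟨fun h => h.1 ⟨t, rfl⟩, fun h => iff_of_true ⟨t, rfl⟩ h⟩

include hε hT hc hb hab₀ hn' p in
/-- The count of classes in odd characteristic. -/
theorem gf_count (a₁ b₁ : Fx σ) (ha₀ : ε a₀ = a₁) (hb₀ : ε b₀ = b₁) (hform : ∀ y, b * plusForm (k + 1) F (K y) = minusForm k F (a₁ : F) (b₁ : F) y)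
    (hσ2 : orderOf σ = 2) (hab₁ : ∀ z₁ z₂ : Fx σ, z₁ ^ 2 + a₁ * z₁ * z₂ + b₁ * z₂ ^ 2 = 0 → z₁ = 0 ∧ z₂ = 0)
    (hquad : Fintype.card F = Fintype.card F₀ ^ 2) (h2 : (2 : F) ≠ 0) (hk : 2 ≤ k + 1) (hk2 : k + 1 ≠ 2) :
    ((Odd (k + 1) ∧ Fintype.card F₀ % 4 = 1) → Cfsg.splitClassCount ((HpPlus (k + 1) F).map (conjHom ⇑(plusForm (k + 1) F))) (Cfsg.Inn (Cfsg.POmega F ⇑(plusForm (k + 1) F)))
      (conjS (plusForm_nondeg (k + 1)) hn T) = 4) ∧
    (¬ (Odd (k + 1) ∧ Fintype.card F₀ % 4 = 1) → Cfsg.splitClassCount ((HpPlus (k + 1) F).map (conjHom ⇑(plusForm (k + 1) F))) (Cfsg.Inn (Cfsg.POmega F ⇑(plusForm (k + 1) F)))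
      (conjS (plusForm_nondeg (k + 1)) hn T) = 2) := by
  classical
  have hQ := plusForm_nondeg (F := F) (k + 1)
  have hQ₀ := minusForm_nondeg (F := F₀) k hab₀
  have hn₀ : 5 ≤ Fintype.card ((Fin k ⊕ Fin k) ⊕ Fin 2) := by
    rw [card_minus']
    omega
  have hP := isClassSub_HpPlus (F := F) (k + 1)
  have hP₀ := isClassSub_Pm (F := F₀) (a := a₀) (b := b₀) hn' hab₀
  have h20 : (2 : F₀) ≠ 0 := by
    intro h
    apply h2
    have := congrArg ε h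
    rwa [map_ofNat, map_zero] at this
  have hch₀ : ringChar F₀ ≠ 2 := by
    intro h
    apply h20
    have := ringChar.spec F₀ 2
    exact_mod_cast this.2 (by rw [h])
  obtain ⟨ν₀, hν₀⟩ := FiniteField.exists_nonsquare hch₀
  have hν0 : ν₀ ≠ 0 := by
    rintro rfl
    exact hν₀ IsSquare.zero
  obtain ⟨w₁, w₂, ĝ, hw, hĝm, hĝ⟩ := exists_minus_sim (k := k) hab₀ ν₀ hν0
  obtain ⟨c, hc2⟩ := isSquare_of_quadratic ε h2 hquad ν₀
  have hεν : ε ν₀ ≠ 0 := fun h => hν0 ((map_eq_zero ε).1 h)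
  have hc0 : c ≠ 0 := by
    rintro rfl
    rw [zero_mul] at hc2
    exact hεν hc2
  -- the roots
  obtain ⟨ρ, hρ, hρσ⟩ := exists_root_two (σ := σ) hσ2 hab₁
  have ha₁ : σ (a₁ : F) = a₁ := a₁.2
  have hb₁ : σ (b₁ : F) = b₁ := b₁.2
  have hρ' : (σ ρ) ^ 2 + (a₁ : F) * σ ρ + (b₁ : F) = 0 := by
    have := congrArg σ hρ
    simpa [map_add, map_mul, map_pow, ha₁, hb₁] using this
  have hsum : ρ + σ ρ = -(a₁ : F) := by
    have h3 : (ρ - σ ρ) * (ρ + σ ρ + a₁) = 0 := by linear_combination hρ - hρ'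
    rcases mul_eq_zero.1 h3 with h4 | h4
    · exact absurd (sub_eq_zero.1 h4).symm hρσ
    · linear_combination h4
  have hprod : ρ * σ ρ = (b₁ : F) := by
    have e : σ ρ = -(a₁ : F) - ρ := by linear_combination hsum
    rw [e]
    linear_combination -hρ
  have hρne : ρ ≠ σ ρ := fun h => hρσ h.symm
  -- the element of the extension
  set W := ε w₁ - ρ * ε w₂ with hW
  set W' := ε w₁ - σ ρ * ε w₂ with hW'
  have hWW : W * W' = c * c := by
    rw [← hc2, ← hw]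
    simp only [map_add, map_mul, map_pow, ha₀, hb₀, hW, hW']
    linear_combination (-(ε w₁ * ε w₂)) * hsum + (ε w₂ ^ 2) * hprod
  have hcc0 : c * c ≠ 0 := mul_ne_zero hc0 hc0
  have hW0 : W ≠ 0 := by
    intro h
    rw [h, zero_mul] at hWW
    exact hcc0 hWW.symm
  have hσW : σ W = W' := by
    have e1 : ∀ z : F₀, σ (ε z) = ε z := fun z => (hε _).2 ⟨z, rfl⟩
    simp only [hW, hW', map_sub, map_mul, e1]
  have hσσ : ∀ z, σ (σ z) = z := by
    intro z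
    have h3 : σ ^ 2 = 1 := by
      rw [← hσ2]
      exact pow_orderOf_eq_one σ
    have h4 := DFunLike.congr_fun h3 z
    rw [pow_two] at h4
    exact h4
  have hWn : ¬ IsSquare W := by
    rintro ⟨s, hs⟩
    have h3 : W' = σ s * σ s := by
      rw [← hσW, hs, map_mul]
    have h4 : σ (s * σ s) = s * σ s := by
      rw [map_mul, hσσ, mul_comm]
    obtain ⟨t₀, ht₀⟩ := (hε _).1 h4
    apply hν₀
    refine ⟨t₀, ε.injective ?_⟩
    rw [map_mul, ht₀, hc2, ← hWW, hs, h3]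
    ring
  -- the coordinates
  let L := toPlusE k hρne
  have hL : ∀ y, L y = toPlus k ρ (σ ρ) y := fun y => rfl
  let τ : (Fin (k + 1) ⊕ Fin (k + 1) → F) ≃ₗ[F] (Fin (k + 1) ⊕ Fin (k + 1) → F) := L.symm.trans K
  have hτ : ∀ z, plusForm (k + 1) F (τ z) = b⁻¹ * plusForm (k + 1) F z := by
    intro z
    obtain ⟨y, rfl⟩ := L.surjective z
    have e : τ (L y) = K y := by
      show K (L.symm (L y)) = K y
      rw [L.symm_apply_apply]
    rw [e, hL, plus_toPlus (a := (a₁ : F)) (b := (b₁ : F)) hsum hprod, ← hform]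
    field_simp
  let A : GL (Fin (k + 1)) F := diagGL (dA k c W) (dA' k c W) (dA_mul hc0 hW0)
  have hmap : ∀ y, (ĝ.1.val.map ε) *ᵥ y = minusMul k (c * c) (ε w₁) (ε w₂) (a₁ : F) (b₁ : F) y := by
    intro y
    refine map_mulVec_of_linear ε ĝ.1.val _ (fun y' => ?_) y
    rw [hĝ, ← mapV_minusMul, ha₀, hb₀, hc2]
  have hlev : ∀ z, (liftH ε K b hc hb ĝ).1.val *ᵥ τ z = c • τ ((leviH A).1.val *ᵥ z) := by
    intro z
    obtain ⟨y, rfl⟩ := L.surjective z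
    have e : τ (L y) = K y := by
      show K (L.symm (L y)) = K y
      rw [L.symm_apply_apply]
    rw [e, liftH_mulVec, hmap]
    have h3 := toPlus_minusMul (k := k) (a := (a₁ : F)) (b := (b₁ : F)) (ρ := ρ) (ρ' := σ ρ) (c := c) (w₁ := ε w₁) (w₂ := ε w₂) hc0 hW0 hρ hρ' hWW y
    have h4 : minusMul k (c * c) (ε w₁) (ε w₂) (a₁ : F) (b₁ : F) y = c • L.symm ((leviH A).1.val *ᵥ L y) := by
      apply L.injective
      rw [map_smul, L.apply_symm_apply, hL, hL]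
      exact h3
    rw [h4, map_smul]
    rfl
  have hi : IsSquare (-1 : F) := by
    have := isSquare_of_quadratic ε h2 hquad (-1)
    rwa [map_neg, map_one] at this
  have hneg := hneg_plus (F := F) (m := k + 1) (by omega) hk2 hi
  have hsqc : IsSquare c ↔ Fintype.card F₀ % 4 = 3 := isSquare_root_iff ε hquad h2 hc2.symm hν0 hν₀
  have hodd4 : Fintype.card F₀ % 4 = 1 ∨ Fintype.card F₀ % 4 = 3 := by
    have := FiniteField.odd_card_of_char_ne_two hch₀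
    omega
  have hdet : IsSquare (A : Matrix (Fin (k + 1)) (Fin (k + 1)) F).det ↔ (Odd (k + 1) ∧ Fintype.card F₀ % 4 = 1) := by
    have e := det_dA (k := k) hc0 hW0
    have e' : (A : Matrix (Fin (k + 1)) (Fin (k + 1)) F).det = c ^ k * (W / c) := e
    rw [e']
    rcases Nat.even_or_odd' k with ⟨j, rfl | rfl⟩
    · have e3 : c ^ (2 * j) * (W / c) = c ^ j * c ^ j * (W * c⁻¹) := by
        rw [two_mul, pow_add]
        field_simp
      rw [e3, sq_sq_mul (pow_ne_zero _ hc0) (mul_ne_zero hW0 (inv_ne_zero hc0)), sq_mul_iff hW0 (inv_ne_zero hc0), isSquare_inv]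
      have hO : Odd (2 * j + 1) := ⟨j, rfl⟩
      constructor
      · intro h5
        refine ⟨hO, ?_⟩
        by_contra h6
        have h7 : Fintype.card F₀ % 4 = 3 := by omega
        exact hWn (h5.2 (hsqc.2 h7))
      · rintro ⟨-, h6⟩
        refine iff_of_false hWn (fun h7 => ?_)
        rw [hsqc, h6] at h7
        norm_num at h7
    · have e3 : c ^ (2 * j + 1) * (W / c) = c ^ j * c ^ j * W := by
        rw [pow_succ, two_mul, pow_add]
        field_simp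
      rw [e3, sq_sq_mul (pow_ne_zero _ hc0) hW0]
      refine iff_of_false hWn ?_
      rintro ⟨h5, -⟩
      rw [Nat.odd_iff] at h5
      omega
  have hlift := lift_mem_of_levi ε K b hc hb hn p h2 hP (card_plus (k + 1)) τ b⁻¹ (inv_ne_zero hb) hτ c hc0 A ĝ hlev
  have hĝP := (lift_mem_iff ε K b hc hb hQ hQ₀ hn₀ hP hP₀ ĝ).2 hlift
  obtain ⟨a, ha⟩ := exists_nonsq_plus (k + 1) hn h2
  have hinn := lift_inn_iff ε K b hc hb hn p (by omega) hk2 hneg τ b⁻¹ (inv_ne_zero hb) hτ c hc0 A ĝ hlev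
  constructor
  · intro h
    exact count_four ε K b hc hb σ hε T hT hQ hQ₀ hn hn₀ p h2 hquad hP hP₀ (card_plus (k + 1)) hneg a ha ĝ hĝP (by rw [hĝm]; exact hν₀) (hinn.2 (hdet.2 h))
  · intro h
    exact count_two ε K b hc hb σ hε T hT hQ hQ₀ hn hn₀ p h2 hquad hP hP₀ hneg a ha ĝ hĝP (fun h' => h (hdet.1 (hinn.1 h')))

end pieces

section conj

variable {F : Type u} [Field F] [Fintype F] {k : ℕ}

theorem gf_conj (hk : 4 ≤ k) (hn : 5 ≤ Fintype.card (Fin (k + 1) ⊕ Fin (k + 1))) [Nontrivial (Fin (k + 1) ⊕ Fin (k + 1) → F)]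
    (σ : F ≃+* F) (T T' : SemiEl (plusForm (k + 1) F)) (l l' : F) (H : Semi (plusForm (k + 1) F) T.1 σ l) (H' : Semi (plusForm (k + 1) F) T'.1 σ l')
    (hE : ¬ EvenT (k + 1) T) (hE' : ¬ EvenT (k + 1) T')
    (hx : Cfsg.IsGraphFieldAutClassPOmegaPlus (k + 1) (conjS (plusForm_nondeg (k + 1)) hn T)) (hx2 : orderOf (conjS (plusForm_nondeg (k + 1)) hn T) = 2)
    (hy2 : orderOf (conjS (plusForm_nondeg (k + 1)) hn T') = 2) :
    Cfsg.IsConjUnder (Cfsg.inndiagPOmegaPlus (k + 1) F) (conjS (plusForm_nondeg (k + 1)) hn T) (conjS (plusForm_nondeg (k + 1)) hn T') := by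
  have hQ := plusForm_nondeg (F := F) (k + 1)
  have hdim := finrank_total F (k + 1)
  have H2 := H'.trans H.symm
  have e : (σ.symm).trans σ = RingEquiv.refl F := by
    ext z
    exact σ.apply_symm_apply z
  rw [e] at H2
  obtain ⟨ĝ, h1, -⟩ := exists_Hs_of_semi hQ H2
  have hts : toSemi (plusForm (k + 1) F) ĝ = T' * T⁻¹ := by
    apply Subtype.ext
    ext1 z
    rw [toSemi_apply, h1]
    rfl
  have hmem : ĝ ∈ HpPlus (k + 1) F := by
    show EvenT (k + 1) (toSemi (plusForm (k + 1) F) ĝ)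
    rw [hts, evenT_mul hQ hdim (stdM_ts F (k + 1)) (stdM_finrank F (k + 1)), evenT_inv hQ hdim (stdM_ts F (k + 1)) (stdM_finrank F (k + 1))]
    tauto
  have hy3 : conjS hQ hn T' = conjHom ⇑(plusForm (k + 1) F) ĝ * conjS hQ hn T := by
    rw [← conjS_toSemi hQ hn, ← map_mul, hts]
    congr 1
    group
  have hδ : conjHom ⇑(plusForm (k + 1) F) ĝ ∈ Cfsg.inndiagPOmegaPlus (k + 1) F := by
    rw [inndiag_plus_eq]
    exact ⟨ĝ, hmem, rfl⟩
  have h5 := (main_plus (m := k + 1) (by omega) (conjS hQ hn T) (conjHom ⇑(plusForm (k + 1) F) ĝ) (Or.inr hx) Nat.prime_two hx2 hδ).1 ((congrArg orderOf hy3).symm.trans hy2)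
  rw [hy3]
  exact h5

end conj

section main

variable {F : Type u} [Field F] [Fintype F] {F₀ : Type v} [Field F₀] [Fintype F₀]

theorem two_of_two_eq_zero (p : ℕ) [hp : Fact p.Prime] [hc : CharP F p] (h : (2 : F) = 0) : p = 2 := by
  have h1 : (p : ℕ) ∣ 2 := (CharP.cast_eq_zero_iff F p 2).1 (by exact_mod_cast h)
  exact (Nat.prime_dvd_prime_iff_eq hp.out Nat.prime_two).1 h1

set_option maxHeartbeats 2000000 in
/-- **S2717**. -/
theorem main_gf {p f : ℕ} [hp : Fact p.Prime] (hF : Fintype.card F = p ^ f) (hf : 1 ≤ f) {k : ℕ} (hk : 4 ≤ k)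
    (x : MulAut (Cfsg.POmega F (Cfsg.quadFormPlus (k + 1) F))) (hx : Cfsg.IsGraphFieldAutClassPOmegaPlus (k + 1) x) (hx2 : orderOf x = 2)
    (hF₀ : Fintype.card F₀ = p ^ (f / 2)) :
    Even f ∧ (∀ y : MulAut (Cfsg.POmega F (Cfsg.quadFormPlus (k + 1) F)), Cfsg.IsGraphFieldAutClassPOmegaPlus (k + 1) y → orderOf y = 2 →
      Cfsg.IsConjUnder (Cfsg.inndiagPOmegaPlus (k + 1) F) x y) ∧
    (∃ a₀ b₀ : F₀, (∀ z₁ z₂ : F₀, z₁ ^ 2 + a₀ * z₁ * z₂ + b₀ * z₂ ^ 2 = 0 → z₁ = 0 ∧ z₂ = 0) ∧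
      Nonempty (↥(Cfsg.inndiagPOmegaPlus (k + 1) F ⊓ Subgroup.centralizer {x}) ≃* ↥(Cfsg.inndiagPOmegaMinus k F₀ a₀ b₀))) ∧
    (p = 2 → Cfsg.splitClassCount (Cfsg.inndiagPOmegaPlus (k + 1) F) (Cfsg.Inn (Cfsg.POmega F (Cfsg.quadFormPlus (k + 1) F))) x = 1) ∧
    ((p ≠ 2 ∧ Odd (k + 1) ∧ p ^ (f / 2) % 4 = 1) → Cfsg.splitClassCount (Cfsg.inndiagPOmegaPlus (k + 1) F) (Cfsg.Inn (Cfsg.POmega F (Cfsg.quadFormPlus (k + 1) F))) x = 4) ∧
    ((p ≠ 2 ∧ ¬ (Odd (k + 1) ∧ p ^ (f / 2) % 4 = 1)) → Cfsg.splitClassCount (Cfsg.inndiagPOmegaPlus (k + 1) F) (Cfsg.Inn (Cfsg.POmega F (Cfsg.quadFormPlus (k + 1) F))) x = 2) := by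
  classical
  haveI hcp : CharP F p := charP_of_card_eq_prime_pow hF
  have hQ := plusForm_nondeg (F := F) (k + 1)
  have hcard := card_plus (k + 1)
  have hdim := finrank_total F (k + 1)
  have hn7 : 7 ≤ Fintype.card (Fin (k + 1) ⊕ Fin (k + 1)) := by rw [hcard]; omega
  have hn : 5 ≤ Fintype.card (Fin (k + 1) ⊕ Fin (k + 1)) := by omega
  have hfr : 7 ≤ finrank F (Fin (k + 1) ⊕ Fin (k + 1) → F) := by rw [hdim]; omega
  haveI : Nontrivial (Fin (k + 1) ⊕ Fin (k + 1) → F) := Module.nontrivial_of_finrank_pos (R := F) (by omega)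
  have hdata := fun (x : MulAut (Cfsg.POmega F (Cfsg.quadFormPlus (k + 1) F))) (hx : Cfsg.IsGraphFieldAutClassPOmegaPlus (k + 1) x) (hx2 : orderOf x = 2) =>
    exists_gf_data (Q := plusForm (k + 1) F) (k := k) hQ p hdim hn7 hn (noSolid_plus (by omega)) (stdM_ts F (k + 1)) (stdM_finrank F (k + 1)) (stdM_coord (k + 1))
      (coordStable_plus (k + 1)) x hx hx2
  obtain ⟨σ, T, l, v, c₀, hσ2, H, hconj, hT2, hE, hv, hQv⟩ := hdata x hx hx2
  obtain ⟨hfe, hqq, hσfrob⟩ := Cfsg.Agent.Lib.KS71.GalFin.invol_eq_frob hF hf hσ2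
  have hquad : Fintype.card F = Fintype.card F₀ ^ 2 := by rw [hqq, hF₀]
  obtain ⟨ε, hε⟩ := Cfsg.Agent.Lib.KS71.PSLCent.exists_embed hF hf σ (F₀ := F₀) (by rw [hσ2]; exact hF₀)
  have hfr0 : f / 2 ≠ 0 := by
    obtain ⟨j, rfl⟩ := hfe
    omega
  haveI hcp₀ : CharP F₀ p := charP_of_card_eq_prime_pow hF₀
  obtain ⟨b, K, a₁, b₁, hb, hab₁, hform, hTK⟩ := exists_frame_gf hQ hcard hdim H hσ2 hT2 hE
  obtain ⟨a₀, ha₀⟩ := (hε (a₁ : F)).1 a₁.2
  obtain ⟨b₀, hb₀⟩ := (hε (b₁ : F)).1 b₁.2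
  have hab₀ : ∀ z₁ z₂ : F₀, z₁ ^ 2 + a₀ * z₁ * z₂ + b₀ * z₂ ^ 2 = 0 → z₁ = 0 ∧ z₂ = 0 := by
    intro z₁ z₂ hz
    have hm : ∀ z : F₀, ε z ∈ Fx σ := fun z => (hε _).2 ⟨z, rfl⟩
    have h1 := hab₁ ⟨ε z₁, hm z₁⟩ ⟨ε z₂, hm z₂⟩ (by
      apply Subtype.ext
      have := congrArg ε hz
      simp only [map_add, map_mul, map_pow, map_zero, ha₀, hb₀] at this
      simpa using this)
    constructor
    · exact (map_eq_zero ε).1 (congrArg Subtype.val h1.1)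
    · exact (map_eq_zero ε).1 (congrArg Subtype.val h1.2)
  have hcK : ∀ y : (Fin k ⊕ Fin k) ⊕ Fin 2 → F₀, b * plusForm (k + 1) F (K (mapV ε y)) = ε (minusForm k F₀ a₀ b₀ y) := by
    intro y
    rw [hform, ← mapV_minus k ε a₀ b₀ y, ha₀, hb₀]
  have hn' : 5 ≤ 2 * k + 2 := by omega
  subst hconj
  refine ⟨hfe, ?_, ⟨a₀, b₀, hab₀, ?_⟩, ?_, ?_, ?_⟩
  · -- conjugacy
    intro y hy hy2
    obtain ⟨σ', T', l', v', c', hσ'2, H', hconj', hT'2, hE', -, -⟩ := hdata y hy hy2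
    have hσσ : σ' = σ := by
      ext z
      rw [(Cfsg.Agent.Lib.KS71.GalFin.invol_eq_frob hF hf hσ'2).2.2, hσfrob]
    subst hσσ
    subst hconj'
    exact gf_conj hk hn σ' T T' l l' H H' hE hE' hx hx2 hy2
  · -- the centraliser
    rw [inndiag_minus_eq' hn' hab₀, inndiag_plus_eq]
    exact gf_cent ε K b hcK hb σ hε T hTK hab₀ hn hn' p
  · -- characteristic two
    intro hp2
    rw [inndiag_plus_eq]
    refine gf_one ε K b hcK hb σ hε T hTK hab₀ hn hn' p ?_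
    subst hp2
    exact_mod_cast CharP.cast_eq_zero F 2
  · rintro ⟨hp2, hodd, h4⟩
    rw [inndiag_plus_eq]
    have h2 : (2 : F) ≠ 0 := fun h => hp2 (two_of_two_eq_zero p h)
    refine (gf_count ε K b hcK hb σ hε T hTK hab₀ hn hn' p a₁ b₁ ha₀ hb₀ hform hσ2 hab₁ hquad h2 (by omega) (by omega)).1 ⟨hodd, ?_⟩
    rw [hF₀]
    exact h4
  · rintro ⟨hp2, h4⟩
    rw [inndiag_plus_eq]
    have h2 : (2 : F) ≠ 0 := fun h => hp2 (two_of_two_eq_zero p h)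
    refine (gf_count ε K b hcK hb σ hε T hTK hab₀ hn hn' p a₁ b₁ ha₀ hb₀ hform hσ2 hab₁ hquad h2 (by omega) (by omega)).2 ?_
    rw [hF₀]
    exact h4

end main

end Cfsg.Agent.Lib.Classical.OmegaGF
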