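/-
The symmetries of the trilinear form: the graph involution, coordinate field automorphisms; equivariance of triality.
-/
import Mathlib
import Cfsg.Agent.Lib.Classical.OmegaTriAut
import Cfsg.Agent.Lib.Classical.OmegaOut

set_option autoImplicit false
set_option linter.unusedSimpArgs false
set_option linter.unusedSectionVars false
set_option linter.style.haveILetI false
set_option linter.unusedVariables false

namespace Cfsg.Agent.Lib.Classical.OmegaTriSym

open Module MulAction QuadraticMap Cfsg.Agent.Lib.Witt.Quadratic Cfsg.Agent.Lib.Orth.Refl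
open Cfsg.Agent.Lib.Orth.Gen Cfsg.Agent.Lib.OrthRefl.Eichler Cfsg.Agent.Lib.Classical.QuadEichler
open Cfsg.Agent.Lib.Classical.QuadEichSimple Cfsg.Agent.Lib.Classical.OmegaHP Cfsg.Agent.Lib.Classical.OmegaLocal
open Cfsg.Agent.Lib.Classical.OmegaRoot Cfsg.Agent.Lib.Classical.OmegaSemi Cfsg.Agent.Lib.Classical.OmegaConj
open Cfsg.Agent.Lib.Classical.OmegaBar Cfsg.Agent.Lib.Classical.OmegaAut
open Cfsg.Agent.Lib.Orth.Forms Cfsg.Agent.Lib.Classical.OmegaTriForm Cfsg.Agent.Lib.Classical.OmegaTriGroup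
open Cfsg.Agent.Lib.Classical.OmegaSolid Cfsg.Agent.Lib.Classical.OmegaSolidMove Cfsg.Agent.Lib.Classical.OmegaCount
open Cfsg.Agent.Lib.Classical.OmegaTriAut Cfsg.Agent.Lib.Classical.OmegaOut
open scoped commutatorElement

universe u

variable {F : Type u} [Field F]

section kappa

/-- The permutation of the coordinates defining the graph involution. -/
def kapIdx : Fin 4 ⊕ Fin 4 → Fin 4 ⊕ Fin 4
  | .inl 0 => .inl 0
  | .inl 1 => .inl 2
  | .inl 2 => .inl 1
  | .inl 3 => .inr 3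
  | .inr 0 => .inr 0
  | .inr 1 => .inr 2
  | .inr 2 => .inr 1
  | .inr 3 => .inl 3

theorem kapIdx_kapIdx (i : Fin 4 ⊕ Fin 4) : kapIdx (kapIdx i) = i := by
  revert i
  decide

/-- The graph involution. -/
def kapV : V8 F ≃+ V8 F where
  toFun x := fun i => x (kapIdx i)
  invFun x := fun i => x (kapIdx i)
  left_inv x := by
    funext i
    simp [kapIdx_kapIdx]
  right_inv x := by
    funext i
    simp [kapIdx_kapIdx]
  map_add' x y := rfl

theorem kapV_apply (x : V8 F) (i : Fin 4 ⊕ Fin 4) : kapV x i = x (kapIdx i) := rfl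

theorem kapV_symm (x : V8 F) : (kapV (F := F)).symm x = kapV x := rfl

theorem kapV_kapV (x : V8 F) : kapV (kapV x) = x := (kapV (F := F)).left_inv x

theorem Q_kapV (x : V8 F) : Q8 F (kapV x) = Q8 F x := by
  rw [Q8_apply, Q8_apply]
  simp only [kapV_apply, kapIdx]
  ring

theorem semi_kap : Semi (Q8 F) kapV (RingEquiv.refl F) 1 :=
  ⟨fun c x => rfl, fun x => by rw [Q_kapV]; simp, one_ne_zero⟩

theorem tri_kap (x y z : V8 F) : tri (kapV x) (kapV z) (kapV y) = tri x y z := by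
  simp only [tri, kapV_apply, kapIdx]
  ring

end kappa

variable [Fintype F]

section equivariance

variable {g₁ g₂ g₃ : V8 F ≃+ V8 F} {θ : F ≃+* F} {l₁ l₂ l₃ : F}

/-- Triples of semisimilarities preserving the trilinear form up to a scalar act on the triples. -/
theorem conj_mem_tStab (H₁ : Semi (Q8 F) g₁ θ l₁) (H₂ : Semi (Q8 F) g₂ θ l₂) (H₃ : Semi (Q8 F) g₃ θ l₃) {μ : F}
    (h : ∀ x y z, tri (g₁ x) (g₂ y) (g₃ z) = μ * θ (tri x y z)) {a b c : eGroup (Q8 F)} (habc : (a, b, c) ∈ tStab F) :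
    (conjG H₁ a, conjG H₂ b, conjG H₃ c) ∈ tStab F := by
  intro x y z
  show tri (g₁ (a.1 (g₁.symm x))) (g₂ (b.1 (g₂.symm y))) (g₃ (c.1 (g₃.symm z))) = _
  rw [h]
  have h1 : tri (a.1 (g₁.symm x)) (b.1 (g₂.symm y)) (c.1 (g₃.symm z)) = tri (g₁.symm x) (g₂.symm y) (g₃.symm z) :=
    habc _ _ _
  rw [h1, ← h, g₁.apply_symm_apply, g₂.apply_symm_apply, g₃.apply_symm_apply]

/-- **Equivariance of triality.** -/
theorem tau_conjBar (H₁ : Semi (Q8 F) g₁ θ l₁) (H₂ : Semi (Q8 F) g₂ θ l₂) (H₃ : Semi (Q8 F) g₃ θ l₃) {μ : F}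
    (h : ∀ x y z, tri (g₁ x) (g₂ y) (g₃ z) = μ * θ (tri x y z)) (x : Gbar (Q8 F)) :
    tau F (conjBar H₁ x) = conjBar H₂ (tau F x) := by
  obtain ⟨a, rfl⟩ := QuotientGroup.mk'_surjective _ x
  obtain ⟨b, c, habc⟩ := exists_triple a
  show tau F (conjBar H₁ (pi (Q8 F) a)) = conjBar H₂ (tau F (pi (Q8 F) a))
  rw [tau_pi habc, conjBar_pi, conjBar_pi, tau_pi (conj_mem_tStab H₁ H₂ H₃ h habc)]

/-- The relation between triality and the graph involution. -/
theorem tau_kap (x : Gbar (Q8 F)) : tau F (conjBar semi_kap x) = conjBar semi_kap (tau F (tau F x)) := by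
  obtain ⟨a, rfl⟩ := QuotientGroup.mk'_surjective _ x
  obtain ⟨b, c, habc⟩ := exists_triple a
  show tau F (conjBar semi_kap (pi (Q8 F) a)) = conjBar semi_kap (tau F (tau F (pi (Q8 F) a)))
  rw [tau_pi habc, tau_pi (shift_mem habc), conjBar_pi, conjBar_pi]
  have h1 : (conjG (semi_kap (F := F)) a, conjG (semi_kap (F := F)) c, conjG (semi_kap (F := F)) b) ∈ tStab F := by
    intro x y z
    show tri (kapV (a.1 (kapV.symm x))) (kapV (c.1 (kapV.symm y))) (kapV (b.1 (kapV.symm z))) = _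
    rw [tri_kap]
    have h2 : tri (a.1 (kapV.symm x)) (b.1 (kapV.symm z)) (c.1 (kapV.symm y)) = _ := habc _ _ _
    rw [h2, kapV_symm, kapV_symm, kapV_symm, tri_kap]
  exact tau_pi h1

theorem tri_coord (θ : F ≃+* F) (x y z : V8 F) : tri (coordEquiv θ x) (coordEquiv θ y) (coordEquiv θ z) = 1 * θ (tri x y z) := by
  simp only [tri, coordEquiv_apply, map_add, map_sub, map_neg, map_mul, one_mul]

/-- Triality commutes with the coordinate field automorphisms. -/
theorem tau_coord (θ : F ≃+* F) (x : Gbar (Q8 F)) :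
    tau F (conjBar (coord_semi (coordStable_plus 4) θ) x) = conjBar (coord_semi (coordStable_plus 4) θ) (tau F x) :=
  tau_conjBar (coord_semi (coordStable_plus 4) θ) (coord_semi (coordStable_plus 4) θ) (coord_semi (coordStable_plus 4) θ)
    (tri_coord θ) x

end equivariance

end Cfsg.Agent.Lib.Classical.OmegaTriSym
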