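/-
The outer automorphism group of `PΩ⁺₈(q)`: the complement isomorphic to `S₃` and the field automorphisms.
-/
import Mathlib
import Cfsg.Agent.Lib.Classical.OmegaTriSym
import Cfsg.Agent.Lib.Classical.OmegaTriCount
import Cfsg.Agent.Lib.Classical.OmegaPlusConj

set_option autoImplicit false
set_option linter.unusedSimpArgs false
set_option linter.unusedSectionVars false
set_option linter.style.haveILetI false
set_option linter.unusedVariables false

namespace Cfsg.Agent.Lib.Classical.OmegaTriOut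

open Module MulAction QuadraticMap Cfsg.Agent.Lib.Witt.Quadratic Cfsg.Agent.Lib.Orth.Refl
open Cfsg.Agent.Lib.Orth.Gen Cfsg.Agent.Lib.OrthRefl.Eichler Cfsg.Agent.Lib.Classical.QuadEichler
open Cfsg.Agent.Lib.Classical.QuadEichSimple Cfsg.Agent.Lib.Classical.OmegaHP Cfsg.Agent.Lib.Classical.OmegaLocal
open Cfsg.Agent.Lib.Classical.OmegaRoot Cfsg.Agent.Lib.Classical.OmegaSemi Cfsg.Agent.Lib.Classical.OmegaConj
open Cfsg.Agent.Lib.Classical.OmegaBar Cfsg.Agent.Lib.Classical.OmegaAut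
open Cfsg.Agent.Lib.Orth.Forms Cfsg.Agent.Lib.Classical.OmegaTriForm Cfsg.Agent.Lib.Classical.OmegaTriGroup
open Cfsg.Agent.Lib.Classical.OmegaSolid Cfsg.Agent.Lib.Classical.OmegaSolidMove Cfsg.Agent.Lib.Classical.OmegaCount
open Cfsg.Agent.Lib.Classical.OmegaTriAut Cfsg.Agent.Lib.Classical.OmegaOut Cfsg.Agent.Lib.Classical.OmegaTriSym
open Cfsg.Agent.Lib.Classical.OmegaTriCount Cfsg.Agent.Lib.Classical.OmegaForms
open Cfsg.Agent.Lib.Classical.OmegaClass Cfsg.Agent.Lib.Classical.OmegaPlusConj Cfsg.Agent.Lib.QuadFn.MaxSingular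
open scoped commutatorElement

universe u v

section abstract

variable {X : Type*} [Group X]

/-- The parity of a permutation of three letters, as read off on two points. -/
def bit3 (σ : Equiv.Perm (Fin 3)) : ℕ := if σ 1 = σ 0 + 1 then 0 else 1

theorem table3 : ∀ σ σ' : Equiv.Perm (Fin 3), ((σ * σ') 0).val % 3 = ((σ 0).val + (σ' 0).val * 2 ^ bit3 σ) % 3 ∧
    bit3 (σ * σ') % 2 = (bit3 σ + bit3 σ') % 2 := by decide

theorem eq_one_of_table3 : ∀ σ : Equiv.Perm (Fin 3), (σ 0).val = 0 → bit3 σ = 0 → σ = 1 := by decide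

theorem comm_pow_aux {t k : X} (h : k * t = t ^ 2 * k) (a : ℕ) : k * t ^ a = t ^ (a * 2) * k := by
  induction a with
  | zero => simp
  | succ a ih =>
    rw [pow_succ, ← mul_assoc, ih, mul_assoc, h, ← mul_assoc, ← pow_add]
    congr 2
    ring

theorem comm_pow_aux' {t k : X} (h : k * t = t ^ 2 * k) (b a : ℕ) : k ^ b * t ^ a = t ^ (a * 2 ^ b) * k ^ b := by
  induction b generalizing a with
  | zero => simp
  | succ b ih =>
    rw [pow_succ, mul_assoc, comm_pow_aux h, ← mul_assoc, ih, mul_assoc, ← pow_succ, pow_succ 2 b, mul_assoc]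
    congr 2
    ring_nf

/-- The homomorphism from the symmetric group on three letters. -/
def s3Hom (t k : X) (ht : t ^ 3 = 1) (hk : k ^ 2 = 1) (h : k * t = t ^ 2 * k) : Equiv.Perm (Fin 3) →* X :=
  MonoidHom.mk' (fun σ => t ^ (σ 0).val * k ^ bit3 σ) (by
    intro σ σ'
    obtain ⟨h1, h2⟩ := table3 σ σ'
    calc t ^ ((σ * σ') 0).val * k ^ bit3 (σ * σ') = t ^ (((σ * σ') 0).val % 3) * k ^ (bit3 (σ * σ') % 2) := by
          rw [← pow_eq_pow_mod _ ht, ← pow_eq_pow_mod _ hk]
      _ = t ^ (((σ 0).val + (σ' 0).val * 2 ^ bit3 σ) % 3) * k ^ ((bit3 σ + bit3 σ') % 2) := by rw [h1, h2]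
      _ = t ^ ((σ 0).val + (σ' 0).val * 2 ^ bit3 σ) * k ^ (bit3 σ + bit3 σ') := by
          rw [← pow_eq_pow_mod _ ht, ← pow_eq_pow_mod _ hk]
      _ = t ^ (σ 0).val * k ^ bit3 σ * (t ^ (σ' 0).val * k ^ bit3 σ') := by
          rw [pow_add, pow_add, ← mul_assoc, mul_assoc (t ^ (σ 0).val), ← comm_pow_aux' h]
          group)

theorem s3Hom_apply (t k : X) (ht : t ^ 3 = 1) (hk : k ^ 2 = 1) (h : k * t = t ^ 2 * k) (σ : Equiv.Perm (Fin 3)) :
    s3Hom t k ht hk h σ = t ^ (σ 0).val * k ^ bit3 σ := rfl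

end abstract

section even

variable {F : Type u} {V : Type v} [Field F] [Fintype F] [AddCommGroup V] [Module F V] [FiniteDimensional F V]
variable {Q : QuadraticForm F V} {m : ℕ}

theorem evenT_commutator (hQ : (polarBilin Q).Nondegenerate) (hdim : finrank F V = 2 * m) {U : Submodule F V}
    (hU : TS (⇑Q) U) (hUm : finrank F U = m) (S T : SemiEl Q) : EvenT m (S * T * S⁻¹ * T⁻¹) := by
  rw [evenT_mul hQ hdim hU hUm, evenT_mul hQ hdim hU hUm, evenT_mul hQ hdim hU hUm, evenT_inv hQ hdim hU hUm,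
    evenT_inv hQ hdim hU hUm]
  generalize EvenT m S = a
  generalize EvenT m T = b
  tauto

/-- The elements of the Eichler group preserve the classes. -/
theorem evenT_ofE (hQ : (polarBilin Q).Nondegenerate) (hn : 7 ≤ finrank F V) (hdim : finrank F V = 2 * m) {U : Submodule F V}
    (hU : TS (⇑Q) U) (hUm : finrank F U = m) (t : eGroup Q) : EvenT m (ofE t) := by
  let f : eGroup Q →* SemiEl Q := MonoidHom.mk' ofE ofE_mul
  let P : Subgroup (eGroup Q) := (evenSub hQ hdim hU hUm).comap f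
  have h1 : commutator (eGroup Q) ≤ P := by
    show ⁅(⊤ : Subgroup (eGroup Q)), ⊤⁆ ≤ P
    rw [Subgroup.commutator_le]
    intro a _ b _
    have h3 : f ⁅a, b⁆ = f a * f b * (f a)⁻¹ * (f b)⁻¹ := by
      rw [commutatorElement_def, map_mul, map_mul, map_mul, map_inv, map_inv]
    show EvenT m (f ⁅a, b⁆)
    rw [h3]
    exact evenT_commutator hQ hdim hU hUm _ _
  have h2 : t ∈ P := by
    apply h1
    rw [commutator_eGroup_eq_top hQ hn]
    trivial
  exact h2

theorem evenT_of_scalar' (hQ : (polarBilin Q).Nondegenerate) (hdim : finrank F V = 2 * m) {T : SemiEl Q} {c : F} (hc : c ≠ 0)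
    (h : ∀ x, T.1 x = c • x) : EvenT m T := by
  intro U hU hUm
  have e : img (semiOf T) U = U := by
    apply Submodule.eq_of_le_of_finrank_eq
    · rintro _ ⟨u, hu, rfl⟩
      rw [h]
      exact U.smul_mem c hu
    · rw [finrank_img]
  rw [e, inf_idem, hUm]
  simp

variable (p : ℕ) [hp : Fact p.Prime] [CharP F p]

include p in
/-- The elements with trivial outer class preserve the classes. -/
theorem evenT_of_outHom (hQ : (polarBilin Q).Nondegenerate) (hn : 7 ≤ finrank F V) (hdim : finrank F V = 2 * m) {U : Submodule F V}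
    (hU : TS (⇑Q) U) (hUm : finrank F U = m) {T : SemiEl Q} (hT : outHom Q T = 1) : EvenT m T := by
  obtain ⟨c, t, hc0, hc⟩ := (mem_ker_outHom hQ p (by omega)).1 hT
  let S : SemiEl Q := ⟨scalarEquiv c hc0, _, _, scalar_semi c hc0⟩
  have hST : T = S * ofE t := by
    apply Subtype.ext
    ext1 x
    exact hc x
  rw [hST, evenT_mul hQ hdim hU hUm]
  exact iff_of_true (evenT_of_scalar' hQ hdim hc0 (fun x => rfl)) (evenT_ofE hQ hn hdim hU hUm t)

end even

section main

variable {F : Type u} [Field F] [Fintype F]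

/-- The automorphism group. -/
abbrev A8 (F : Type u) [Field F] [Fintype F] := MulAut (Gbar (Q8 F))

/-- Triality as an element of the automorphism group. -/
noncomputable abbrev tauA (F : Type u) [Field F] [Fintype F] : A8 F := tau F

/-- The graph involution as a semisimilarity. -/
noncomputable def kapEl : SemiEl (Q8 F) := ⟨kapV, _, _, semi_kap⟩

/-- The graph involution as an automorphism. -/
noncomputable def kapBar (F : Type u) [Field F] [Fintype F] : A8 F := phi (Q8 F) kapEl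

theorem kapBar_eq : kapBar F = conjBar semi_kap := phi_apply _ semi_kap

theorem kapEl_sq : (kapEl (F := F)) ^ 2 = 1 := by
  apply Subtype.ext
  ext1 x
  exact kapV_kapV x

theorem kapBar_sq : (kapBar F) ^ 2 = 1 := by
  rw [kapBar, ← map_pow, kapEl_sq, map_one]

theorem tauA_cube : (tauA F) ^ 3 = 1 := by
  ext x
  exact tau_cube x

theorem kap_tau : kapBar F * tauA F = (tauA F) ^ 2 * kapBar F := by
  ext x
  rw [kapBar_eq]
  show conjBar semi_kap (tau F x) = tau F (tau F (conjBar semi_kap x))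
  rw [tau_kap, tau_kap, tau_cube]

/-- The complement isomorphic to `S₃`. -/
noncomputable def s1 (F : Type u) [Field F] [Fintype F] : Equiv.Perm (Fin 3) →* A8 F :=
  s3Hom (tauA F) (kapBar F) tauA_cube kapBar_sq kap_tau

/-- The coordinate field automorphisms. -/
noncomputable def coordA (F : Type u) [Field F] [Fintype F] : (F ≃+* F) →* A8 F :=
  (phi (Q8 F)).comp (coordHom (coordStable_plus 4))

theorem coordA_eq (θ : F ≃+* F) : coordA F θ = conjBar (coord_semi (coordStable_plus 4) θ) :=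
  phi_apply _ (coord_semi (coordStable_plus 4) θ)

theorem comm_tau (θ : F ≃+* F) : Commute (tauA F) (coordA F θ) := by
  ext x
  rw [coordA_eq]
  exact tau_coord θ x

theorem comm_kap (θ : F ≃+* F) : Commute (kapBar F) (coordA F θ) := by
  show phi (Q8 F) kapEl * phi (Q8 F) _ = phi (Q8 F) _ * phi (Q8 F) kapEl
  rw [← map_mul, ← map_mul]
  congr 1

theorem comm_s1 (σ : Equiv.Perm (Fin 3)) (θ : F ≃+* F) : Commute (s1 F σ) (coordA F θ) :=
  ((comm_tau θ).pow_left _).mul_left ((comm_kap θ).pow_left _)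

theorem hdim8 : finrank F (V8 F) = 2 * 4 := by rw [finrank_V8]

theorem hU₁m : finrank F (WS F S₁) = 4 := by rw [finrank_WS, card_S₁]

/-- The graph involution interchanges the classes. -/
theorem not_even_kap : ¬ EvenT 4 (kapEl (F := F)) := by
  have e : img (semi_kap (F := F)) (WS F S₁) = WS F S₂ := by
    ext x
    constructor
    · rintro ⟨u, hu, rfl⟩ i hi
      exact hu _ (by revert i; decide)
    · intro hx
      refine ⟨kapV x, fun i hi => hx _ (by revert i; decide), kapV_kapV x⟩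
  apply not_evenT_of_neighbour nondeg_Q8 hdim8 (semi_kap (F := F)) ts₁ hU₁m
  show finrank F (WS F S₁ ⊓ img (semi_kap (F := F)) (WS F S₁) : Submodule F (V8 F)) + 1 = 4
  rw [e, WS_inf, finrank_WS, card_inter]

/-- The coordinate field automorphisms preserve the classes. -/
theorem even_coord (θ : F ≃+* F) : EvenT 4 (coordHom (coordStable_plus 4) θ : SemiEl (Q8 F)) := by
  apply evenT_of_stable nondeg_Q8 hdim8 (coord_semi (coordStable_plus 4) θ) ts₁ hU₁m
  show img (coord_semi (coordStable_plus 4) θ) (WS F S₁) = WS F S₁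
  apply Submodule.eq_of_le_of_finrank_eq
  · rintro _ ⟨u, hu, rfl⟩ i hi
    show θ (u i) = 0
    rw [hu i hi, map_zero]
  · exact finrank_img _ _

variable (p : ℕ) [hp : Fact p.Prime] [CharP F p]

include p in
theorem s1_mem_BB {σ : Equiv.Perm (Fin 3)} (h : s1 F σ ∈ BB F) : (σ 0).val = 0 := by
  have hk : kapBar F ∈ BB F := ⟨kapEl, rfl⟩
  have h1 : (tauA F) ^ (σ 0).val ∈ BB F := by
    have h2 : (tauA F) ^ (σ 0).val = s1 F σ * ((kapBar F) ^ bit3 σ)⁻¹ := by
      rw [s1, s3Hom_apply, mul_inv_cancel_right]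
    rw [h2]
    exact mul_mem h (inv_mem (pow_mem hk _))
  have h3 : (σ 0).val < 3 := (σ 0).2
  interval_cases h4 : (σ 0).val
  · rfl
  · exfalso
    rw [pow_one] at h1
    exact tau_not_mem p h1
  · exfalso
    rw [pow_two] at h1
    exact tau_sq_not_mem p h1

include p in
/-- **Trivial intersection of the complement and the field automorphisms with the inner automorphisms.** -/
theorem s1_coord_inj {σ : Equiv.Perm (Fin 3)} {θ : F ≃+* F} (h : s1 F σ * coordA F θ ∈ Cfsg.Inn (Gbar (Q8 F))) :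
    σ = 1 ∧ θ = 1 := by
  have hn7 := hn₇ (F := F)
  haveI : Nontrivial (V8 F) := Module.nontrivial_of_finrank_pos (R := F) (by omega)
  have hInn : s1 F σ * coordA F θ ∈ BB F := by
    obtain ⟨x, hx⟩ := h
    rw [← hx]
    exact conj_mem_BB p x
  have hc : coordA F θ ∈ BB F := ⟨_, rfl⟩
  have h0 : (σ 0).val = 0 := by
    apply s1_mem_BB (F := F) p
    have := mul_mem hInn (inv_mem hc)
    rwa [mul_inv_cancel_right] at this
  have h1 : s1 F σ * coordA F θ = phi (Q8 F) (kapEl ^ bit3 σ * coordHom (coordStable_plus 4) θ) := by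
    rw [s1, s3Hom_apply, h0, pow_zero, one_mul, map_mul, map_pow]
    rfl
  have h2 : outHom (Q8 F) (kapEl ^ bit3 σ * coordHom (coordStable_plus 4) θ) = 1 := by
    show QuotientGroup.mk' _ _ = 1
    rw [← h1]
    exact (QuotientGroup.eq_one_iff _).2 h
  have h3 := evenT_of_outHom p nondeg_Q8 hn7 hdim8 ts₁ hU₁m h2
  rw [evenT_mul nondeg_Q8 hdim8 ts₁ hU₁m, evenT_pow nondeg_Q8 hdim8 ts₁ hU₁m _ not_even_kap] at h3
  have h4 : Even (bit3 σ) := h3.2 (even_coord θ)
  have h5 : bit3 σ = 0 := by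
    rw [bit3] at h4 ⊢
    split_ifs at h4 ⊢ with h6
    · rfl
    · exact absurd h4 (by decide)
  have hσ : σ = 1 := eq_one_of_table3 σ h0 h5
  refine ⟨hσ, ?_⟩
  rw [h5, pow_zero, one_mul] at h2
  have h6 : coordHom (coordStable_plus 4) θ ∈ (thetaHom (Q8 F)).ker := ker_outHom_le nondeg_Q8 p hn7 h2
  rw [MonoidHom.mem_ker, thetaHom_coordHom] at h6
  exact h6

/-- The order of the outer automorphism group of `Gbar`. -/
theorem card_out_A8 {f : ℕ} (hf : 1 ≤ f) (hF : Fintype.card F = p ^ f) :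
    Nat.card (Cfsg.Out (Gbar (Q8 F))) = 3 * (if p = 2 then 2 else 8) * f := by
  have hn : 7 ≤ Fintype.card (Fin 4 ⊕ Fin 4) := by simp
  have h1 := card_out_POmega (Q8 F) nondeg_Q8 hn
  have h3 := card_aut_plus₄ (F := F) hf hF
  change Nat.card (MulAut (Cfsg.POmega F ⇑(Q8 F))) = _ * f * Nat.card (Cfsg.POmega F ⇑(Q8 F)) at h3
  rw [h3] at h1
  have h4 := Nat.eq_of_mul_eq_mul_right Nat.card_pos h1
  rw [← h4]
  exact Nat.card_congr (outCongr (pOmegaEquiv (Q8 F) nondeg_Q8 (by omega))).toEquiv.symm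

/-- **The outer automorphism group of `PΩ⁺₈(2^f)`.** -/
theorem out_two₄ {f : ℕ} (hf : 1 ≤ f) (hF : Fintype.card F = 2 ^ f) :
    Nonempty (Cfsg.Out (Cfsg.POmega F (Cfsg.quadFormPlus 4 F)) ≃* Equiv.Perm (Fin 3) × Multiplicative (ZMod f)) := by
  haveI : Fact (Nat.Prime 2) := ⟨Nat.prime_two⟩
  haveI : CharP F 2 := charP_of_card hF hf
  have hn : 7 ≤ Fintype.card (Fin 4 ⊕ Fin 4) := by simp
  have hcard := card_out_A8 (F := F) 2 hf hF
  rw [if_pos rfl] at hcard
  let e := outCongr (pOmegaEquiv (Q8 F) nondeg_Q8 (by omega))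
  haveI hcyc : IsCyclic (F ≃+* F) := Cfsg.Agent.Lib.KS71.GalFin.isCyclic
  have hcardG : Nat.card (F ≃+* F) = f := Cfsg.Agent.Lib.KS71.PSLAutGroup.card_ringEquiv hF hf
  have e₃ : Multiplicative (ZMod f) ≃* (F ≃+* F) := by
    have := zmodCyclicMulEquiv hcyc
    rw [hcardG] at this
    exact this
  let mkO : A8 F →* Cfsg.Out (Gbar (Q8 F)) := QuotientGroup.mk' _
  have hcomm : ∀ (σ : Equiv.Perm (Fin 3)) (z : Multiplicative (ZMod f)),
      Commute ((mkO.comp (s1 F)) σ) ((mkO.comp ((coordA F).comp e₃.toMonoidHom)) z) := by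
    intro σ z
    show mkO _ * mkO _ = mkO _ * mkO _
    rw [← map_mul, ← map_mul]
    exact congrArg mkO (comm_s1 σ (e₃ z)).eq
  let Ψ := MonoidHom.noncommCoprod (mkO.comp (s1 F)) (mkO.comp ((coordA F).comp e₃.toMonoidHom)) hcomm
  have hinj : Function.Injective Ψ := by
    rw [injective_iff_map_eq_one]
    rintro ⟨σ, z⟩ h
    have h1 : mkO (s1 F σ * coordA F (e₃ z)) = 1 := by
      rw [map_mul]
      exact h
    have h2 := s1_coord_inj (F := F) 2 ((QuotientGroup.eq_one_iff _).1 h1)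
    rw [h2.1, e₃.map_eq_one_iff.1 h2.2]
    rfl
  have hfin : Finite (Cfsg.Out (Gbar (Q8 F))) := Nat.finite_of_card_ne_zero (by rw [hcard]; omega)
  have hc : Nat.card (Equiv.Perm (Fin 3) × Multiplicative (ZMod f)) = Nat.card (Cfsg.Out (Gbar (Q8 F))) := by
    rw [Nat.card_prod, hcard, Nat.card_perm]
    have : Nat.card (Multiplicative (ZMod f)) = f := Nat.card_zmod f
    rw [this]
    have h6 : Nat.factorial 3 = 6 := rfl
    simp [h6]
  have hbij : Function.Bijective Ψ := (Nat.bijective_iff_injective_and_card Ψ).2 ⟨hinj, hc⟩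
  exact ⟨e.trans (MulEquiv.ofBijective Ψ hbij).symm⟩

end main

end Cfsg.Agent.Lib.Classical.OmegaTriOut
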