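/-
A homomorphism from the symmetric group on four letters, from relations.
-/
import Mathlib
import Cfsg.Agent.Lib.Classical.OmegaTriOut

set_option autoImplicit false

namespace Cfsg.Agent.Lib.Classical.OmegaS4Table

open Cfsg.Agent.Lib.Classical.OmegaTriOut

/-- The regular action of the Klein four group on four letters (`3` is the identity). -/
def dT : Fin 4 → Fin 4 → Fin 4 := ![![3,2,1,0], ![2,3,0,1], ![1,0,3,2], ![0,1,2,3]]

/-- The three-cycle on the letters. -/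
def ctT : Fin 4 → Fin 4 := ![1,2,0,3]

/-- The transposition on the letters. -/
def ktT : Fin 4 → Fin 4 := ![0,2,1,3]

/-- The exponent of the three-cycle. -/
def aS (σ : Equiv.Perm (Fin 4)) : ℕ := (dT (σ 3) (σ 0)).val

/-- The exponent of the transposition. -/
def bS (σ : Equiv.Perm (Fin 4)) : ℕ := if dT (σ 3) (σ 1) = ctT (dT (σ 3) (σ 0)) then 0 else 1

set_option maxRecDepth 100000 in
set_option maxHeartbeats 4000000 in
theorem table4 : ∀ σ σ' : Equiv.Perm (Fin 4), (aS (σ * σ')) % 3 = (aS σ + aS σ' * 2 ^ bS σ) % 3 ∧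
    bS (σ * σ') % 2 = (bS σ + bS σ') % 2 ∧ (σ * σ') 3 = dT (σ 3) (ctT^[aS σ] (ktT^[bS σ] (σ' 3))) := by decide

set_option maxRecDepth 100000 in
theorem eq_one_of_table4 : ∀ σ : Equiv.Perm (Fin 4), aS σ = 0 → bS σ = 0 → σ 3 = 3 → σ = 1 := by decide

set_option maxRecDepth 100000 in
theorem aS_lt : ∀ σ : Equiv.Perm (Fin 4), aS σ < 3 := by decide

set_option maxRecDepth 100000 in
theorem bS_le : ∀ σ : Equiv.Perm (Fin 4), bS σ = 0 ∨ bS σ = 1 := by decide

section abstract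

variable {X : Type*} [Group X] {t k x y z : X}

/-- The four elements of the normal Klein four group. -/
def dD (x y z : X) : Fin 4 → X := ![x, y, z, 1]

theorem dD_mul (hx : x * x = 1) (hy : y * y = 1) (hz : z * z = 1) (hxy : x * y = z) (i j : Fin 4) :
    dD x y z (dT i j) = dD x y z i * dD x y z j := by
  have hxi : x⁻¹ = x := inv_eq_of_mul_eq_one_left hx
  have hyi : y⁻¹ = y := inv_eq_of_mul_eq_one_left hy
  have hzi : z⁻¹ = z := inv_eq_of_mul_eq_one_left hz
  have hyx : y * x = z := by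
    calc y * x = y⁻¹ * x⁻¹ := by rw [hxi, hyi]
      _ = (x * y)⁻¹ := by group
      _ = z := by rw [hxy, hzi]
  have hxz : x * z = y := by rw [← hxy, ← mul_assoc, hx, one_mul]
  have hzy : z * y = x := by rw [← hxy, mul_assoc, hy, mul_one]
  have hyz : y * z = x := by rw [← hyx, ← mul_assoc, hy, one_mul]
  have hzx : z * x = y := by rw [← hyx, mul_assoc, hx, mul_one]
  fin_cases i <;> fin_cases j <;> simp [dD, dT, hx, hy, hz, hxy, hyx, hxz, hzy, hyz, hzx]

theorem dD_ct (htx : t * x = y * t) (hty : t * y = z * t) (htz : t * z = x * t) (i : Fin 4) :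
    t * dD x y z i = dD x y z (ctT i) * t := by
  fin_cases i <;> simp [dD, ctT, htx, hty, htz]

theorem dD_kt (hkx : k * x = x * k) (hky : k * y = z * k) (hkz : k * z = y * k) (i : Fin 4) :
    k * dD x y z i = dD x y z (ktT i) * k := by
  fin_cases i <;> simp [dD, ktT, hkx, hky, hkz]

theorem dD_iter {u : X} {T : Fin 4 → Fin 4} (h : ∀ i, u * dD x y z i = dD x y z (T i) * u) (n : ℕ) (i : Fin 4) :
    u ^ n * dD x y z i = dD x y z (T^[n] i) * u ^ n := by
  induction n generalizing i with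
  | zero => simp
  | succ n ih =>
    rw [pow_succ, mul_assoc, h, ← mul_assoc, ih, mul_assoc, ← pow_succ, Function.iterate_succ_apply]

/-- The homomorphism from the symmetric group on four letters. -/
def s4Hom (ht : t ^ 3 = 1) (hk : k ^ 2 = 1) (hkt : k * t = t ^ 2 * k) (hx : x * x = 1) (hy : y * y = 1) (hz : z * z = 1)
    (hxy : x * y = z) (htx : t * x = y * t) (hty : t * y = z * t) (htz : t * z = x * t)
    (hkx : k * x = x * k) (hky : k * y = z * k) (hkz : k * z = y * k) : Equiv.Perm (Fin 4) →* X :=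
  MonoidHom.mk' (fun σ => dD x y z (σ 3) * (t ^ aS σ * k ^ bS σ)) (by
    intro σ σ'
    obtain ⟨h1, h2, h3⟩ := table4 σ σ'
    have e1 : t ^ aS (σ * σ') * k ^ bS (σ * σ') = t ^ (aS σ + aS σ' * 2 ^ bS σ) * k ^ (bS σ + bS σ') := by
      rw [pow_eq_pow_mod (aS (σ * σ')) ht, pow_eq_pow_mod (bS (σ * σ')) hk, h1, h2, ← pow_eq_pow_mod _ ht,
        ← pow_eq_pow_mod _ hk]
    rw [e1, h3, dD_mul hx hy hz hxy]
    have e2 : t ^ aS σ * k ^ bS σ * dD x y z (σ' 3) =
        dD x y z (ctT^[aS σ] (ktT^[bS σ] (σ' 3))) * (t ^ aS σ * k ^ bS σ) := by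
      rw [mul_assoc, dD_iter (dD_kt hkx hky hkz), ← mul_assoc, dD_iter (dD_ct htx hty htz), mul_assoc]
    calc _ = dD x y z (σ 3) * (dD x y z (ctT^[aS σ] (ktT^[bS σ] (σ' 3))) * (t ^ (aS σ + aS σ' * 2 ^ bS σ) * k ^ (bS σ + bS σ'))) := by
          rw [mul_assoc]
      _ = dD x y z (σ 3) * (dD x y z (ctT^[aS σ] (ktT^[bS σ] (σ' 3))) * (t ^ aS σ * k ^ bS σ * (t ^ aS σ' * k ^ bS σ'))) := by
          congr 2
          rw [pow_add, pow_add, mul_assoc, ← mul_assoc (t ^ (aS σ' * 2 ^ bS σ)), ← comm_pow_aux' hkt, mul_assoc,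
            mul_assoc]
      _ = dD x y z (σ 3) * ((dD x y z (ctT^[aS σ] (ktT^[bS σ] (σ' 3))) * (t ^ aS σ * k ^ bS σ)) * (t ^ aS σ' * k ^ bS σ')) := by
          rw [mul_assoc (dD x y z _)]
      _ = dD x y z (σ 3) * ((t ^ aS σ * k ^ bS σ * dD x y z (σ' 3)) * (t ^ aS σ' * k ^ bS σ')) := by rw [e2]
      _ = _ := by simp only [mul_assoc])

theorem s4Hom_apply (ht : t ^ 3 = 1) (hk : k ^ 2 = 1) (hkt : k * t = t ^ 2 * k) (hx : x * x = 1) (hy : y * y = 1) (hz : z * z = 1)
    (hxy : x * y = z) (htx : t * x = y * t) (hty : t * y = z * t) (htz : t * z = x * t)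
    (hkx : k * x = x * k) (hky : k * y = z * k) (hkz : k * z = y * k) (σ : Equiv.Perm (Fin 4)) :
    s4Hom ht hk hkt hx hy hz hxy htx hty htz hkx hky hkz σ = dD x y z (σ 3) * (t ^ aS σ * k ^ bS σ) := rfl

end abstract

end Cfsg.Agent.Lib.Classical.OmegaS4Table
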