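/-
The outer automorphism group of `PΩ⁺₈(q)`, `q` odd: the normal Klein four group of diagonal classes.
-/
import Mathlib
import Cfsg.Agent.Lib.Classical.OmegaS4Table
import Cfsg.Agent.Lib.Classical.OmegaLeviCount

set_option autoImplicit false
set_option linter.unusedSimpArgs false
set_option linter.unusedSectionVars false
set_option linter.style.haveILetI false
set_option linter.unusedVariables false

namespace Cfsg.Agent.Lib.Classical.OmegaTriS4

open Module MulAction QuadraticMap Cfsg.Agent.Lib.Witt.Quadratic Cfsg.Agent.Lib.Orth.Refl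
open Cfsg.Agent.Lib.Orth.Gen Cfsg.Agent.Lib.OrthRefl.Eichler Cfsg.Agent.Lib.Classical.QuadEichler
open Cfsg.Agent.Lib.Classical.QuadEichSimple Cfsg.Agent.Lib.Classical.OmegaHP Cfsg.Agent.Lib.Classical.OmegaLocal
open Cfsg.Agent.Lib.Classical.OmegaRoot Cfsg.Agent.Lib.Classical.OmegaSemi Cfsg.Agent.Lib.Classical.OmegaConj
open Cfsg.Agent.Lib.Classical.OmegaBar Cfsg.Agent.Lib.Classical.OmegaAut
open Cfsg.Agent.Lib.Orth.Forms Cfsg.Agent.Lib.Classical.OmegaTriForm Cfsg.Agent.Lib.Classical.OmegaTriGroup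
open Cfsg.Agent.Lib.Classical.OmegaSolid Cfsg.Agent.Lib.Classical.OmegaSolidMove Cfsg.Agent.Lib.Classical.OmegaCount
open Cfsg.Agent.Lib.Classical.OmegaTriAut Cfsg.Agent.Lib.Classical.OmegaOut Cfsg.Agent.Lib.Classical.OmegaTriSym
open Cfsg.Agent.Lib.Classical.OmegaTriCount Cfsg.Agent.Lib.Classical.OmegaForms
open Cfsg.Agent.Lib.Classical.OmegaClass Cfsg.Agent.Lib.Classical.OmegaPlusConj Cfsg.Agent.Lib.QuadFn.MaxSingular
open Cfsg.Agent.Lib.Classical.OmegaTriOut Cfsg.Agent.Lib.Classical.OmegaS4Table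
open Cfsg.Agent.Lib.Classical.OmegaLeviCount Cfsg.Agent.Lib.Classical.OmegaOutOdd Cfsg.Agent.Lib.Orth.Levi
open Cfsg.Agent.Lib.Classical.OmegaPGO Cfsg.Agent.Lib.Classical.OmegaQuadCount
open scoped commutatorElement

universe u

section diag

variable {F : Type u} [Field F]

/-- Diagonal maps of the eight-dimensional space. -/
def dV (a b : Fin 4 → F) (ha : ∀ i, a i ≠ 0) (hb : ∀ i, b i ≠ 0) : V8 F ≃+ V8 F where
  toFun x := Sum.elim (fun i => a i * x (.inl i)) (fun i => b i * x (.inr i))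
  invFun x := Sum.elim (fun i => (a i)⁻¹ * x (.inl i)) (fun i => (b i)⁻¹ * x (.inr i))
  left_inv x := by
    funext i
    rcases i with i | i
    · simp [ha i]
    · simp [hb i]
  right_inv x := by
    funext i
    rcases i with i | i
    · simp [ha i]
    · simp [hb i]
  map_add' x y := by
    funext i
    rcases i with i | i
    · simp [mul_add]
    · simp [mul_add]

variable {a b : Fin 4 → F} {ha : ∀ i, a i ≠ 0} {hb : ∀ i, b i ≠ 0}

@[simp] theorem dV_inl (x : V8 F) (i : Fin 4) : dV a b ha hb x (.inl i) = a i * x (.inl i) := rfl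

@[simp] theorem dV_inr (x : V8 F) (i : Fin 4) : dV a b ha hb x (.inr i) = b i * x (.inr i) := rfl

theorem semi_dV {μ : F} (h : ∀ i, a i * b i = μ) (hμ : μ ≠ 0) : Semi (Q8 F) (dV a b ha hb) (RingEquiv.refl F) μ := by
  refine ⟨fun c x => ?_, fun x => ?_, hμ⟩
  · funext i
    rcases i with i | i
    · simp only [dV_inl, Pi.smul_apply, smul_eq_mul, RingEquiv.refl_apply]
      ring
    · simp only [dV_inr, Pi.smul_apply, smul_eq_mul, RingEquiv.refl_apply]
      ring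
  · rw [Q8_apply, Q8_apply]
    simp only [dV_inl, dV_inr, RingEquiv.refl_apply]
    linear_combination (x (.inl 0) * x (.inr 0)) * h 0 + (x (.inl 1) * x (.inr 1)) * h 1 +
      (x (.inl 2) * x (.inr 2)) * h 2 + (x (.inl 3) * x (.inr 3)) * h 3

/-- The diagonal semisimilarity. -/
def dEl (a b : Fin 4 → F) (ha : ∀ i, a i ≠ 0) (hb : ∀ i, b i ≠ 0) (μ : F) (h : ∀ i, a i * b i = μ) (hμ : μ ≠ 0) : SemiEl (Q8 F) :=
  ⟨dV a b ha hb, RingEquiv.refl F, μ, semi_dV h hμ⟩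

theorem dEl_val {μ : F} (h : ∀ i, a i * b i = μ) (hμ : μ ≠ 0) (x : V8 F) : (dEl a b ha hb μ h hμ).1 x = dV a b ha hb x := rfl

/-- The diagonal isometry. -/
def lEl (a : Fin 4 → F) (ha : ∀ i, a i ≠ 0) : SemiEl (Q8 F) :=
  dEl a (fun i => (a i)⁻¹) ha (fun i => inv_ne_zero (ha i)) 1 (fun i => mul_inv_cancel₀ (ha i)) one_ne_zero

theorem lEl_val (x : V8 F) : (lEl a ha).1 x = dV a (fun i => (a i)⁻¹) ha (fun i => inv_ne_zero (ha i)) x := rfl

theorem lEl_inl (x : V8 F) (i : Fin 4) : (lEl a ha).1 x (.inl i) = a i * x (.inl i) := rfl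

theorem lEl_inr (x : V8 F) (i : Fin 4) : (lEl a ha).1 x (.inr i) = (a i)⁻¹ * x (.inr i) := rfl

theorem dEl_inl {μ : F} (h : ∀ i, a i * b i = μ) (hμ : μ ≠ 0) (x : V8 F) (i : Fin 4) :
    (dEl a b ha hb μ h hμ).1 x (.inl i) = a i * x (.inl i) := rfl

theorem dEl_inr {μ : F} (h : ∀ i, a i * b i = μ) (hμ : μ ≠ 0) (x : V8 F) (i : Fin 4) :
    (dEl a b ha hb μ h hμ).1 x (.inr i) = b i * x (.inr i) := rfl

/-- The coordinates of the diagonal matrices involved. -/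
theorem ne_s {ν : F} (hν : ν ≠ 0) : ∀ i, ![ν, 1, 1, 1] i ≠ 0 := by
  intro i
  fin_cases i <;> simp [hν]

theorem ne_c₁a {ν : F} (hν : ν ≠ 0) : ∀ i, ![ν, ν, ν, 1] i ≠ 0 := by
  intro i
  fin_cases i <;> simp [hν]

theorem ne_c₁b {ν : F} (hν : ν ≠ 0) : ∀ i, ![1, 1, 1, ν] i ≠ 0 := by
  intro i
  fin_cases i <;> simp [hν]

theorem ne_c₂a {ν : F} (hν : ν ≠ 0) : ∀ i, ![ν, ν, ν, ν] i ≠ 0 := by
  intro i
  fin_cases i <;> simp [hν]

theorem ne_c₂b : ∀ i, (![1, 1, 1, 1] : Fin 4 → F) i ≠ 0 := by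
  intro i
  fin_cases i <;> simp

theorem prod_c₁ {ν : F} (hν : ν ≠ 0) : ∀ i, ![ν, ν, ν, 1] i * ![1, 1, 1, ν] i = ν := by
  intro i
  fin_cases i <;> simp

theorem prod_c₂ {ν : F} (hν : ν ≠ 0) : ∀ i, ![ν, ν, ν, ν] i * ![1, 1, 1, 1] i = ν := by
  intro i
  fin_cases i <;> simp

/-- The element changing the class of the spinor norm. -/
def sEl (ν : F) (hν : ν ≠ 0) : SemiEl (Q8 F) := lEl ![ν, 1, 1, 1] (ne_s hν)

/-- The image of `sEl` under triality. -/
def c₁El (ν : F) (hν : ν ≠ 0) : SemiEl (Q8 F) :=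
  dEl ![ν, ν, ν, 1] ![1, 1, 1, ν] (ne_c₁a hν) (ne_c₁b hν) ν (prod_c₁ hν) hν

/-- The image of `c₁El` under triality. -/
def c₂El (ν : F) (hν : ν ≠ 0) : SemiEl (Q8 F) :=
  dEl ![ν, ν, ν, ν] ![1, 1, 1, 1] (ne_c₂a hν) ne_c₂b ν (prod_c₂ hν) hν

theorem tri_diag {ν : F} (hν : ν ≠ 0) (x y z : V8 F) :
    tri ((sEl ν hν).1 x) ((c₁El ν hν).1 y) ((c₂El ν hν).1 z) = ν * (RingEquiv.refl F) (tri x y z) := by
  simp only [tri, sEl, lEl_inl, lEl_inr, c₁El, c₂El, dEl_inl, dEl_inr, RingEquiv.refl_apply]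
  simp
  field_simp

theorem semi_s {ν : F} (hν : ν ≠ 0) : Semi (Q8 F) (sEl ν hν).1 (RingEquiv.refl F) 1 :=
  semi_dV (ha := ne_s hν) (hb := fun i => inv_ne_zero (ne_s hν i)) (fun i => mul_inv_cancel₀ (ne_s hν i)) one_ne_zero

theorem semi_c₁ {ν : F} (hν : ν ≠ 0) : Semi (Q8 F) (c₁El ν hν).1 (RingEquiv.refl F) ν :=
  semi_dV (ha := ne_c₁a hν) (hb := ne_c₁b hν) (prod_c₁ hν) hν

theorem semi_c₂ {ν : F} (hν : ν ≠ 0) : Semi (Q8 F) (c₂El ν hν).1 (RingEquiv.refl F) ν :=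
  semi_dV (ha := ne_c₂a hν) (hb := ne_c₂b) (prod_c₂ hν) hν

theorem lEl_mul (a a' : Fin 4 → F) (ha : ∀ i, a i ≠ 0) (ha' : ∀ i, a' i ≠ 0) :
    lEl a ha * lEl a' ha' = lEl (fun i => a i * a' i) (fun i => mul_ne_zero (ha i) (ha' i)) := by
  apply Subtype.ext
  ext1 x
  rw [SemiEl.mul_apply]
  funext i
  rcases i with i | i
  · simp only [lEl_inl]
    ring
  · simp only [lEl_inr, mul_inv]
    ring

/-- The inverse of the nonsquare changes nothing. -/
theorem s_mul_c₁ {ν : F} (hν : ν ≠ 0) :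
    sEl ν hν * c₁El ν hν = lEl ![ν, 1, 1, ν⁻¹] (by intro i; fin_cases i <;> simp [hν]) * c₂El ν hν := by
  apply Subtype.ext
  ext1 x
  rw [SemiEl.mul_apply, SemiEl.mul_apply]
  funext i
  rcases i with i | i <;> fin_cases i <;> simp [sEl, c₁El, c₂El, lEl_inl, lEl_inr, dEl_inl, dEl_inr, hν]

theorem kap_s {ν : F} (hν : ν ≠ 0) : kapEl * sEl ν hν = sEl ν hν * kapEl := by
  apply Subtype.ext
  ext1 x
  rw [SemiEl.mul_apply, SemiEl.mul_apply]
  funext i
  rcases i with i | i <;> fin_cases i <;>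
    simp [sEl, kapEl, kapV_apply, kapIdx, lEl_inl, lEl_inr]

theorem kap_c₁ {ν : F} (hν : ν ≠ 0) : kapEl * c₁El ν hν = c₂El ν hν * kapEl := by
  apply Subtype.ext
  ext1 x
  rw [SemiEl.mul_apply, SemiEl.mul_apply]
  funext i
  rcases i with i | i <;> fin_cases i <;>
    simp [c₁El, c₂El, kapEl, kapV_apply, kapIdx, dEl_inl, dEl_inr]

theorem kap_c₂ {ν : F} (hν : ν ≠ 0) : kapEl * c₂El ν hν = c₁El ν hν * kapEl := by
  apply Subtype.ext
  ext1 x
  rw [SemiEl.mul_apply, SemiEl.mul_apply]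
  funext i
  rcases i with i | i <;> fin_cases i <;>
    simp [c₁El, c₂El, kapEl, kapV_apply, kapIdx, dEl_inl, dEl_inr]

end diag

section levi

variable {F : Type u} [Field F] [Fintype F]

/-- `-1` lies in `Ω` in dimension eight. -/
theorem hneg₄ : ∃ s : Cfsg.Omega F ⇑(plusForm 4 F), (s.1.1 : Matrix.GeneralLinearGroup (Fin 4 ⊕ Fin 4) F).val = -1 := by
  have h1 : levi (-1 : Matrix.GeneralLinearGroup (Fin 4) F) ∈ Cfsg.Omega F (Cfsg.quadFormPlus 4 F) := by
    rw [levi_mem_Omega_iff (by norm_num) (Or.inr (by norm_num))]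
    have e : ((-1 : Matrix.GeneralLinearGroup (Fin 4) F) : Matrix (Fin 4) (Fin 4) F).det = 1 := by
      rw [Units.val_neg, Units.val_one, Matrix.det_neg, Matrix.det_one, mul_one]
      simp only [Fintype.card_fin]
      ring
    rw [e]
    exact IsSquare.one
  refine ⟨⟨levi (-1 : Matrix.GeneralLinearGroup (Fin 4) F), h1⟩, ?_⟩
  show ((levi (-1 : Matrix.GeneralLinearGroup (Fin 4) F) : Cfsg.isometryGroup F (Cfsg.quadFormPlus 4 F)) : Matrix.GeneralLinearGroup (Fin 4 ⊕ Fin 4) F).val = -1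
  rw [levi_val, Units.val_neg, Units.val_one]
  have e : (-1 : Matrix (Fin 4) (Fin 4) F)⁻¹ = -1 := Matrix.inv_eq_left_inv (by simp)
  rw [e]
  ext (i | i) (j | j) <;> simp [Matrix.one_apply, Matrix.neg_apply]

variable (p : ℕ) [hp : Fact p.Prime] [CharP F p]

include p in
/-- The outer class of a diagonal isometry is trivial exactly if the determinant is a square. -/
theorem lEl_out_iff (a : Fin 4 → F) (ha : ∀ i, a i ≠ 0) : outHom (Q8 F) (lEl a ha) = 1 ↔ IsSquare (∏ i, a i) := by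
  have hn : 5 ≤ Fintype.card (Fin 4 ⊕ Fin 4) := by simp
  let A : Matrix.GeneralLinearGroup (Fin 4) F := diagGL a (fun i => (a i)⁻¹) (fun i => mul_inv_cancel₀ (ha i))
  have e1 : toSemi (Q8 F) (leviH A) = lEl a ha := by
    apply Subtype.ext
    ext1 x
    show (leviH A).1.val.mulVec x = _
    rw [levi_diag_mulVec]
    rfl
  have e2 := outCongr_mk (Q := Q8 F) nondeg_Q8 hn (leviH A)
  rw [e1] at e2
  have e3 := inn_levi_iff hn p (by norm_num) (by norm_num) hneg₄ A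
  have e4 : (A : Matrix (Fin 4) (Fin 4) F).det = ∏ i, a i := by
    show (Matrix.diagonal a).det = _
    rw [Matrix.det_diagonal]
  rw [e4] at e3
  rw [← e3, ← e2, MulEquiv.map_eq_one_iff]
  exact QuotientGroup.eq_one_iff _

end levi

section main

variable {F : Type u} [Field F] [Fintype F] (p : ℕ) [hp : Fact p.Prime] [CharP F p]

/-- The projection to the outer automorphism group. -/
noncomputable abbrev mkO (F : Type u) [Field F] [Fintype F] : A8 F →* Cfsg.Out (Gbar (Q8 F)) := QuotientGroup.mk' _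

theorem outHom_eq (g : SemiEl (Q8 F)) : outHom (Q8 F) g = mkO F (phi (Q8 F) g) := rfl

theorem tau_s {ν : F} (hν : ν ≠ 0) : tauA F * phi (Q8 F) (sEl ν hν) = phi (Q8 F) (c₁El ν hν) * tauA F := by
  ext1 x
  show tau F (phi (Q8 F) (sEl ν hν) x) = phi (Q8 F) (c₁El ν hν) (tau F x)
  rw [phi_apply _ (semi_s hν), phi_apply _ (semi_c₁ hν)]
  exact tau_conjBar (semi_s hν) (semi_c₁ hν) (semi_c₂ hν) (tri_diag hν) x

theorem tau_c₁ {ν : F} (hν : ν ≠ 0) : tauA F * phi (Q8 F) (c₁El ν hν) = phi (Q8 F) (c₂El ν hν) * tauA F := by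
  ext1 x
  show tau F (phi (Q8 F) (c₁El ν hν) x) = phi (Q8 F) (c₂El ν hν) (tau F x)
  rw [phi_apply _ (semi_c₁ hν), phi_apply _ (semi_c₂ hν)]
  refine tau_conjBar (semi_c₁ hν) (semi_c₂ hν) (semi_s hν) (μ := ν) (fun x y z => ?_) x
  rw [tri_cyc, tri_cyc ((c₂El ν hν).1 y), tri_diag, tri_cyc z, tri_cyc x]

theorem tau_c₂ {ν : F} (hν : ν ≠ 0) : tauA F * phi (Q8 F) (c₂El ν hν) = phi (Q8 F) (sEl ν hν) * tauA F := by
  ext1 x
  show tau F (phi (Q8 F) (c₂El ν hν) x) = phi (Q8 F) (sEl ν hν) (tau F x)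
  rw [phi_apply _ (semi_c₂ hν), phi_apply _ (semi_s hν)]
  refine tau_conjBar (semi_c₂ hν) (semi_s hν) (semi_c₁ hν) (μ := ν) (fun x y z => ?_) x
  rw [tri_cyc, tri_diag, tri_cyc y, tri_cyc z]

theorem conj_sq {X : Type*} [Group X] {t x y : X} (h : t * x = y * t) (hx : x * x = 1) : y * y = 1 := by
  have e : y = t * x * t⁻¹ := eq_mul_inv_of_mul_eq h.symm
  rw [e]
  calc t * x * t⁻¹ * (t * x * t⁻¹) = t * (x * x) * t⁻¹ := by group
    _ = 1 := by rw [hx]; group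

/-- The relations of the Klein four group and the complement. -/
theorem rel_t3 : (mkO F (tauA F)) ^ 3 = 1 := by
  rw [← map_pow, tauA_cube, map_one]

theorem rel_k2 : (mkO F (kapBar F)) ^ 2 = 1 := by
  rw [← map_pow, kapBar_sq, map_one]

theorem rel_kt : mkO F (kapBar F) * mkO F (tauA F) = (mkO F (tauA F)) ^ 2 * mkO F (kapBar F) := by
  rw [← map_mul, kap_tau, map_mul, map_pow]

theorem rel_tx {ν : F} (hν : ν ≠ 0) : mkO F (tauA F) * outHom (Q8 F) (sEl ν hν) = outHom (Q8 F) (c₁El ν hν) * mkO F (tauA F) := by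
  rw [outHom_eq, outHom_eq, ← map_mul, tau_s, map_mul]

theorem rel_ty {ν : F} (hν : ν ≠ 0) : mkO F (tauA F) * outHom (Q8 F) (c₁El ν hν) = outHom (Q8 F) (c₂El ν hν) * mkO F (tauA F) := by
  rw [outHom_eq, outHom_eq, ← map_mul, tau_c₁, map_mul]

theorem rel_tz {ν : F} (hν : ν ≠ 0) : mkO F (tauA F) * outHom (Q8 F) (c₂El ν hν) = outHom (Q8 F) (sEl ν hν) * mkO F (tauA F) := by
  rw [outHom_eq, outHom_eq, ← map_mul, tau_c₂, map_mul]

theorem rel_kx {ν : F} (hν : ν ≠ 0) : mkO F (kapBar F) * outHom (Q8 F) (sEl ν hν) = outHom (Q8 F) (sEl ν hν) * mkO F (kapBar F) := by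
  show outHom (Q8 F) _ * _ = _ * outHom (Q8 F) _
  rw [← map_mul, kap_s, map_mul]

theorem rel_ky {ν : F} (hν : ν ≠ 0) : mkO F (kapBar F) * outHom (Q8 F) (c₁El ν hν) = outHom (Q8 F) (c₂El ν hν) * mkO F (kapBar F) := by
  show outHom (Q8 F) _ * _ = _ * outHom (Q8 F) _
  rw [← map_mul, kap_c₁, map_mul]

theorem rel_kz {ν : F} (hν : ν ≠ 0) : mkO F (kapBar F) * outHom (Q8 F) (c₂El ν hν) = outHom (Q8 F) (c₁El ν hν) * mkO F (kapBar F) := by
  show outHom (Q8 F) _ * _ = _ * outHom (Q8 F) _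
  rw [← map_mul, kap_c₂, map_mul]

include p in
theorem rel_xx {ν : F} (hν : ν ≠ 0) : outHom (Q8 F) (sEl ν hν) * outHom (Q8 F) (sEl ν hν) = 1 := by
  rw [← map_mul, sEl, lEl_mul, lEl_out_iff p]
  refine ⟨ν, ?_⟩
  simp [Fin.prod_univ_four]

include p in
theorem rel_yy {ν : F} (hν : ν ≠ 0) : outHom (Q8 F) (c₁El ν hν) * outHom (Q8 F) (c₁El ν hν) = 1 :=
  conj_sq (rel_tx hν) (rel_xx p hν)

include p in
theorem rel_zz {ν : F} (hν : ν ≠ 0) : outHom (Q8 F) (c₂El ν hν) * outHom (Q8 F) (c₂El ν hν) = 1 :=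
  conj_sq (rel_ty hν) (rel_yy p hν)

include p in
theorem rel_xy {ν : F} (hν : ν ≠ 0) : outHom (Q8 F) (sEl ν hν) * outHom (Q8 F) (c₁El ν hν) = outHom (Q8 F) (c₂El ν hν) := by
  rw [← map_mul, s_mul_c₁, map_mul, (lEl_out_iff p _ _).2, one_mul]
  refine ⟨1, ?_⟩
  simp [Fin.prod_univ_four, hν]

include p in
theorem x_ne_one {ν : F} (hν : ν ≠ 0) (hns : ¬ IsSquare ν) : outHom (Q8 F) (sEl ν hν) ≠ 1 := by
  intro h
  apply hns
  have h1 := (lEl_out_iff p _ _).1 h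
  simpa [Fin.prod_univ_four] using h1

theorem conj_ne_one {X : Type*} [Group X] {t x y : X} (h : t * x = y * t) (hx : x ≠ 1) : y ≠ 1 := by
  rintro rfl
  rw [one_mul] at h
  exact hx (mul_left_cancel (h.trans (mul_one t).symm))

include p in
theorem y_ne_one {ν : F} (hν : ν ≠ 0) (hns : ¬ IsSquare ν) : outHom (Q8 F) (c₁El ν hν) ≠ 1 :=
  conj_ne_one (rel_tx hν) (x_ne_one p hν hns)

include p in
theorem z_ne_one {ν : F} (hν : ν ≠ 0) (hns : ¬ IsSquare ν) : outHom (Q8 F) (c₂El ν hν) ≠ 1 :=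
  conj_ne_one (rel_ty hν) (y_ne_one p hν hns)

theorem coordHom_apply (θ : F ≃+* F) (x : V8 F) (i : Fin 4 ⊕ Fin 4) :
    ((coordHom (coordStable_plus 4) θ : SemiEl (Q8 F)).1 x) i = θ (x i) := rfl

/-- Field automorphisms act on the element changing the spinor norm. -/
theorem coord_s (θ : F ≃+* F) {ν : F} (hν : ν ≠ 0) :
    coordHom (coordStable_plus 4) θ * sEl ν hν = sEl (θ ν) (θ.map_ne_zero_iff.2 hν) * coordHom (coordStable_plus 4) θ := by
  apply Subtype.ext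
  ext1 x
  rw [SemiEl.mul_apply, SemiEl.mul_apply]
  funext i
  rcases i with i | i <;> fin_cases i <;>
    simp [sEl, coordHom_apply, lEl_inl, lEl_inr]

include p in
theorem comm_x (h2 : (2 : F) ≠ 0) (θ : F ≃+* F) {ν : F} (hν : ν ≠ 0) :
    outHom (Q8 F) (sEl ν hν) * mkO F (coordA F θ) = mkO F (coordA F θ) * outHom (Q8 F) (sEl ν hν) := by
  obtain ⟨c, hc0, hc⟩ := isSquare_ratio h2 θ hν
  have e0 : sEl (θ ν) (θ.map_ne_zero_iff.2 hν) = sEl ν hν * lEl ![θ ν / ν, 1, 1, 1] (ne_s (div_ne_zero (θ.map_ne_zero_iff.2 hν) hν)) := by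
    rw [sEl, sEl, lEl_mul]
    congr 1
    funext i
    fin_cases i <;> simp
    field_simp
  have e1 : outHom (Q8 F) (sEl (θ ν) (θ.map_ne_zero_iff.2 hν)) = outHom (Q8 F) (sEl ν hν) := by
    rw [e0, map_mul, (lEl_out_iff p _ _).2, mul_one]
    refine ⟨c, ?_⟩
    simp [Fin.prod_univ_four, hc]
  have e2 : mkO F (coordA F θ) = outHom (Q8 F) (coordHom (coordStable_plus 4) θ) := rfl
  have e3 : outHom (Q8 F) (coordHom (coordStable_plus 4) θ) * outHom (Q8 F) (sEl ν hν) =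
      outHom (Q8 F) (sEl ν hν) * outHom (Q8 F) (coordHom (coordStable_plus 4) θ) := by
    rw [← map_mul, coord_s θ hν, map_mul, e1]
  rw [e2]
  exact e3.symm

theorem comm_conj {X : Type*} [Group X] {t x y c : X} (h : t * x = y * t) (h1 : t * c = c * t) (h2 : x * c = c * x) :
    y * c = c * y := by
  have e : y = t * x * t⁻¹ := eq_mul_inv_of_mul_eq h.symm
  have h3 : t⁻¹ * c = c * t⁻¹ := (Commute.inv_left h1).eq
  rw [e]
  calc t * x * t⁻¹ * c = t * x * (t⁻¹ * c) := by group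
    _ = t * x * (c * t⁻¹) := by rw [h3]
    _ = t * (x * c) * t⁻¹ := by group
    _ = t * (c * x) * t⁻¹ := by rw [h2]
    _ = (t * c) * x * t⁻¹ := by group
    _ = c * t * x * t⁻¹ := by rw [h1]
    _ = _ := by group

theorem rel_tc (θ : F ≃+* F) : mkO F (tauA F) * mkO F (coordA F θ) = mkO F (coordA F θ) * mkO F (tauA F) := by
  rw [← map_mul, ← map_mul, (comm_tau θ).eq]

theorem rel_kc (θ : F ≃+* F) : mkO F (kapBar F) * mkO F (coordA F θ) = mkO F (coordA F θ) * mkO F (kapBar F) := by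
  rw [← map_mul, ← map_mul, (comm_kap θ).eq]

/-- The diagonal elements are even. -/
theorem even_dEl {a b : Fin 4 → F} {ha : ∀ i, a i ≠ 0} {hb : ∀ i, b i ≠ 0} {μ : F} (h : ∀ i, a i * b i = μ) (hμ : μ ≠ 0) :
    EvenT 4 (dEl a b ha hb μ h hμ) := by
  apply evenT_of_stable nondeg_Q8 hdim8 (semi_dV (ha := ha) (hb := hb) h hμ) ts₁ hU₁m
  show img (semi_dV (ha := ha) (hb := hb) h hμ) (WS F S₁) = WS F S₁
  apply Submodule.eq_of_le_of_finrank_eq
  · rintro _ ⟨u, hu, rfl⟩ i hi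
    rcases i with i | i
    · show a i * u (.inl i) = 0
      rw [hu _ hi, mul_zero]
    · show b i * u (.inr i) = 0
      rw [hu _ hi, mul_zero]
  · exact finrank_img _ _

theorem theta_dEl {a b : Fin 4 → F} {ha : ∀ i, a i ≠ 0} {hb : ∀ i, b i ≠ 0} {μ : F} (h : ∀ i, a i * b i = μ) (hμ : μ ≠ 0) :
    thetaHom (Q8 F) (dEl a b ha hb μ h hμ) = 1 :=
  thetaHom_eq _ (semi_dV (ha := ha) (hb := hb) h hμ)

/-- The lifts of the elements of the normal Klein four group. -/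
noncomputable def dE (ν : F) (hν : ν ≠ 0) : Fin 4 → SemiEl (Q8 F) := ![sEl ν hν, c₁El ν hν, c₂El ν hν, 1]

theorem dD_eq {ν : F} (hν : ν ≠ 0) (i : Fin 4) :
    dD (outHom (Q8 F) (sEl ν hν)) (outHom (Q8 F) (c₁El ν hν)) (outHom (Q8 F) (c₂El ν hν)) i = outHom (Q8 F) (dE ν hν i) := by
  fin_cases i <;> simp [dD, dE]

theorem even_dE {ν : F} (hν : ν ≠ 0) (i : Fin 4) : EvenT 4 (dE ν hν i) := by
  fin_cases i
  · exact even_dEl (fun i => mul_inv_cancel₀ (ne_s hν i)) one_ne_zero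
  · exact even_dEl (prod_c₁ hν) hν
  · exact even_dEl (prod_c₂ hν) hν
  · exact evenT_one nondeg_Q8 hdim8

theorem theta_dE {ν : F} (hν : ν ≠ 0) (i : Fin 4) : thetaHom (Q8 F) (dE ν hν i) = 1 := by
  fin_cases i
  · exact theta_dEl (fun i => mul_inv_cancel₀ (ne_s hν i)) one_ne_zero
  · exact theta_dEl (prod_c₁ hν) hν
  · exact theta_dEl (prod_c₂ hν) hν
  · exact map_one _

set_option maxHeartbeats 4000000 in
include p in
/-- **The outer automorphism group of `PΩ⁺₈(q)`, `q` odd.** -/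
theorem out_odd₄ {f : ℕ} (hf : 1 ≤ f) (hF : Fintype.card F = p ^ f) (hp2 : p ≠ 2) :
    Nonempty (Cfsg.Out (Cfsg.POmega F (Cfsg.quadFormPlus 4 F)) ≃* Equiv.Perm (Fin 4) × Multiplicative (ZMod f)) := by
  have hn : 7 ≤ Fintype.card (Fin 4 ⊕ Fin 4) := by simp
  have hn7 := hn₇ (F := F)
  haveI : Nontrivial (V8 F) := Module.nontrivial_of_finrank_pos (R := F) (by omega)
  have hcard := card_out_A8 (F := F) p hf hF
  rw [if_neg hp2] at hcard
  have hoddp : Odd p := hp.out.odd_of_ne_two hp2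
  have hodd : Odd (Fintype.card F) := by
    rw [hF]
    exact hoddp.pow
  have h2 : (2 : F) ≠ 0 := OmegaPGO3.two_ne hodd
  have hch : ringChar F ≠ 2 := by
    intro h
    apply h2
    have := ringChar.spec F 2
    exact_mod_cast this.2 (by rw [h])
  obtain ⟨ν, hns⟩ := FiniteField.exists_nonsquare hch
  have hν : ν ≠ 0 := by
    rintro rfl
    exact hns IsSquare.zero
  let e := outCongr (pOmegaEquiv (Q8 F) nondeg_Q8 (by omega))
  haveI hcyc : IsCyclic (F ≃+* F) := Cfsg.Agent.Lib.KS71.GalFin.isCyclic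
  have hcardG : Nat.card (F ≃+* F) = f := Cfsg.Agent.Lib.KS71.PSLAutGroup.card_ringEquiv hF hf
  have e₃ : Multiplicative (ZMod f) ≃* (F ≃+* F) := by
    have := zmodCyclicMulEquiv hcyc
    rw [hcardG] at this
    exact this
  set t := mkO F (tauA F) with ht
  set k := mkO F (kapBar F) with hk
  set x := outHom (Q8 F) (sEl ν hν) with hx
  set y := outHom (Q8 F) (c₁El ν hν) with hy
  set z := outHom (Q8 F) (c₂El ν hν) with hz
  let ι : Equiv.Perm (Fin 4) →* Cfsg.Out (Gbar (Q8 F)) := s4Hom rel_t3 rel_k2 rel_kt (rel_xx p hν) (rel_yy p hν) (rel_zz p hν) (rel_xy p hν)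
    (rel_tx hν) (rel_ty hν) (rel_tz hν) (rel_kx hν) (rel_ky hν) (rel_kz hν)
  have hι : ∀ σ, ι σ = dD x y z (σ 3) * (t ^ aS σ * k ^ bS σ) := fun σ => rfl
  let Φ : Multiplicative (ZMod f) →* Cfsg.Out (Gbar (Q8 F)) := (mkO F).comp ((coordA F).comp e₃.toMonoidHom)
  have hΦ : ∀ c, Φ c = mkO F (coordA F (e₃ c)) := fun c => rfl
  have hcomm : ∀ (σ : Equiv.Perm (Fin 4)) (c : Multiplicative (ZMod f)), Commute (ι σ) (Φ c) := by
    intro σ c
    rw [hι, hΦ]
    set u := mkO F (coordA F (e₃ c)) with hu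
    have hxc : Commute x u := comm_x p h2 _ hν
    have htc : Commute t u := rel_tc _
    have hkc : Commute k u := rel_kc _
    have hyc : Commute y u := comm_conj (rel_tx hν) htc hxc
    have hzc : Commute z u := comm_conj (rel_ty hν) htc hyc
    have hdc : ∀ i, Commute (dD x y z i) u := by
      intro i
      fin_cases i
      · exact hxc
      · exact hyc
      · exact hzc
      · exact Commute.one_left _
    exact (hdc _).mul_left ((htc.pow_left _).mul_left (hkc.pow_left _))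
  let Ψ := MonoidHom.noncommCoprod ι Φ hcomm
  have hinj : Function.Injective Ψ := by
    rw [injective_iff_map_eq_one]
    rintro ⟨σ, c⟩ h
    have h1 : ι σ * Φ c = 1 := h
    rw [hι, hΦ] at h1
    set θ := e₃ c with hθ
    -- the lift
    have hlift : dD x y z (σ 3) = mkO F (phi (Q8 F) (dE ν hν (σ 3))) := dD_eq hν _
    have h3 : phi (Q8 F) (dE ν hν (σ 3)) * ((tauA F) ^ aS σ * (kapBar F) ^ bS σ) * coordA F θ ∈ Cfsg.Inn (Gbar (Q8 F)) := by
      rw [← QuotientGroup.eq_one_iff]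
      show mkO F _ = 1
      rw [map_mul, map_mul, map_mul, map_pow, map_pow, ← hlift]
      exact h1
    have hkB : kapBar F ∈ BB F := ⟨kapEl, rfl⟩
    have hcB : coordA F θ ∈ BB F := ⟨_, rfl⟩
    have hdB : phi (Q8 F) (dE ν hν (σ 3)) ∈ BB F := ⟨_, rfl⟩
    have h4 : phi (Q8 F) (dE ν hν (σ 3)) * ((tauA F) ^ aS σ * (kapBar F) ^ bS σ) * coordA F θ ∈ BB F := by
      obtain ⟨w, hw⟩ := h3
      rw [← hw]
      exact conj_mem_BB p w
    have h5 : (tauA F) ^ aS σ ∈ BB F := by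
      have e5 : (tauA F) ^ aS σ = (phi (Q8 F) (dE ν hν (σ 3)))⁻¹ * (phi (Q8 F) (dE ν hν (σ 3)) * ((tauA F) ^ aS σ * (kapBar F) ^ bS σ) * coordA F θ) *
          (coordA F θ)⁻¹ * ((kapBar F) ^ bS σ)⁻¹ := by group
      rw [e5]
      exact mul_mem (mul_mem (mul_mem (inv_mem hdB) h4) (inv_mem hcB)) (inv_mem (pow_mem hkB _))
    have ha : aS σ = 0 := by
      have h6 := aS_lt σ
      generalize aS σ = a at h5 h6 ⊢
      interval_cases a
      · rfl
      · exfalso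
        rw [pow_one] at h5
        exact tau_not_mem p h5
      · exfalso
        rw [pow_two] at h5
        exact tau_sq_not_mem p h5
    rw [ha, pow_zero, one_mul] at h3
    have e6 : phi (Q8 F) (dE ν hν (σ 3)) * (kapBar F) ^ bS σ * coordA F θ =
        phi (Q8 F) (dE ν hν (σ 3) * kapEl ^ bS σ * coordHom (coordStable_plus 4) θ) := by
      rw [map_mul, map_mul, map_pow]
      rfl
    rw [e6] at h3
    have h7 : outHom (Q8 F) (dE ν hν (σ 3) * kapEl ^ bS σ * coordHom (coordStable_plus 4) θ) = 1 :=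
      (QuotientGroup.eq_one_iff _).2 h3
    have h8 := evenT_of_outHom p nondeg_Q8 hn7 hdim8 ts₁ hU₁m h7
    have h9 := ((evenT_mul nondeg_Q8 hdim8 ts₁ hU₁m _ _).1 h8).2 (even_coord θ)
    have h10 := ((evenT_mul nondeg_Q8 hdim8 ts₁ hU₁m _ _).1 h9).1 (even_dE hν _)
    have h11 := (evenT_pow nondeg_Q8 hdim8 ts₁ hU₁m _ not_even_kap _).1 h10
    have hb : bS σ = 0 := by
      rcases bS_le σ with h12 | h12
      · exact h12
      · rw [h12] at h11
        exact absurd h11 (by decide)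
    rw [hb, pow_zero, mul_one] at h7
    have h13 : dE ν hν (σ 3) * coordHom (coordStable_plus 4) θ ∈ (thetaHom (Q8 F)).ker := ker_outHom_le nondeg_Q8 p hn7 h7
    rw [MonoidHom.mem_ker, map_mul, theta_dE, one_mul, thetaHom_coordHom] at h13
    rw [h13, map_one, mul_one] at h7
    have h14 : ∀ i, outHom (Q8 F) (dE ν hν i) = 1 → i = 3 := by
      intro i
      fin_cases i
      · exact fun h => (x_ne_one p hν hns h).elim
      · exact fun h => (y_ne_one p hν hns h).elim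
      · exact fun h => (z_ne_one p hν hns h).elim
      · exact fun _ => rfl
    have hσ := eq_one_of_table4 σ ha hb (h14 _ h7)
    rw [hσ, e₃.map_eq_one_iff.1 h13]
    rfl
  have hfin : Finite (Cfsg.Out (Gbar (Q8 F))) := Nat.finite_of_card_ne_zero (by rw [hcard]; omega)
  have hc : Nat.card (Equiv.Perm (Fin 4) × Multiplicative (ZMod f)) = Nat.card (Cfsg.Out (Gbar (Q8 F))) := by
    rw [Nat.card_prod, hcard, Nat.card_perm]
    have : Nat.card (Multiplicative (ZMod f)) = f := Nat.card_zmod f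
    rw [this]
    have h6 : Nat.factorial 4 = 24 := rfl
    simp [h6]
  have hbij : Function.Bijective Ψ := (Nat.bijective_iff_injective_and_card Ψ).2 ⟨hinj, hc⟩
  exact ⟨e.trans (MulEquiv.ofBijective Ψ hbij).symm⟩

end main

end Cfsg.Agent.Lib.Classical.OmegaTriS4
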