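/-
Field automorphisms of `PΩ⁺_{2m}(q)`: S2715.
-/
import Mathlib
import Cfsg.Agent.Lib.Classical.OmegaGF
import Cfsg.Agent.Lib.Classical.OmegaTriS4

set_option autoImplicit false
set_option linter.unusedSimpArgs false
set_option linter.unusedSectionVars false
set_option linter.style.haveILetI false
set_option linter.unusedVariables false
set_option linter.unnecessarySimpa false

namespace Cfsg.Agent.Lib.Classical.OmegaFieldPlus

open Module MulAction QuadraticMap Matrix Cfsg.Agent.Lib.Witt.Quadratic Cfsg.Agent.Lib.Orth.Refl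
open Cfsg.Agent.Lib.Orth.Gen Cfsg.Agent.Lib.OrthRefl.Eichler Cfsg.Agent.Lib.Classical.QuadEichler
open Cfsg.Agent.Lib.Classical.QuadEichSimple Cfsg.Agent.Lib.Classical.OmegaHP Cfsg.Agent.Lib.Classical.OmegaLocal
open Cfsg.Agent.Lib.Classical.OmegaRoot Cfsg.Agent.Lib.Classical.OmegaSemi Cfsg.Agent.Lib.Classical.OmegaConj
open Cfsg.Agent.Lib.Classical.OmegaBar Cfsg.Agent.Lib.Classical.OmegaAut Cfsg.Agent.Lib.Classical.OmegaCount
open Cfsg.Agent.Lib.Orth.Forms Cfsg.Agent.Lib.Classical.BinaryForms Cfsg.Agent.Lib.Classical.QuadEichBridge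
open Cfsg.Agent.Lib.Classical.OmegaForms Cfsg.Agent.Lib.Classical.OmegaOut Cfsg.Agent.Lib.Orth.Bridge
open Cfsg.Agent.Lib.Classical.MatrixBridge Cfsg.Agent.Lib.Classical.SympSimple
open Cfsg.Agent.Lib.Classical.OmegaPGO Cfsg.Agent.Lib.Classical.OmegaPGO2 Cfsg.Agent.Lib.Classical.OmegaFrob
open Cfsg.Agent.Lib.Classical.OmegaOutOdd Cfsg.Agent.Lib.KS71.Speiser Cfsg.Agent.Lib.Classical.OmegaDesc
open Cfsg.Agent.Lib.Classical.OmegaFieldOdd Cfsg.Agent.Lib.Classical.OmegaCent Cfsg.Agent.Lib.KS71.ClassSplit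
open Cfsg.Agent.Lib.Classical.OmegaFieldCount Cfsg.Agent.Lib.QuadFn.MaxSingular Cfsg.Agent.Lib.Orth.Parity
open Cfsg.Agent.Lib.Classical.OmegaClass Cfsg.Agent.Lib.Orth.HypBasis Cfsg.Agent.Lib.QuadFn.PlusForm
open Cfsg.Agent.Lib.Classical.OmegaType Cfsg.Agent.Lib.Classical.OmegaPlusConj Cfsg.Agent.Lib.Classical.OmegaCentF
open Cfsg.Agent.Lib.Classical.OmegaCross Cfsg.Agent.Lib.Classical.OmegaMinusP
open Cfsg.Agent.Lib.Classical.OmegaMinusConj
open Cfsg.Agent.Lib.Classical.OmegaLift Cfsg.Agent.Lib.Orth.Levi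
open Cfsg.Agent.Lib.Classical.OmegaQuadCount
open Cfsg.Agent.Lib.Classical.OmegaLeviCount
open Cfsg.Agent.Lib.Classical.OmegaModel Cfsg.Agent.Lib.Classical.OmegaGF
open Cfsg.Agent.Lib.Classical.OmegaTriForm Cfsg.Agent.Lib.Classical.OmegaTriAut Cfsg.Agent.Lib.Classical.OmegaTriGroup
open Cfsg.Agent.Lib.Classical.OmegaTriOut
open scoped commutatorElement

universe u v

section frame

variable {F : Type u} [Field F] [Fintype F] {ι : Type} [Fintype ι] [DecidableEq ι] {Q : QuadraticForm F (ι → F)}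

/-- The frame attached to a conjugate of a coordinate automorphism: the linear map. -/
noncomputable def frameK {A : SemiEl Q} {θ : F ≃+* F} {a : F} (HA : Semi Q A.1 θ a) : (ι → F) ≃ₗ[F] (ι → F) :=
  ((coordEquiv θ).trans (A⁻¹).1).toLinearEquiv (by
    intro c y
    have hA' : Semi Q A⁻¹.1 θ.symm (θ.symm a⁻¹) := HA.symm
    show A⁻¹.1 (coordEquiv θ (c • y)) = c • A⁻¹.1 (coordEquiv θ y)
    have e : coordEquiv θ (c • y) = θ c • coordEquiv θ y := by
      funext i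
      simp [coordEquiv_apply]
    rw [e, hA'.smul, θ.symm_apply_apply])

theorem frameK_apply {A : SemiEl Q} {θ : F ≃+* F} {a : F} (HA : Semi Q A.1 θ a) (y : ι → F) :
    frameK HA y = A⁻¹.1 (fun i => θ (y i)) := rfl

theorem frameK_form (hcoord : ∀ (σ : F ≃+* F) (x : ι → F), Q (fun i => σ (x i)) = σ (Q x))
    {A : SemiEl Q} {θ : F ≃+* F} {a : F} (HA : Semi Q A.1 θ a) (y : ι → F) :
    θ.symm a * Q (frameK HA y) = Q y := by
  have hA' : Semi Q A⁻¹.1 θ.symm (θ.symm a⁻¹) := HA.symm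
  rw [frameK_apply, hA'.Q_eq, hcoord, θ.symm_apply_apply, ← mul_assoc, ← map_mul, mul_inv_cancel₀ HA.ne, map_one, one_mul]

theorem frameK_conj (hcoord : ∀ (σ : F ≃+* F) (x : ι → F), Q (fun i => σ (x i)) = σ (Q x))
    {A : SemiEl Q} {θ : F ≃+* F} {a : F} (HA : Semi Q A.1 θ a) (σ : F ≃+* F) (y : ι → F) :
    (A⁻¹ * coordS σ (hcoord σ) * A).1 (frameK HA y) = frameK HA (fun j => σ (y j)) := by
  rw [SemiEl.mul_apply, SemiEl.mul_apply, frameK_apply, frameK_apply]
  have e : A.1 (A⁻¹.1 (fun i => θ (y i))) = fun i => θ (y i) := A.1.apply_symm_apply _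
  rw [e]
  congr 1
  funext i
  show σ (θ (y i)) = θ (σ (y i))
  have h1 := DFunLike.congr_fun (Cfsg.Agent.Lib.KS71.GalFin.comm σ θ) (y i)
  exact h1

end frame

section data

variable {F : Type u} [Field F] [Fintype F]

variable (p : ℕ) [hp : Fact p.Prime] [hc : CharP F p]

include p in
/-- A field automorphism of `PΩ⁺₈(q)` is conjugate to a standard one by a semisimilarity. -/
theorem exists_data₄ (hn : 5 ≤ Fintype.card (Fin 4 ⊕ Fin 4)) (x : MulAut (Cfsg.POmega F ⇑(plusForm 4 F)))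
    (hx : Cfsg.IsFieldAutClassPOmega ⇑(plusForm 4 F) x) :
    ∃ (σ : F ≃+* F) (A : SemiEl (plusForm 4 F)), σ ≠ RingEquiv.refl F ∧
      conjS (plusForm_nondeg 4) hn (A⁻¹ * coordS σ (coordStable_plus 4 σ) * A) = x := by
  obtain ⟨α, φ, σ, hσ1, hφ, hα⟩ := hx
  have hQ := plusForm_nondeg (F := F) 4
  have hφ' := eq_conjS_coord hQ hn σ (coordStable_plus 4 σ) hφ
  let c := MulAut.congr (pOmegaEquiv (plusForm 4 F) hQ hn)
  have hcS : ∀ T : SemiEl (plusForm 4 F), c (conjS hQ hn T) = phi (plusForm 4 F) T := fun T => c.apply_symm_apply _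
  have hcomm : ∀ γ : MulAut (Gbar (Q8 F)), (γ = 1 ∨ γ = tau F ∨ γ = tau F * tau F) → γ * phi (plusForm 4 F) (coordS σ (coordStable_plus 4 σ)) =
      phi (plusForm 4 F) (coordS σ (coordStable_plus 4 σ)) * γ := by
    have h1 : Commute (tauA F) (phi (plusForm 4 F) (coordS σ (coordStable_plus 4 σ))) := comm_tau σ
    rintro γ (rfl | rfl | rfl)
    · simp
    · exact h1
    · exact (h1.mul_left h1)
  have key : ∃ γ : MulAut (Gbar (Q8 F)), (γ = 1 ∨ γ = tau F ∨ γ = tau F * tau F) ∧ γ⁻¹ * c α ∈ BB F := by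
    rcases exists_coset (F := F) p (c α) with h | h | h
    · exact ⟨1, Or.inl rfl, by simpa using h⟩
    · exact ⟨_, Or.inr (Or.inl rfl), h⟩
    · exact ⟨_, Or.inr (Or.inr rfl), h⟩
  obtain ⟨γ, hγ, A, hA⟩ := key
  refine ⟨σ, A, hσ1, ?_⟩
  apply c.injective
  rw [hcS, map_mul, map_mul, map_inv]
  have hα2 : c α * c x * (c α)⁻¹ = phi (plusForm 4 F) (coordS σ (coordStable_plus 4 σ)) := by
    rw [← map_inv, ← map_mul, ← map_mul, ← hcS, ← hφ']
    exact congrArg c hα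
  have e1 : c α = γ * phi (plusForm 4 F) A := by
    have : phi (plusForm 4 F) A = γ⁻¹ * c α := hA
    rw [this]
    group
  rw [e1] at hα2
  have e2 : phi (plusForm 4 F) A * c x * (phi (plusForm 4 F) A)⁻¹ = phi (plusForm 4 F) (coordS σ (coordStable_plus 4 σ)) := by
    have h3 := hcomm γ hγ
    have h4 : γ * (phi (plusForm 4 F) A * c x * (phi (plusForm 4 F) A)⁻¹) * γ⁻¹ = phi (plusForm 4 F) (coordS σ (coordStable_plus 4 σ)) := by
      rw [← hα2]
      group
    calc _ = γ⁻¹ * (γ * (phi (plusForm 4 F) A * c x * (phi (plusForm 4 F) A)⁻¹) * γ⁻¹) * γ := by group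
      _ = γ⁻¹ * phi (plusForm 4 F) (coordS σ (coordStable_plus 4 σ)) * γ := by rw [h4]
      _ = γ⁻¹ * (γ * phi (plusForm 4 F) (coordS σ (coordStable_plus 4 σ))) := by rw [mul_assoc, ← h3]
      _ = _ := by group
  rw [← e2]
  group

include p in
/-- A field automorphism of `PΩ⁺_{2m}(q)` is conjugate to a standard one by a semisimilarity. -/
theorem exists_data {m : ℕ} (hm : 4 ≤ m) (hn : 5 ≤ Fintype.card (Fin m ⊕ Fin m)) [Nontrivial (Fin m ⊕ Fin m → F)] (x : MulAut (Cfsg.POmega F ⇑(plusForm m F)))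
    (hx : Cfsg.IsFieldAutClassPOmega ⇑(plusForm m F) x) :
    ∃ (σ : F ≃+* F) (A : SemiEl (plusForm m F)), σ ≠ RingEquiv.refl F ∧
      conjS (plusForm_nondeg m) hn (A⁻¹ * coordS σ (coordStable_plus m σ) * A) = x := by
  by_cases h4 : m = 4
  · subst h4
    exact exists_data₄ p hn x hx
  obtain ⟨α, φ, σ, hσ1, hφ, hα⟩ := hx
  have hQ := plusForm_nondeg (F := F) m
  have hφ' := eq_conjS_coord hQ hn σ (coordStable_plus m σ) hφ
  obtain ⟨A, hA⟩ := conjS_surjective hQ hn p (by rw [card_plus]; omega) (noSolid_plus (by omega)) α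
  refine ⟨σ, A, hσ1, ?_⟩
  have e : conjS hQ hn (A⁻¹ * coordS σ (coordStable_plus m σ) * A) = α⁻¹ * φ * α := by
    rw [map_mul, map_mul, map_inv, ← hφ', hA]
  refine e.trans ?_
  rw [← hα]
  group

end data

section pieces

variable {F : Type u} [Field F] [Fintype F] {F₀ : Type v} [Field F₀] [Fintype F₀] {m : ℕ}
variable (ε : F₀ →+* F) (K : (Fin m ⊕ Fin m → F) ≃ₗ[F] (Fin m ⊕ Fin m → F)) (b : F)
variable (hc : ∀ y : Fin m ⊕ Fin m → F₀, b * plusForm m F (K (mapV ε y)) = ε (plusForm m F₀ y)) (hb : b ≠ 0)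
variable (σ : F ≃+* F) (hε : ∀ x, σ x = x ↔ x ∈ Set.range ε)
variable (T : SemiEl (plusForm m F)) (hT : ∀ y, T.1 (K y) = K (fun j => σ (y j)))
variable (hn : 5 ≤ Fintype.card (Fin m ⊕ Fin m))
variable (p : ℕ) [hp : Fact p.Prime] [hcp : CharP F p] [hcp₀ : CharP F₀ p]
variable [Nontrivial (Fin m ⊕ Fin m → F)] [Nontrivial (Fin m ⊕ Fin m → F₀)]

include hε hT hc hb p in
theorem field_cent : Nonempty (↥((HpPlus m F).map (conjHom ⇑(plusForm m F)) ⊓ Subgroup.centralizer {conjS (plusForm_nondeg m) hn T}) ≃*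
    ↥((HpPlus m F₀).map (conjHom ⇑(plusForm m F₀)))) := by
  have hQ₀ := plusForm_nondeg (F := F₀) m
  have hP := isClassSub_HpPlus (F := F) m
  have hP₀ := isClassSub_HpPlus (F := F₀) m
  have e1 : ∀ g, g ∈ HpPlus m F₀ ↔ liftH ε K b hc hb g ∈ HpPlus m F :=
    fun g => lift_mem_iff ε K b hc hb (plusForm_nondeg m) hQ₀ hn hP hP₀ g
  have e2 : ∀ (d : F) (hd : d ≠ 0) (g g' : Hs ⇑(plusForm m F)), g'.1.val = d • g.1.val → (g ∈ HpPlus m F ↔ g' ∈ HpPlus m F) :=
    fun d hd g g' h => class_smul (plusForm_nondeg m) hn hP (card_plus m) d hd g g' h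
  exact cent_equiv' ε K b hc hb σ hε T hT (plusForm_nondeg m) hQ₀ hn p hn (HpPlus m F) (HpPlus m F₀) e1 e2

include hε hT hc hb p in
theorem field_one (hsq : (2 : F) ≠ 0 → ∀ a : F₀, a ≠ 0 → ¬ IsSquare a → ¬ IsSquare (ε a)) :
    Cfsg.splitClassCount ((HpPlus m F).map (conjHom ⇑(plusForm m F))) (Cfsg.Inn (Cfsg.POmega F ⇑(plusForm m F)))
    (conjS (plusForm_nondeg m) hn T) = 1 := by
  have hQ₀ := plusForm_nondeg (F := F₀) m
  have hP := isClassSub_HpPlus (F := F) m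
  have hP₀ := isClassSub_HpPlus (F := F₀) m
  refine count_one ε K b hc hb σ hε T hT (plusForm_nondeg m) hQ₀ hn hn p hP hP₀ (card_plus m) ?_ hsq
  intro t ht
  obtain ⟨g, hg⟩ := semi_plus_mult (F := F₀) m t ht
  obtain ⟨ĝ, -, h3⟩ := exists_Hs_of_semi hQ₀ hg
  exact ⟨ĝ, h3⟩

/-- The diagonal similarity. -/
def plusMulL (R : Type*) [Field R] (m : ℕ) (ν : R) (hν : ν ≠ 0) : (Fin m ⊕ Fin m → R) ≃ₗ[R] (Fin m ⊕ Fin m → R) where
  toFun y := Sum.elim (fun i => ν * y (.inl i)) (fun i => y (.inr i))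
  invFun y := Sum.elim (fun i => ν⁻¹ * y (.inl i)) (fun i => y (.inr i))
  left_inv y := by
    funext i
    rcases i with i | i
    · simp [hν]
    · simp
  right_inv y := by
    funext i
    rcases i with i | i
    · simp [hν]
    · simp
  map_add' x y := by
    funext i
    rcases i with i | i
    · simp [mul_add]
    · simp
  map_smul' c x := by
    funext i
    rcases i with i | i
    · simp
      ring
    · simp

theorem plusMulL_inl {R : Type*} [Field R] {m : ℕ} {ν : R} {hν : ν ≠ 0} (y : Fin m ⊕ Fin m → R) (i : Fin m) :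
    plusMulL R m ν hν y (.inl i) = ν * y (.inl i) := rfl

theorem plusMulL_inr {R : Type*} [Field R] {m : ℕ} {ν : R} {hν : ν ≠ 0} (y : Fin m ⊕ Fin m → R) (i : Fin m) :
    plusMulL R m ν hν y (.inr i) = y (.inr i) := rfl

theorem plus_plusMulL {R : Type*} [Field R] {m : ℕ} {ν : R} {hν : ν ≠ 0} (y : Fin m ⊕ Fin m → R) :
    plusForm m R (plusMulL R m ν hν y) = ν * plusForm m R y := by
  rw [coe_plusForm]
  simp only [Cfsg.quadFormPlus, plusMulL_inl, plusMulL_inr, Finset.mul_sum]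
  exact Finset.sum_congr rfl fun i _ => by ring

include hε hT hc hb p in
/-- The count of classes in odd characteristic for an involution. -/
theorem field_count (hform : ∀ y, b * plusForm m F (K y) = plusForm m F y)
    (hquad : Fintype.card F = Fintype.card F₀ ^ 2) (h2 : (2 : F) ≠ 0) (hm : 2 ≤ m) (hm2 : m ≠ 2) :
    ((Odd m ∧ Fintype.card F₀ % 4 = 1) → Cfsg.splitClassCount ((HpPlus m F).map (conjHom ⇑(plusForm m F))) (Cfsg.Inn (Cfsg.POmega F ⇑(plusForm m F)))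
      (conjS (plusForm_nondeg m) hn T) = 2) ∧
    (¬ (Odd m ∧ Fintype.card F₀ % 4 = 1) → Cfsg.splitClassCount ((HpPlus m F).map (conjHom ⇑(plusForm m F))) (Cfsg.Inn (Cfsg.POmega F ⇑(plusForm m F)))
      (conjS (plusForm_nondeg m) hn T) = 4) := by
  classical
  have hQ := plusForm_nondeg (F := F) m
  have hQ₀ := plusForm_nondeg (F := F₀) m
  have hP := isClassSub_HpPlus (F := F) m
  have hP₀ := isClassSub_HpPlus (F := F₀) m
  have h20 : (2 : F₀) ≠ 0 := by
    intro h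
    apply h2
    have := congrArg ε h
    rwa [map_ofNat, map_zero] at this
  have hch₀ : ringChar F₀ ≠ 2 := by
    intro h
    apply h20
    have := ringChar.spec F₀ 2
    exact_mod_cast this.2 (by rw [h])
  obtain ⟨ν₀, hν₀⟩ := FiniteField.exists_nonsquare hch₀
  have hν0 : ν₀ ≠ 0 := by
    rintro rfl
    exact hν₀ IsSquare.zero
  obtain ⟨c, hc2⟩ := isSquare_of_quadratic ε h2 hquad ν₀
  have hεν : ε ν₀ ≠ 0 := fun h => hν0 ((map_eq_zero ε).1 h)
  have hc0 : c ≠ 0 := by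
    rintro rfl
    rw [zero_mul] at hc2
    exact hεν hc2
  -- the similarity over the subfield
  let ĝ : Hs ⇑(plusForm m F₀) := ofLin (plusMulL F₀ m ν₀ hν0) ν₀ hν0 (fun z => plus_plusMulL z)
  have hĝ : ∀ y, ĝ.1.val *ᵥ y = plusMulL F₀ m ν₀ hν0 y := fun y => ofLin_mulVec _ _ _ _ y
  have hĝm : (mult hQ₀ ĝ : F₀) = ν₀ := by
    have h3 : mult hQ₀ ĝ = Units.mk0 ν₀ hν0 := mult_eq hQ₀ ĝ (fun v => by
      rw [hĝ, plus_plusMulL]
      rfl)
    rw [h3]
    rfl
  have hτ : ∀ z, plusForm m F (K z) = b⁻¹ * plusForm m F z := by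
    intro z
    rw [← hform z]
    field_simp
  let A : GL (Fin m) F := diagGL (fun _ => c) (fun _ => c⁻¹) (fun _ => mul_inv_cancel₀ hc0)
  have hmap : ∀ y, (ĝ.1.val.map ε) *ᵥ y = plusMulL F m (ε ν₀) hεν y := by
    intro y
    refine map_mulVec_of_linear ε ĝ.1.val (plusMulL F m (ε ν₀) hεν).toLinearMap (fun y' => ?_) y
    rw [hĝ]
    funext i
    rcases i with i | i
    · show ε ν₀ * ε (y' (.inl i)) = ε (ν₀ * y' (.inl i))
      rw [map_mul]
    · rfl
  have hlev : ∀ z, (liftH ε K b hc hb ĝ).1.val *ᵥ K z = c • K ((leviH A).1.val *ᵥ z) := by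
    intro z
    rw [liftH_mulVec, hmap, ← map_smul]
    congr 1
    rw [levi_diag_mulVec]
    funext i
    rcases i with i | i
    · show ε ν₀ * z (.inl i) = c * (c * z (.inl i))
      rw [hc2]
      ring
    · show z (.inr i) = c * (c⁻¹ * z (.inr i))
      field_simp
  have hi : IsSquare (-1 : F) := by
    have := isSquare_of_quadratic ε h2 hquad (-1)
    rwa [map_neg, map_one] at this
  have hneg := hneg_plus (F := F) (m := m) (by omega) hm2 hi
  have hsqc : IsSquare c ↔ Fintype.card F₀ % 4 = 3 := isSquare_root_iff ε hquad h2 hc2.symm hν0 hν₀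
  have hodd4 : Fintype.card F₀ % 4 = 1 ∨ Fintype.card F₀ % 4 = 3 := by
    have := FiniteField.odd_card_of_char_ne_two hch₀
    omega
  have hdet : IsSquare (A : Matrix (Fin m) (Fin m) F).det ↔ ¬ (Odd m ∧ Fintype.card F₀ % 4 = 1) := by
    have e' : (A : Matrix (Fin m) (Fin m) F).det = c ^ m := by
      show (Matrix.diagonal fun _ => c).det = _
      rw [Matrix.det_diagonal]
      simp
    rw [e']
    rcases Nat.even_or_odd' m with ⟨j, rfl | rfl⟩
    · have hO : ¬ Odd (2 * j) := by simp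
      refine iff_of_true ⟨c ^ j, ?_⟩ (fun h => hO h.1)
      rw [two_mul, pow_add]
    · have hO : Odd (2 * j + 1) := ⟨j, rfl⟩
      have e3 : c ^ (2 * j + 1) = c ^ j * c ^ j * c := by
        rw [pow_succ, two_mul, pow_add]
      rw [e3, sq_sq_mul (pow_ne_zero _ hc0) hc0, hsqc]
      constructor
      · intro h5 h6
        rw [h6.2] at h5
        norm_num at h5
      · intro h5
        by_contra h6
        exact h5 ⟨hO, by omega⟩
  have hlift := lift_mem_of_levi ε K b hc hb hn p h2 hP (card_plus m) K b⁻¹ (inv_ne_zero hb) hτ c hc0 A ĝ hlev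
  have hĝP := (lift_mem_iff ε K b hc hb hQ hQ₀ hn hP hP₀ ĝ).2 hlift
  obtain ⟨a, ha⟩ := exists_nonsq_plus m hn h2
  have hinn := lift_inn_iff ε K b hc hb hn p (by omega) hm2 hneg K b⁻¹ (inv_ne_zero hb) hτ c hc0 A ĝ hlev
  constructor
  · intro h
    exact count_two ε K b hc hb σ hε T hT hQ hQ₀ hn hn p h2 hquad hP hP₀ hneg a ha ĝ hĝP (fun h' => (hdet.1 (hinn.1 h')) h)
  · intro h
    exact count_four ε K b hc hb σ hε T hT hQ hQ₀ hn hn p h2 hquad hP hP₀ (card_plus m) hneg a ha ĝ hĝP (by rw [hĝm]; exact hν₀) (hinn.2 (hdet.2 h))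

end pieces

section main

variable {F : Type u} [Field F] [Fintype F] {F₀ : Type v} [Field F₀] [Fintype F₀]

set_option maxHeartbeats 2000000 in
/-- **S2715**. -/
theorem main_field {p f : ℕ} [hp : Fact p.Prime] (hF : Fintype.card F = p ^ f) (hf : 1 ≤ f) {m : ℕ} (hm : 4 ≤ m)
    (x : MulAut (Cfsg.POmega F (Cfsg.quadFormPlus m F))) (hx : Cfsg.IsFieldAutClassPOmega (Cfsg.quadFormPlus m F) x) {r : ℕ} (hr : r.Prime)
    (hxr : orderOf x = r) (hF₀ : Fintype.card F₀ = p ^ (f / r)) :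
    r ∣ f ∧ Nonempty (↥(Cfsg.inndiagPOmegaPlus m F ⊓ Subgroup.centralizer {x}) ≃* ↥(Cfsg.inndiagPOmegaPlus m F₀)) ∧
    ((Odd r ∨ p = 2) → Cfsg.splitClassCount (Cfsg.inndiagPOmegaPlus m F) (Cfsg.Inn (Cfsg.POmega F (Cfsg.quadFormPlus m F))) x = 1) ∧
    ((r = 2 ∧ p ≠ 2 ∧ Odd m ∧ p ^ (f / 2) % 4 = 1) → Cfsg.splitClassCount (Cfsg.inndiagPOmegaPlus m F) (Cfsg.Inn (Cfsg.POmega F (Cfsg.quadFormPlus m F))) x = 2) ∧
    ((r = 2 ∧ p ≠ 2 ∧ ¬ (Odd m ∧ p ^ (f / 2) % 4 = 1)) → Cfsg.splitClassCount (Cfsg.inndiagPOmegaPlus m F) (Cfsg.Inn (Cfsg.POmega F (Cfsg.quadFormPlus m F))) x = 4) := by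
  classical
  haveI hcp : CharP F p := charP_of_card_eq_prime_pow hF
  have hQ := plusForm_nondeg (F := F) m
  have hcard := card_plus m
  have hn : 5 ≤ Fintype.card (Fin m ⊕ Fin m) := by omega
  haveI : Nonempty (Fin m ⊕ Fin m) := ⟨.inl ⟨0, by omega⟩⟩
  haveI : Nontrivial (Fin m ⊕ Fin m → F) := inferInstance
  haveI : Nontrivial (Fin m ⊕ Fin m → F₀) := inferInstance
  have hcoord := coordStable_plus (F := F) m
  obtain ⟨σ, A, hσ1, hconj⟩ := exists_data p hm hn x hx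
  obtain ⟨θ, a, HA⟩ := A.2
  set K := frameK HA with hK
  set b := θ.symm a with hb'
  have hb : b ≠ 0 := fun h => HA.ne (θ.symm.map_eq_zero_iff.1 h)
  have hform : ∀ y, b * plusForm m F (K y) = plusForm m F y := frameK_form hcoord HA
  set T := A⁻¹ * coordS σ (hcoord σ) * A with hTdef
  have hT : ∀ y, T.1 (K y) = K (fun j => σ (y j)) := frameK_conj hcoord HA σ
  -- the order
  have hord : orderOf σ = r := by
    rw [← hxr, ← hconj, ← orderOf_conjS_coord hQ hn p σ (hcoord σ), hTdef, map_mul, map_mul, map_inv]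
    have := (MulAut.conj (conjS hQ hn A)⁻¹).orderOf_eq (conjS hQ hn (coordS σ (hcoord σ)))
    rw [← this]
    congr 1
  have hdvd : r ∣ f := by
    rw [← hord, ← Cfsg.Agent.Lib.KS71.PSLAutGroup.card_ringEquiv hF hf]
    exact orderOf_dvd_natCard σ
  obtain ⟨ε, hε⟩ := Cfsg.Agent.Lib.KS71.PSLCent.exists_embed hF hf σ (F₀ := F₀) (by rw [hord]; exact hF₀)
  haveI hcp₀ : CharP F₀ p := charP_of_card_eq_prime_pow hF₀
  have hcK : ∀ y : Fin m ⊕ Fin m → F₀, b * plusForm m F (K (mapV ε y)) = ε (plusForm m F₀ y) := by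
    intro y
    rw [hform, mapV_plus]
  subst hconj
  refine ⟨hdvd, ?_, ?_, ?_, ?_⟩
  · rw [inndiag_plus_eq, inndiag_plus_eq]
    exact field_cent ε K b hcK hb σ hε T hT hn p
  · intro h
    rw [inndiag_plus_eq]
    refine field_one ε K b hcK hb σ hε T hT hn p ?_
    intro h2 a₀ ha₀ hns
    rcases h with h | h
    · refine not_isSquare_of_odd ε σ hε h ?_ h2 ha₀ hns
      rw [← hord]
      exact pow_orderOf_eq_one σ
    · exfalso
      subst h
      exact h2 (by exact_mod_cast CharP.cast_eq_zero F 2)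
  · rintro ⟨rfl, hp2, hodd, h4⟩
    rw [inndiag_plus_eq]
    have h2 : (2 : F) ≠ 0 := fun h => hp2 (two_of_two_eq_zero p h)
    have hquad : Fintype.card F = Fintype.card F₀ ^ 2 := by
      rw [hF, hF₀, ← pow_mul, Nat.div_mul_cancel hdvd]
    exact (field_count ε K b hcK hb σ hε T hT hn p hform hquad h2 (by omega) (by omega)).1 ⟨hodd, by rw [hF₀]; exact h4⟩
  · rintro ⟨rfl, hp2, h4⟩
    rw [inndiag_plus_eq]
    have h2 : (2 : F) ≠ 0 := fun h => hp2 (two_of_two_eq_zero p h)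
    have hquad : Fintype.card F = Fintype.card F₀ ^ 2 := by
      rw [hF, hF₀, ← pow_mul, Nat.div_mul_cancel hdvd]
    exact (field_count ε K b hcK hb σ hε T hT hn p hform hquad h2 (by omega) (by omega)).2 (by rw [hF₀]; exact h4)

end main

end Cfsg.Agent.Lib.Classical.OmegaFieldPlus
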