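/-
The automorphism group is the image of the semisimilarity group (S2694, S2695, S2696).
-/
import Mathlib
import Cfsg.Agent.Lib.Classical.OmegaGF

set_option autoImplicit false
set_option linter.unusedSimpArgs false
set_option linter.unusedSectionVars false
set_option linter.style.haveILetI false
set_option linter.unusedVariables false
set_option linter.unnecessarySimpa false

namespace Cfsg.Agent.Lib.Classical.OmegaGamma







open Module MulAction QuadraticMap Matrix Cfsg.Agent.Lib.Witt.Quadratic Cfsg.Agent.Lib.Orth.Refl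
open Cfsg.Agent.Lib.Orth.Gen Cfsg.Agent.Lib.OrthRefl.Eichler Cfsg.Agent.Lib.Classical.QuadEichler
open Cfsg.Agent.Lib.Classical.QuadEichSimple Cfsg.Agent.Lib.Classical.OmegaHP Cfsg.Agent.Lib.Classical.OmegaLocal
open Cfsg.Agent.Lib.Classical.OmegaRoot Cfsg.Agent.Lib.Classical.OmegaSemi Cfsg.Agent.Lib.Classical.OmegaConj
open Cfsg.Agent.Lib.Classical.OmegaBar Cfsg.Agent.Lib.Classical.OmegaAut Cfsg.Agent.Lib.Classical.OmegaCount
open Cfsg.Agent.Lib.Orth.Forms Cfsg.Agent.Lib.Classical.BinaryForms Cfsg.Agent.Lib.Classical.QuadEichBridge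
open Cfsg.Agent.Lib.Classical.OmegaForms Cfsg.Agent.Lib.Classical.OmegaOut Cfsg.Agent.Lib.Orth.Bridge
open Cfsg.Agent.Lib.Classical.MatrixBridge Cfsg.Agent.Lib.Classical.SympSimple
open Cfsg.Agent.Lib.Classical.OmegaPGO Cfsg.Agent.Lib.Classical.OmegaPGO2 Cfsg.Agent.Lib.Classical.OmegaFrob
open Cfsg.Agent.Lib.Classical.OmegaOutOdd Cfsg.Agent.Lib.KS71.Speiser Cfsg.Agent.Lib.Classical.OmegaDesc
open Cfsg.Agent.Lib.Classical.OmegaFieldOdd Cfsg.Agent.Lib.Classical.OmegaCent Cfsg.Agent.Lib.KS71.ClassSplit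
open Cfsg.Agent.Lib.Classical.OmegaFieldCount Cfsg.Agent.Lib.QuadFn.MaxSingular Cfsg.Agent.Lib.Orth.Parity
open Cfsg.Agent.Lib.Classical.OmegaClass Cfsg.Agent.Lib.Orth.HypBasis Cfsg.Agent.Lib.QuadFn.PlusForm
open Cfsg.Agent.Lib.Classical.OmegaType Cfsg.Agent.Lib.Classical.OmegaPlusConj Cfsg.Agent.Lib.Classical.OmegaCentF
open Cfsg.Agent.Lib.Classical.OmegaCross Cfsg.Agent.Lib.Classical.OmegaMinusP
open Cfsg.Agent.Lib.Classical.OmegaMinusConj
open Cfsg.Agent.Lib.Classical.OmegaLift Cfsg.Agent.Lib.Orth.Levi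
open Cfsg.Agent.Lib.Classical.OmegaQuadCount
open Cfsg.Agent.Lib.Classical.OmegaLeviCount
open Cfsg.Agent.Lib.Classical.OmegaModel
open scoped commutatorElement

universe u v

section general

variable {F : Type u} [Field F] [Fintype F] {ι : Type} [Fintype ι] [DecidableEq ι] {Q : QuadraticForm F (ι → F)} [Nontrivial (ι → F)]
variable (hQ : (polarBilin Q).Nondegenerate) (hn : 5 ≤ Fintype.card ι)

/-- The linear part of a semisimilarity. -/
noncomputable def linPart {σ : F ≃+* F} {l : F} {T : SemiEl Q} (H : Semi Q T.1 σ l) : (ι → F) ≃ₗ[F] (ι → F) :=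
  ((coordEquiv (ι := ι) σ.symm).trans T.1).toLinearEquiv (fun c x => by
    show T.1 (fun i => σ.symm (c * x i)) = c • T.1 (fun i => σ.symm (x i))
    have e : (fun i => σ.symm (c * x i)) = σ.symm c • (fun i => σ.symm (x i)) := by
      ext i
      simp
    rw [e, H.smul]
    simp)

theorem linPart_coord {σ : F ≃+* F} {l : F} {T : SemiEl Q} (H : Semi Q T.1 σ l) (x : ι → F) :
    linPart H (fun i => σ (x i)) = T.1 x := by
  show T.1 (fun i => σ.symm (σ (x i))) = T.1 x
  simp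

/-- Every semisimilarity induces an automorphism in the image of the semisimilarity group. -/
theorem conjS_mem_gamma (T : SemiEl Q) : conjS hQ hn T ∈ Cfsg.gammaPOmega F ⇑Q := by
  obtain ⟨σ, l, H⟩ := T.2
  refine Subgroup.subset_closure ⟨glToLin.symm (linPart H), σ, ⟨Units.mk0 l H.ne, fun v => ?_⟩, fun s s' hs => ?_⟩
  · rw [glToLin_symm_mulVec, linPart_coord, H.Q_eq]
    rfl
  · apply conjS_mk hQ hn
    intro x
    rw [hs]
    have e1 : (glToLin.symm (linPart H) : GL ι F).val *ᵥ (fun i => σ (x i)) = T.1 x := by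
      rw [glToLin_symm_mulVec, linPart_coord]
    have e2 : (((glToLin.symm (linPart H))⁻¹ : GL ι F) : Matrix ι ι F) *ᵥ T.1 x = fun i => σ (x i) := by
      rw [← e1, Matrix.mulVec_mulVec, ← Units.val_mul, inv_mul_cancel]
      simp
    rw [← Matrix.mulVec_mulVec, ← Matrix.mulVec_mulVec, e2, map_mulVec_coord]
    have e3 := linPart_coord H (((s.1 : GL ι F) : Matrix ι ι F) *ᵥ x)
    rw [← glToLin_symm_mulVec (linPart H)] at e3
    exact e3

include hQ hn in
/-- The image of the semisimilarity group is the whole automorphism group. -/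
theorem gamma_eq_top (p : ℕ) [hp : Fact p.Prime] [hc : CharP F p] (hn7 : 7 ≤ Fintype.card ι) (h8 : NoSolid Q) :
    Cfsg.gammaPOmega F ⇑Q = ⊤ := by
  rw [eq_top_iff]
  intro β _
  obtain ⟨T, rfl⟩ := conjS_surjective hQ hn p hn7 h8 β
  exact conjS_mem_gamma hQ hn T

end general

section main

variable {F : Type u} [Field F] [Fintype F]

/-- **S2694**. -/
theorem main_odd (hodd : Odd (Fintype.card F)) {m : ℕ} (hm : 3 ≤ m) : Cfsg.gammaPOmega F (Cfsg.quadFormOdd m F) = ⊤ := by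
  obtain ⟨p, hp, hc⟩ := OmegaPGO3.exists_char (F := F)
  have h2 : (2 : F) ≠ 0 := OmegaPGO3.two_ne hodd
  have hc1 := card_odd m
  have hn7 : 7 ≤ Fintype.card (Unit ⊕ (Fin m ⊕ Fin m)) := by omega
  haveI : Nontrivial (Unit ⊕ (Fin m ⊕ Fin m) → F) := by
    haveI : Nonempty (Unit ⊕ (Fin m ⊕ Fin m)) := ⟨Sum.inl ()⟩
    infer_instance
  exact gamma_eq_top (Q := oddForm m F) (oddForm_nondeg m h2) (by omega) p hn7 (noSolid_odd m)

/-- **S2695**. -/
theorem main_plus' {m : ℕ} (hm : 5 ≤ m) : Cfsg.gammaPOmega F (Cfsg.quadFormPlus m F) = ⊤ := by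
  obtain ⟨p, hp, hc⟩ := OmegaPGO3.exists_char (F := F)
  have hc1 := card_plus m
  have hfr : 7 ≤ finrank F (Fin m ⊕ Fin m → F) := by rw [finrank_total]; omega
  haveI : Nontrivial (Fin m ⊕ Fin m → F) := Module.nontrivial_of_finrank_pos (R := F) (by omega)
  exact gamma_eq_top (Q := plusForm m F) (plusForm_nondeg m) (by omega) p (by omega) (noSolid_plus hm)

/-- **S2696**. -/
theorem main_minus' {m : ℕ} (hm : 3 ≤ m) (a b : F) (hab : ∀ z₁ z₂ : F, z₁ ^ 2 + a * z₁ * z₂ + b * z₂ ^ 2 = 0 → z₁ = 0 ∧ z₂ = 0) :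
    Cfsg.gammaPOmega F (Cfsg.quadFormMinus m F a b) = ⊤ := by
  obtain ⟨p, hp, hc⟩ := OmegaPGO3.exists_char (F := F)
  have hc1 := card_minus' (k := m)
  have hc2 : Fintype.card ((Fin m ⊕ Fin m) ⊕ Fin 2) = 2 * (m + 1) := card_minus' m
  exact gamma_eq_top (Q := minusForm m F a b) (minusForm_nondeg m hab) (by omega) p (by omega) (noSolid_minus hab)

end main

end Cfsg.Agent.Lib.Classical.OmegaGamma
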