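/-
Linear algebra of involutory similarities: determinants through non-degenerate planes and eigenspaces.
-/
import Mathlib

set_option autoImplicit false
set_option linter.unusedSimpArgs false
set_option linter.unusedSectionVars false
set_option linter.style.haveILetI false
set_option linter.unusedVariables false

namespace Cfsg.Agent.Lib.Classical.OmegaInvLin

open Module QuadraticMap

universe u

section plane

variable {F : Type u} [Field F]

theorem polar_self_mul {V : Type*} [AddCommGroup V] [Module F V] (Q : QuadraticForm F V) (x : V) : polar Q x x = 2 * Q x := by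
  rw [QuadraticMap.polar_self, two_smul, two_mul]

/-- A non-singular vector exists in a non-zero non-degenerate quadratic space in odd characteristic. -/
theorem exists_nonsing {V : Type u} [AddCommGroup V] [Module F V] [Nontrivial V] (h2 : (2 : F) ≠ 0) (Q : QuadraticForm F V)
    (hQ : (polarBilin Q).Nondegenerate) : ∃ v, Q v ≠ 0 := by
  by_contra hall
  push Not at hall
  obtain ⟨x, hx⟩ := exists_ne (0 : V)
  apply hx
  apply hQ.1 x
  intro y
  show polar Q x y = 0
  rw [polar, hall, hall, hall]
  simp

/-- The determinant of a linear map with `g² = c` which leaves non-degenerate every plane spanned by a non-singular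
vector and its image. -/
theorem det_of_plane (h2 : (2 : F) ≠ 0) :
    ∀ (n : ℕ) (V : Type u) [AddCommGroup V] [Module F V] [FiniteDimensional F V] (Q : QuadraticForm F V)
      (hQ : (polarBilin Q).Nondegenerate) (g : V →ₗ[F] V) (μ c : F) (hμ : μ ≠ 0) (hc : c ≠ 0)
      (hsim : ∀ v, Q (g v) = μ * Q v) (hsq : ∀ v, g (g v) = c • v)
      (hH : ∀ v, Q v ≠ 0 → polar Q v (g v) ^ 2 ≠ 4 * μ * Q v ^ 2), finrank F V = n →
      ∃ M, n = 2 * M ∧ LinearMap.det g = (-c) ^ M := by
  intro n
  induction n using Nat.strong_induction_on with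
  | _ n ih =>
    intro V _ _ _ Q hQ g μ c hμ hc hsim hsq hH hn
    rcases Nat.eq_zero_or_pos n with rfl | hpos
    · refine ⟨0, rfl, ?_⟩
      rw [pow_zero]
      exact LinearMap.det_eq_one_of_finrank_eq_zero hn g
    haveI : Nontrivial V := Module.nontrivial_of_finrank_pos (R := F) (by omega)
    obtain ⟨v, hv⟩ := exists_nonsing h2 Q hQ
    set w := g v with hw
    have hgw : g w = c • v := hsq v
    have hQw : Q w = μ * Q v := hsim v
    have hpol : ∀ x y, polar Q (g x) (g y) = μ * polar Q x y := by
      intro x y
      rw [polar, polar, ← map_add, hsim, hsim, hsim]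
      ring
    have hGram := hH v hv
    have hvv : polar Q v v = 2 * Q v := polar_self_mul Q v
    have hww : polar Q w w = 2 * (μ * Q v) := by
      rw [polar_self_mul, hQw]
    have hvw' : polar Q w v = polar Q v w := polar_comm _ _ _
    -- independence and the complement
    have hsolve : ∀ α β : F, α * polar Q v v + β * polar Q w v = 0 → α * polar Q v w + β * polar Q w w = 0 → α = 0 ∧ β = 0 := by
      intro α β h1 h3
      rw [hvv, hvw'] at h1
      rw [hww] at h3
      have h4 : (polar Q v w ^ 2 - 4 * μ * Q v ^ 2) * α = 0 := by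
        linear_combination (polar Q v w) * h3 - (2 * (μ * Q v)) * h1
      have h5 : (polar Q v w ^ 2 - 4 * μ * Q v ^ 2) * β = 0 := by
        linear_combination (polar Q v w) * h1 - (2 * Q v) * h3
      have h6 : polar Q v w ^ 2 - 4 * μ * Q v ^ 2 ≠ 0 := sub_ne_zero.2 hGram
      exact ⟨(mul_eq_zero.1 h4).resolve_left h6, (mul_eq_zero.1 h5).resolve_left h6⟩
    have hli : LinearIndependent F ![v, w] := by
      rw [LinearIndependent.pair_iff]
      intro α β hab
      apply hsolve α β
      · have := congrArg (fun z => polar Q z v) hab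
        simp only [polar_add_left, polar_smul_left, smul_eq_mul, polar_zero_left] at this
        exact this
      · have := congrArg (fun z => polar Q z w) hab
        simp only [polar_add_left, polar_smul_left, smul_eq_mul, polar_zero_left] at this
        exact this
    set P : Submodule F V := Submodule.span F (Set.range ![v, w]) with hP
    have hmemP : ∀ x, x ∈ P ↔ ∃ α β : F, α • v + β • w = x := by
      intro x
      rw [hP, Matrix.range_cons, Matrix.range_cons, Matrix.range_empty, Set.union_empty, ← Set.insert_eq]
      exact Submodule.mem_span_pair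
    set B : LinearMap.BilinForm F V := polarBilin Q with hB
    have hrefl : B.IsRefl := by
      intro x y h
      show polar Q y x = 0
      rw [polar_comm]
      exact h
    set W : Submodule F V := B.orthogonal P with hWdef
    have hmemW : ∀ x, x ∈ W ↔ polar Q v x = 0 ∧ polar Q w x = 0 := by
      intro x
      constructor
      · intro h
        exact ⟨h v (Submodule.subset_span ⟨0, rfl⟩), h w (Submodule.subset_span ⟨1, rfl⟩)⟩
      · rintro ⟨h1, h3⟩ y hy
        obtain ⟨α, β, rfl⟩ := (hmemP y).1 hy
        show polar Q (α • v + β • w) x = 0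
        rw [polar_add_left, polar_smul_left, polar_smul_left, h1, h3]
        simp
    have hdisj : Disjoint P W := by
      rw [Submodule.disjoint_def]
      intro x hx hx'
      obtain ⟨α, β, rfl⟩ := (hmemP x).1 hx
      obtain ⟨h1, h3⟩ := (hmemW _).1 hx'
      obtain ⟨rfl, rfl⟩ := hsolve α β (by
        rw [polar_comm] at h1
        rw [polar_add_left, polar_smul_left, polar_smul_left] at h1
        exact h1) (by
        rw [polar_comm] at h3
        rw [polar_add_left, polar_smul_left, polar_smul_left] at h3
        exact h3)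
      simp
    have hcompl : IsCompl P W := (LinearMap.BilinForm.isCompl_orthogonal_iff_disjoint hrefl).2 hdisj
    -- stability
    have hgP : ∀ x ∈ P, g x ∈ P := by
      intro x hx
      obtain ⟨α, β, rfl⟩ := (hmemP x).1 hx
      refine (hmemP _).2 ⟨β * c, α, ?_⟩
      rw [map_add, map_smul, map_smul, hgw, smul_smul, add_comm]
    have hgW : ∀ x ∈ W, g x ∈ W := by
      intro x hx
      obtain ⟨h1, h3⟩ := (hmemW x).1 hx
      refine (hmemW _).2 ⟨?_, ?_⟩
      · have e : v = c⁻¹ • g w := by
          rw [hgw, smul_smul, inv_mul_cancel₀ hc, one_smul]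
        rw [e, polar_smul_left, hpol, h3]
        simp
      · rw [hw, hpol, h1]
        simp
    -- the form on the complement
    let Q' : QuadraticForm F W := Q.comp W.subtype
    have hpol' : ∀ x y : W, polar Q' x y = polar Q x y := fun x y => rfl
    have hQ' : (polarBilin Q').Nondegenerate := by
      have key : ∀ x : W, (∀ y : W, polar Q' x y = 0) → x = 0 := by
        intro x hx
        apply Subtype.ext
        apply hQ.1 x.1
        intro z
        have hz : z ∈ P ⊔ W := by
          rw [hcompl.sup_eq_top]
          trivial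
        obtain ⟨p, hp, y, hy, rfl⟩ := Submodule.mem_sup.1 hz
        show polar Q x.1 (p + y) = 0
        rw [polar_add_right]
        have h1 : polar Q p x.1 = 0 := x.2 p hp
        have h3 := hx ⟨y, hy⟩
        rw [hpol'] at h3
        rw [polar_comm, h1, h3]
        simp
      constructor
      · intro x hx
        exact key x hx
      · intro x hx
        apply key x
        intro y
        rw [polar_comm]
        exact hx y
    let gP : P →ₗ[F] P := g.restrict hgP
    let gW : W →ₗ[F] W := g.restrict hgW
    have hrank : finrank F P = 2 := by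
      rw [hP, finrank_span_eq_card hli]
      simp
    have hrank2 : finrank F P + finrank F W = n := by
      rw [Submodule.finrank_add_eq_of_isCompl hcompl, hn]
    obtain ⟨M, hM, hdetW⟩ := ih (finrank F W) (by omega) W Q' hQ' gW μ c hμ hc (fun x => hsim x.1)
      (fun x => Subtype.ext (hsq x.1)) (fun x hx => hH x.1 hx) rfl
    refine ⟨M + 1, by omega, ?_⟩
    -- the determinant on the plane
    have hdetP : LinearMap.det gP = -c := by
      have hli' : LinearIndependent F ![v, w] := hli
      let b : Basis (Fin 2) F P := Basis.span hli'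
      have hb0 : (b 0 : V) = v := congrArg Subtype.val (Basis.span_apply hli' 0)
      have hb1 : (b 1 : V) = w := congrArg Subtype.val (Basis.span_apply hli' 1)
      have h0 : gP (b 0) = b 1 := by
        apply Subtype.ext
        show g (b 0 : V) = _
        rw [hb0, hb1]
      have h1 : gP (b 1) = c • b 0 := by
        apply Subtype.ext
        show g (b 1 : V) = c • (b 0 : V)
        rw [hb0, hb1, hgw]
      rw [← LinearMap.det_toMatrix b, Matrix.det_fin_two, LinearMap.toMatrix_apply, LinearMap.toMatrix_apply,
        LinearMap.toMatrix_apply, LinearMap.toMatrix_apply, h0, h1]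
      simp
    -- the product
    let e : (P × W) ≃ₗ[F] V := Submodule.prodEquivOfIsCompl P W hcompl
    have hg : g = (e : (P × W) →ₗ[F] V) ∘ₗ (LinearMap.prodMap gP gW) ∘ₗ (e.symm : V →ₗ[F] (P × W)) := by
      ext x
      obtain ⟨y, rfl⟩ := e.surjective x
      simp only [LinearMap.comp_apply, LinearEquiv.coe_coe, LinearEquiv.symm_apply_apply]
      obtain ⟨p, y⟩ := y
      show g (p.1 + y.1) = (gP p).1 + (gW y).1
      rw [map_add]
      rfl
    rw [hg, LinearMap.det_conj, LinearMap.det_prodMap, hdetP, hdetW, pow_succ]
    ring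

end plane

section eigen

variable {F : Type u} [Field F] {V : Type*} [AddCommGroup V] [Module F V]

/-- The eigenspaces. -/
def Eig (g : V →ₗ[F] V) (s : F) : Submodule F V := LinearMap.ker (g - s • LinearMap.id)

theorem mem_Eig {g : V →ₗ[F] V} {s : F} {x : V} : x ∈ Eig g s ↔ g x = s • x := by
  rw [Eig, LinearMap.mem_ker, LinearMap.sub_apply, LinearMap.smul_apply, LinearMap.id_apply, sub_eq_zero]

variable (Q : QuadraticForm F V) (g : V →ₗ[F] V) {t : F} (h2 : (2 : F) ≠ 0) (ht : t ≠ 0)
  (hsim : ∀ v, Q (g v) = t * t * Q v) (hsq : ∀ v, g (g v) = (t * t) • v)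

include h2 ht hsq in
theorem isCompl_Eig : IsCompl (Eig g t) (Eig g (-t)) := by
  have h2t : (2 * t) ≠ 0 := mul_ne_zero h2 ht
  constructor
  · rw [Submodule.disjoint_def]
    intro x h1 h3
    rw [mem_Eig] at h1 h3
    have h4 : (2 * t) • x = 0 := by
      have : t • x = (-t) • x := h1.symm.trans h3
      rw [two_mul, add_smul]
      nth_rw 1 [this]
      rw [neg_smul]
      simp
    exact (smul_eq_zero.1 h4).resolve_left h2t
  · rw [codisjoint_iff, eq_top_iff]
    intro x _
    have e : x = ((2 * t)⁻¹ • (t • x + g x)) + ((2 * t)⁻¹ • (t • x - g x)) := by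
      rw [← smul_add, add_add_sub_cancel, ← two_smul F (t • x), smul_smul, smul_smul]
      have : (2 * t)⁻¹ * (2 * t) = 1 := inv_mul_cancel₀ h2t
      rw [mul_assoc, this, one_smul]
    rw [e]
    refine Submodule.add_mem_sup ?_ ?_
    · rw [mem_Eig, map_smul, map_add, map_smul, hsq]
      module
    · rw [mem_Eig, map_smul, map_sub, map_smul, hsq]
      module

include hsim h2 ht in
theorem orth_Eig {x y : V} (hx : x ∈ Eig g t) (hy : y ∈ Eig g (-t)) : polar Q x y = 0 := by
  rw [mem_Eig] at hx hy
  have hpol : polar Q (g x) (g y) = t * t * polar Q x y := by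
    rw [polar, polar, ← map_add, hsim, hsim, hsim]
    ring
  rw [hx, hy, polar_smul_left, polar_smul_right] at hpol
  have h3 : (2 * (t * t)) * polar Q x y = 0 := by
    simp only [smul_eq_mul] at hpol
    linear_combination -hpol
  exact (mul_eq_zero.1 h3).resolve_left (mul_ne_zero h2 (mul_ne_zero ht ht))

include h2 ht hsim hsq in
theorem nondeg_Eig (hQ : (polarBilin Q).Nondegenerate) : (polarBilin (Q.comp (Eig g t).subtype)).Nondegenerate := by
  have hcompl := isCompl_Eig g h2 ht hsq
  have key : ∀ x : Eig g t, (∀ y : Eig g t, polar Q x.1 y.1 = 0) → x = 0 := by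
    intro x hx
    apply Subtype.ext
    apply hQ.1 x.1
    intro z
    have hz : z ∈ Eig g t ⊔ Eig g (-t) := by
      rw [hcompl.sup_eq_top]
      trivial
    obtain ⟨p, hp, y, hy, rfl⟩ := Submodule.mem_sup.1 hz
    show polar Q x.1 (p + y) = 0
    rw [polar_add_right, hx ⟨p, hp⟩, orth_Eig Q g h2 ht hsim x.2 hy]
    simp
  constructor
  · intro x hx
    exact key x hx
  · intro x hx
    apply key x
    intro y
    rw [polar_comm]
    exact hx y

include h2 ht hsq in
/-- The determinant of a map with two eigenvalues. -/
theorem det_Eig [FiniteDimensional F V] : LinearMap.det g = t ^ finrank F (Eig g t) * (-t) ^ finrank F (Eig g (-t)) := by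
  have hcompl := isCompl_Eig g h2 ht hsq
  have hA : ∀ x ∈ Eig g t, g x ∈ Eig g t := by
    intro x hx
    rw [mem_Eig] at hx ⊢
    rw [hx, map_smul, hx]
  have hB : ∀ x ∈ Eig g (-t), g x ∈ Eig g (-t) := by
    intro x hx
    rw [mem_Eig] at hx ⊢
    rw [hx, map_smul, hx]
  let gA : Eig g t →ₗ[F] Eig g t := g.restrict hA
  let gB : Eig g (-t) →ₗ[F] Eig g (-t) := g.restrict hB
  have eA : gA = t • LinearMap.id := by
    ext x
    exact mem_Eig.1 x.2
  have eB : gB = (-t) • LinearMap.id := by
    ext x
    exact mem_Eig.1 x.2
  let e : (Eig g t × Eig g (-t)) ≃ₗ[F] V := Submodule.prodEquivOfIsCompl _ _ hcompl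
  have hg : g = (e : (Eig g t × Eig g (-t)) →ₗ[F] V) ∘ₗ (LinearMap.prodMap gA gB) ∘ₗ (e.symm : V →ₗ[F] (Eig g t × Eig g (-t))) := by
    ext x
    obtain ⟨y, rfl⟩ := e.surjective x
    simp only [LinearMap.comp_apply, LinearEquiv.coe_coe, LinearEquiv.symm_apply_apply]
    obtain ⟨p, y⟩ := y
    show g (p.1 + y.1) = (gA p).1 + (gB y).1
    rw [map_add]
    rfl
  conv_lhs => rw [hg]
  rw [LinearMap.det_conj, LinearMap.det_prodMap, eA, eB, LinearMap.det_smul, LinearMap.det_smul, LinearMap.det_id, LinearMap.det_id, mul_one, mul_one]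

end eigen

section oddsim

variable {F : Type u} [Field F] {V : Type*} [AddCommGroup V] [Module F V] [FiniteDimensional F V]

/-- On a non-degenerate space of odd dimension every similarity has square multiplier. -/
theorem isSquare_of_odd_sim (Q : QuadraticForm F V) (hQ : (polarBilin Q).Nondegenerate) (h : V →ₗ[F] V) {ν : F} (hν : ν ≠ 0)
    (hsim : ∀ v, Q (h v) = ν * Q v) (hodd : Odd (finrank F V)) : IsSquare ν := by
  classical
  let b := finBasis F V
  set G := LinearMap.BilinForm.toMatrix b (polarBilin Q) with hG
  have hdet : G.det ≠ 0 := (LinearMap.BilinForm.nondegenerate_iff_det_ne_zero b).1 hQ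
  have hcomp : LinearMap.BilinForm.comp (polarBilin Q) h h = ν • polarBilin Q := by
    ext x y
    show polar Q (h x) (h y) = ν * polar Q x y
    rw [polar, polar, ← map_add, hsim, hsim, hsim]
    ring
  have h3 := LinearMap.BilinForm.toMatrix_comp b b (polarBilin Q) h h
  rw [hcomp, map_smul] at h3
  have h4 := congrArg Matrix.det h3
  rw [Matrix.det_smul, Matrix.det_mul, Matrix.det_mul, Matrix.det_transpose, ← hG] at h4
  set d := (LinearMap.toMatrix b b h).det with hd
  have h5 : ν ^ Fintype.card (Fin (finrank F V)) = d * d := by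
    have : (ν ^ Fintype.card (Fin (finrank F V)) - d * d) * G.det = 0 := by
      linear_combination h4
    exact sub_eq_zero.1 ((mul_eq_zero.1 this).resolve_right hdet)
  rw [Fintype.card_fin] at h5
  obtain ⟨j, hj⟩ := hodd
  rw [hj, pow_succ, pow_mul] at h5
  refine ⟨d / ν ^ j, ?_⟩
  have hνj : ν ^ j ≠ 0 := pow_ne_zero _ hν
  field_simp
  linear_combination h5

end oddsim

end Cfsg.Agent.Lib.Classical.OmegaInvLin
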