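/-
The outer automorphism group of `PΩ⁺_{2m}(q)`, `q` odd.
-/
import Mathlib
import Cfsg.Agent.Lib.Classical.OmegaTriS4

set_option autoImplicit false
set_option linter.unusedSimpArgs false
set_option linter.unusedSectionVars false
set_option linter.style.haveILetI false
set_option linter.unusedVariables false

namespace Cfsg.Agent.Lib.Classical.OmegaPlusOdd

open Module MulAction QuadraticMap Matrix Cfsg.Agent.Lib.Witt.Quadratic Cfsg.Agent.Lib.Orth.Refl
open Cfsg.Agent.Lib.Orth.Gen Cfsg.Agent.Lib.OrthRefl.Eichler Cfsg.Agent.Lib.Classical.QuadEichler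
open Cfsg.Agent.Lib.Classical.QuadEichSimple Cfsg.Agent.Lib.Classical.OmegaHP Cfsg.Agent.Lib.Classical.OmegaLocal
open Cfsg.Agent.Lib.Classical.OmegaRoot Cfsg.Agent.Lib.Classical.OmegaSemi Cfsg.Agent.Lib.Classical.OmegaConj
open Cfsg.Agent.Lib.Classical.OmegaBar Cfsg.Agent.Lib.Classical.OmegaAut Cfsg.Agent.Lib.Classical.OmegaCount
open Cfsg.Agent.Lib.Orth.Forms Cfsg.Agent.Lib.Classical.BinaryForms Cfsg.Agent.Lib.Classical.QuadEichBridge
open Cfsg.Agent.Lib.Classical.OmegaForms Cfsg.Agent.Lib.Classical.OmegaOut Cfsg.Agent.Lib.Orth.Bridge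
open Cfsg.Agent.Lib.Classical.MatrixBridge Cfsg.Agent.Lib.Classical.SympSimple
open Cfsg.Agent.Lib.Classical.OmegaPGO Cfsg.Agent.Lib.Classical.OmegaPGO2 Cfsg.Agent.Lib.Classical.OmegaFrob
open Cfsg.Agent.Lib.Classical.OmegaOutOdd Cfsg.Agent.Lib.Classical.OmegaPlusConj
open scoped commutatorElement

universe u

section abstract

open DihedralGroup

/-- An automorphism of the dihedral group fixing a reflection, and moving the rotation by the center or not. -/
theorem d8_aut_cases (β : MulAut (DihedralGroup 4)) (j : ZMod 4) (hβ : β (sr j) = sr j)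
    (h : β (r 1) = r 1 ∨ β (r 1) = r 3) :
    (∀ y, β y = y) ∨ (∀ y, β y = sr j * y * (sr j)⁻¹) := by
  have hk : ∀ u : ZMod 4, β (r 1) = r u → ∀ k : ZMod 4, β (r k) = r (u * k) := by
    intro u hu k
    have e2 : (r k : DihedralGroup 4) = (r 1) ^ k.val := by
      revert k
      decide
    rw [e2, map_pow, hu]
    have key : ∀ u k : ZMod 4, (r u : DihedralGroup 4) ^ k.val = r (u * k) := by decide
    exact key u k
  have hl : ∀ u : ZMod 4, β (r 1) = r u → ∀ k : ZMod 4, β (sr k) = sr (j + u * (k - j)) := by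
    intro u hu k
    have e2 : (sr k : DihedralGroup 4) = sr j * r (k - j) := by
      have key : ∀ j k : ZMod 4, (sr k : DihedralGroup 4) = sr j * r (k - j) := by decide
      exact key j k
    rw [e2, map_mul, hβ, hk u hu]
    rfl
  rcases h with h | h
  · left
    intro y
    rcases y with k | k
    · rw [hk 1 h, one_mul]
    · rw [hl 1 h]
      have key : ∀ j k : ZMod 4, (sr (j + 1 * (k - j)) : DihedralGroup 4) = sr k := by decide
      exact key j k
  · right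
    intro y
    rcases y with k | k
    · rw [hk 3 h]
      have key : ∀ j k : ZMod 4, (r (3 * k) : DihedralGroup 4) = sr j * r k * (sr j)⁻¹ := by decide
      exact key j k
    · rw [hl 3 h]
      have key : ∀ j k : ZMod 4, (sr (j + 3 * (k - j)) : DihedralGroup 4) = sr j * sr k * (sr j)⁻¹ := by decide
      exact key j k

theorem d8_central : ∀ x : DihedralGroup 4, (∀ y, x * y = y * x) → x = r 0 ∨ x = r 2 := by decide

theorem d8_noncentral : ∀ x : DihedralGroup 4, x * x = 1 → (¬ ∀ y, x * y = y * x) → ∃ j, x = sr j := by decide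

theorem d8_rot : ∀ y : DihedralGroup 4, y * (r 1)⁻¹ = r 0 ∨ y * (r 1)⁻¹ = r 2 → y = r 1 ∨ y = r 3 := by decide

/-- A group which is an extension of a dihedral group of order eight by a cyclic group, with a section acting by central
automorphisms, and a noncentral involution commuting with the section. -/
theorem prod_of_d8' {X C : Type*} [Group X] [Group C] (π : X →* C) (s₀ : C →* X) (hs : ∀ c, π (s₀ c) = c) [hc : IsCyclic C]
    {f : ℕ} (hf : Nat.card C = f) (e₁ : π.ker ≃* DihedralGroup 4) (r' z : X) (hr1 : π r' = 1) (hr2 : r' * r' = 1)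
    (hr3 : ∀ c, r' * s₀ c = s₀ c * r') (hr4 : r' ≠ 1) (hz1 : π z = 1) (hz2 : z ≠ 1) (hzc : ∀ l ∈ π.ker, z * l = l * z) (hzr : z ≠ r')
    (hcent : ∀ c, ∀ k ∈ π.ker, ∀ l ∈ π.ker, (s₀ c * k * (s₀ c)⁻¹ * k⁻¹) * l = l * (s₀ c * k * (s₀ c)⁻¹ * k⁻¹)) :
    Nonempty (X ≃* DihedralGroup 4 × Multiplicative (ZMod f)) := by
  classical
  have hcentral : ∀ w : π.ker, (∀ l : π.ker, w * l = l * w) → e₁ w = r 0 ∨ e₁ w = r 2 := by
    intro w hw
    apply d8_central
    intro y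
    obtain ⟨l, rfl⟩ := e₁.surjective y
    rw [← map_mul, ← map_mul, hw]
  let rK : π.ker := ⟨r', hr1⟩
  let zK : π.ker := ⟨z, hz1⟩
  have hone : (r 0 : DihedralGroup 4) = 1 := rfl
  have hne : ∀ w : π.ker, (w : X) ≠ 1 → e₁ w ≠ r 0 := by
    intro w hw h
    rw [hone, e₁.map_eq_one_iff] at h
    rw [h] at hw
    exact hw rfl
  have hrnc : ¬ ∀ l : π.ker, rK * l = l * rK := by
    intro h
    have h1 := (hcentral rK h).resolve_left (hne rK hr4)
    have h2 := (hcentral zK (fun l => Subtype.ext (hzc l.1 l.2))).resolve_left (hne zK hz2)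
    apply hzr
    have h3 : zK = rK := e₁.injective (h2.trans h1.symm)
    exact congrArg Subtype.val h3
  have hrnc' : ¬ ∀ y, e₁ rK * y = y * e₁ rK := by
    intro h
    apply hrnc
    intro l
    apply e₁.injective
    rw [map_mul, map_mul, h]
  obtain ⟨j, hj⟩ := d8_noncentral (e₁ rK) (by
    rw [← map_mul]
    have : rK * rK = 1 := Subtype.ext hr2
    rw [this, map_one]) hrnc'
  -- the action of the section
  have hcases : ∀ c, (∀ k ∈ π.ker, s₀ c * k * (s₀ c)⁻¹ = k) ∨ (∀ k ∈ π.ker, s₀ c * k * (s₀ c)⁻¹ = r' * k * r'⁻¹) := by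
    intro c
    let α : MulAut π.ker := MulAut.conjNormal (s₀ c)
    have hα : ∀ k : π.ker, ((α k : π.ker) : X) = s₀ c * k * (s₀ c)⁻¹ := fun k => MulAut.conjNormal_apply _ _
    let β : MulAut (DihedralGroup 4) := MulAut.congr e₁ α
    have hβ : ∀ k : π.ker, β (e₁ k) = e₁ (α k) := by
      intro k
      show e₁ (α (e₁.symm (e₁ k))) = _
      rw [e₁.symm_apply_apply]
    have hβj : β (sr j) = sr j := by
      rw [← hj, hβ]
      congr 1
      apply Subtype.ext
      rw [hα]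
      show s₀ c * r' * (s₀ c)⁻¹ = r'
      rw [← hr3, mul_inv_cancel_right]
    have hβ1 : β (r 1) = r 1 ∨ β (r 1) = r 3 := by
      apply d8_rot
      obtain ⟨k₁, hk₁⟩ := e₁.surjective (r 1)
      rw [← hk₁, hβ, ← map_inv, ← map_mul]
      apply hcentral
      intro l
      apply Subtype.ext
      show ((α k₁ : π.ker) : X) * (k₁ : X)⁻¹ * (l : X) = (l : X) * (((α k₁ : π.ker) : X) * (k₁ : X)⁻¹)
      rw [hα]
      exact hcent c k₁ k₁.2 l l.2
    rcases d8_aut_cases β j hβj hβ1 with h | h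
    · left
      intro k hk
      have h1 := h (e₁ ⟨k, hk⟩)
      rw [hβ] at h1
      have h2 := e₁.injective h1
      have h3 := hα ⟨k, hk⟩
      rw [h2] at h3
      exact h3.symm
    · right
      intro k hk
      have h1 := h (e₁ ⟨k, hk⟩)
      rw [hβ, ← hj, ← map_inv, ← map_mul, ← map_mul] at h1
      have h2 := e₁.injective h1
      have h3 := hα ⟨k, hk⟩
      rw [h2] at h3
      exact h3.symm
  -- the correction
  let g : C → X := fun c => if (∀ k ∈ π.ker, s₀ c * k * (s₀ c)⁻¹ = k) then 1 else r'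
  have hg2 : ∀ c, g c = 1 ∨ g c = r' := by
    intro c
    by_cases h : ∀ k ∈ π.ker, s₀ c * k * (s₀ c)⁻¹ = k
    · left
      exact if_pos h
    · right
      exact if_neg h
  have hg : ∀ c, ∀ k ∈ π.ker, s₀ c * k * (s₀ c)⁻¹ = g c * k * (g c)⁻¹ := by
    intro c k hk
    by_cases h : ∀ k ∈ π.ker, s₀ c * k * (s₀ c)⁻¹ = k
    · have e : g c = 1 := if_pos h
      rw [e, h k hk]
      simp
    · have e : g c = r' := if_neg h
      rw [e]
      exact (hcases c).resolve_left h k hk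
  have huniq : ∀ a b : X, (a = 1 ∨ a = r') → (b = 1 ∨ b = r') → (∀ k ∈ π.ker, a * k * a⁻¹ = b * k * b⁻¹) → a = b := by
    have hno : ¬ ∀ k ∈ π.ker, r' * k * r'⁻¹ = k := by
      intro h
      apply hrnc
      intro l
      apply Subtype.ext
      show r' * (l : X) = (l : X) * r'
      have := h l l.2
      exact mul_inv_eq_iff_eq_mul.1 this
    rintro a b (rfl | rfl) (rfl | rfl) h
    · rfl
    · exfalso
      apply hno
      intro k hk
      have := h k hk
      simp only [one_mul, inv_one, mul_one] at this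
      exact this.symm
    · exfalso
      apply hno
      intro k hk
      have := h k hk
      simp only [one_mul, inv_one, mul_one] at this
      exact this
    · rfl
  have hgcomm : ∀ c c', g c * g c' = g c' * g c := by
    intro c c'
    rcases hg2 c with h | h <;> rcases hg2 c' with h' | h' <;> simp [h, h']
  have hgs : ∀ c c', s₀ c * g c' = g c' * s₀ c := by
    intro c c'
    rcases hg2 c' with h' | h'
    · simp [h']
    · rw [h', hr3]
  have hgK : ∀ c, g c ∈ π.ker := by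
    intro c
    rcases hg2 c with h | h
    · rw [h]
      exact one_mem _
    · rw [h]
      exact hr1
  have hgsq : ∀ c, g c * g c = 1 := by
    intro c
    rcases hg2 c with h | h
    · simp [h]
    · rw [h, hr2]
  have hgm : ∀ c c', g (c * c') = g c * g c' := by
    intro c c'
    apply huniq _ _ (hg2 _)
    · rcases hg2 c with h | h <;> rcases hg2 c' with h' | h' <;> simp [h, h', hr2]
    · intro k hk
      rw [← hg _ k hk, map_mul]
      have h1 : s₀ c * s₀ c' * k * (s₀ c * s₀ c')⁻¹ = s₀ c * (s₀ c' * k * (s₀ c')⁻¹) * (s₀ c)⁻¹ := by group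
      rw [h1, hg c' k hk]
      have h2 : s₀ c * (g c' * k * (g c')⁻¹) * (s₀ c)⁻¹ = g c' * (s₀ c * k * (s₀ c)⁻¹) * (g c')⁻¹ := by
        rw [← mul_assoc, ← mul_assoc, hgs]
        have h3 : (s₀ c)⁻¹ * g c' = g c' * (s₀ c)⁻¹ := (Commute.inv_left (hgs c c')).eq
        have h4 : (g c')⁻¹ * (s₀ c)⁻¹ = (s₀ c)⁻¹ * (g c')⁻¹ := by
          rw [inv_mul_eq_iff_eq_mul, ← mul_assoc, ← h3, mul_assoc, mul_inv_cancel, mul_one]
        simp only [mul_assoc, h4]
      rw [h2, hg c k hk, hgcomm c c']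
      group
  let s : C →* X := MonoidHom.mk' (fun c => s₀ c * g c) (by
    intro c c'
    show s₀ (c * c') * g (c * c') = _
    rw [map_mul, hgm]
    calc s₀ c * s₀ c' * (g c * g c') = s₀ c * (s₀ c' * g c) * g c' := by group
      _ = s₀ c * (g c * s₀ c') * g c' := by rw [hgs]
      _ = _ := by group)
  have hπs : ∀ c, π (s c) = c := by
    intro c
    show π (s₀ c * g c) = c
    rw [map_mul, hs, (hgK c), mul_one]
  have hcomm : ∀ k ∈ π.ker, ∀ c, k * s c = s c * k := by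
    intro k hk c
    show k * (s₀ c * g c) = s₀ c * g c * k
    have hk' : g c * k * (g c)⁻¹ ∈ π.ker := by
      rw [MonoidHom.mem_ker, map_mul, map_mul, map_inv, (hgK c), hk]
      simp
    have h1 := hg c _ hk'
    have h2 : g c * (g c * k * (g c)⁻¹) * (g c)⁻¹ = k := by
      have e : (g c)⁻¹ = g c := inv_eq_of_mul_eq_one_left (hgsq c)
      rw [e]
      calc g c * (g c * k * g c) * g c = (g c * g c) * k * (g c * g c) := by group
        _ = k := by rw [hgsq]; simp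
    rw [h2] at h1
    have h3 : s₀ c * (g c * k * (g c)⁻¹) = k * s₀ c := mul_inv_eq_iff_eq_mul.1 h1
    calc k * (s₀ c * g c) = s₀ c * (g c * k * (g c)⁻¹) * g c := by rw [h3, mul_assoc]
      _ = s₀ c * g c * k := by group
  let e₃ := prodOfSection π s hπs hcomm
  have e₄ : Multiplicative (ZMod f) ≃* C := by
    have := zmodCyclicMulEquiv hc
    rw [hf] at this
    exact this
  exact ⟨e₃.trans (MulEquiv.prodCongr e₁ e₄.symm)⟩

/-- Modulo a subgroup of index two of a normal subgroup, the elements of the normal subgroup are central. -/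
theorem comm_of_index_two {A : Type*} [Group A] (I P R : Subgroup A) (hI : I.Normal) (hidx : I.relIndex P = 2)
    (hP : ∀ x ∈ P, ∀ y ∈ R, y * x * y⁻¹ ∈ P) {x y : A} (hx : x ∈ P) (hy : y ∈ R) : x * y * x⁻¹ * y⁻¹ ∈ I := by
  by_cases hxI : x ∈ I
  · have h1 : y * x⁻¹ * y⁻¹ ∈ I := hI.conj_mem _ (inv_mem hxI) y
    have h2 := mul_mem hxI h1
    have e : x * (y * x⁻¹ * y⁻¹) = x * y * x⁻¹ * y⁻¹ := by group
    rwa [e] at h2
  · have hy1 : y * x * y⁻¹ ∉ I := by
      intro h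
      apply hxI
      have h1 := hI.conj_mem _ h y⁻¹
      have e : y⁻¹ * (y * x * y⁻¹) * y⁻¹⁻¹ = x := by group
      rwa [e] at h1
    have hmem := hP x hx y hy
    have key := Subgroup.mul_mem_iff_of_index_two (H := I.subgroupOf P) hidx (a := ⟨x, hx⟩) (b := (⟨y * x * y⁻¹, hmem⟩ : P)⁻¹)
    have h3 : ((⟨x, hx⟩ : P) * (⟨y * x * y⁻¹, hmem⟩ : P)⁻¹ : P) ∈ I.subgroupOf P :=
      key.2 (iff_of_false hxI (fun h => hy1 (((I.subgroupOf P).inv_mem_iff).1 h)))
    have h4 : x * (y * x * y⁻¹)⁻¹ ∈ I := h3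
    have e : x * (y * x * y⁻¹)⁻¹ = x * y * x⁻¹ * y⁻¹ := by group
    rwa [e] at h4

end abstract

section orth

variable {F : Type u} [Field F] [Fintype F] {ι : Type} [Fintype ι] [DecidableEq ι]
variable {Q : QuadraticForm F (ι → F)}
variable (hQ : (polarBilin Q).Nondegenerate) [Nontrivial (ι → F)]
variable (p : ℕ) [hp : Fact p.Prime] [hc : CharP F p]

/-- The class of a similarity in the outer automorphism group. -/
noncomputable def clH (Q : QuadraticForm F (ι → F)) : Hs ⇑Q →* Cfsg.Out (Cfsg.POmega F ⇑Q) :=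
  (QuotientGroup.mk' (Cfsg.Inn (Cfsg.POmega F ⇑Q))).comp (conjHom ⇑Q)

include hQ in
theorem out_clH (hn5 : 5 ≤ Fintype.card ι) (h : Hs ⇑Q) :
    outCongr (pOmegaEquiv Q hQ hn5) (clH Q h) = outHom Q (toSemi Q h) := outCongr_mk hQ hn5 h

include hQ p

theorem clH_scH (hn5 : 5 ≤ Fintype.card ι) (c : Fˣ) : clH Q (scH c) = 1 := by
  show QuotientGroup.mk' _ (conjHom ⇑Q (scH c)) = 1
  rw [(conjHom_eq_one_iff (p := p) hQ hn5 _).2 ⟨c, c.ne_zero, scH_val c⟩, map_one]

/-- A similarity with square multiplier and the right determinant is, up to a scalar, a special isometry. -/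
theorem exists_so_of_mult (hn5 : 5 ≤ Fintype.card ι) {m : ℕ} (hcard : Fintype.card ι = 2 * m) (h : Hs ⇑Q) (c : F) (hc0 : c ≠ 0)
    (hmult : (mult hQ h : F) = c * c) (hdet : h.1.val.det = c ^ (2 * m)) :
    ∃ w ∈ soH ⇑Q, outHom Q (toSemi Q h) = outHom Q (toSemi Q w) := by
  set cu : Fˣ := Units.mk0 c hc0 with hcu
  set w : Hs ⇑Q := (scH cu)⁻¹ * h with hw
  have hwm : mult hQ w = 1 := by
    rw [hw, map_mul, map_inv, mult_scH]
    have : mult hQ h = cu * cu := Units.ext (by rw [hmult]; rfl)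
    rw [this]
    exact inv_mul_cancel _
  have hwiso : w.1 ∈ Cfsg.isometryGroup F ⇑Q := (mem_ker_mult hQ).1 hwm
  have hwdet : Matrix.GeneralLinearGroup.det w.1 = 1 := by
    let δ : Hs ⇑Q →* Fˣ := Matrix.GeneralLinearGroup.det.comp (Hs ⇑Q).subtype
    have e1 : δ (scH cu) = cu ^ Fintype.card ι := Units.ext (by
      show ((scH cu : Hs ⇑Q).1 : GL ι F).val.det = _
      rw [scH_val, Matrix.det_smul, Matrix.det_one, mul_one]
      rfl)
    have e2 : δ h = cu ^ Fintype.card ι := Units.ext (by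
      show h.1.val.det = _
      rw [hdet, hcard]
      rfl)
    show δ w = 1
    rw [hw, map_mul, map_inv, e1, e2]
    exact inv_mul_cancel _
  refine ⟨w, ⟨hwiso, hwdet⟩, ?_⟩
  have e1 : h = scH cu * w := by rw [hw, mul_inv_cancel_left]
  have e2 : outHom Q (toSemi Q (scH cu)) = 1 := by
    rw [← out_clH hQ hn5, clH_scH hQ p hn5, map_one]
  conv_lhs => rw [e1]
  rw [toSemi_mul, map_mul, e2, one_mul]

/-- The commutators of semisimilarities with similarities are special. -/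
theorem comm_so (h2 : (2 : F) ≠ 0) (hn5 : 5 ≤ Fintype.card ι) {m : ℕ} (hcard : Fintype.card ι = 2 * m) (g : SemiEl Q) (h : Hs ⇑Q) :
    ∃ w ∈ soH ⇑Q, outHom Q g * outHom Q (toSemi Q h) * (outHom Q g)⁻¹ * (outHom Q (toSemi Q h))⁻¹ = outHom Q (toSemi Q w) := by
  obtain ⟨σ, l, H⟩ := g.2
  obtain ⟨M, hM1, hM2, hM3⟩ := conj_Hs hQ H h
  have hM : toSemi Q M = g * toSemi Q h * g⁻¹ := by
    apply Subtype.ext
    ext x i
    exact congrFun (hM1 x) i
  set μ : F := ((mult hQ h : Fˣ) : F) with hμ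
  have hμ0 : μ ≠ 0 := (mult hQ h).ne_zero
  obtain ⟨c, hc0, hc⟩ := isSquare_ratio h2 σ hμ0
  have hd := det_sq_of_sim hQ h.1.val μ (fun v => mult_spec hQ h v)
  rw [hcard, pow_mul', pow_two] at hd
  have hdsm : σ h.1.val.det / h.1.val.det = c ^ (2 * m) := by
    have h3 : (h.1.val.det - μ ^ m) * (h.1.val.det + μ ^ m) = 0 := by linear_combination hd
    have hpow : c ^ (2 * m) = (σ μ) ^ m / μ ^ m := by
      rw [pow_mul, pow_two, hc, div_pow]
    rw [hpow]
    have hμm : μ ^ m ≠ 0 := pow_ne_zero _ hμ0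
    rcases mul_eq_zero.1 h3 with h4 | h4
    · have h5 : h.1.val.det = μ ^ m := sub_eq_zero.1 h4
      rw [h5, map_pow]
    · have h5 : h.1.val.det = - μ ^ m := eq_neg_of_add_eq_zero_left h4
      rw [h5, map_neg, map_pow, neg_div_neg_eq]
  obtain ⟨w, hw, hww⟩ := exists_so_of_mult hQ p hn5 hcard (M * h⁻¹) c hc0
    (by rw [map_mul, map_inv, Units.val_mul, Units.val_inv_eq_inv_val, hM2, ← div_eq_mul_inv, hc])
    (by
      have e1 : ((M * h⁻¹ : Hs ⇑Q).1).val.det = M.1.val.det * (h⁻¹ : Hs ⇑Q).1.val.det := by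
        show ((M.1 * (h⁻¹ : Hs ⇑Q).1 : GL ι F)).val.det = _
        rw [Units.val_mul, Matrix.det_mul]
      have e2 : (h⁻¹ : Hs ⇑Q).1.val.det = (h.1.val.det)⁻¹ := by
        have e3 : (h.1.val.det) * (h⁻¹ : Hs ⇑Q).1.val.det = 1 := by
          rw [← Matrix.det_mul, ← Units.val_mul]
          have : h.1 * (h⁻¹ : Hs ⇑Q).1 = 1 := by
            rw [← Subgroup.coe_mul, mul_inv_cancel]
            rfl
          rw [this]
          simp
        exact eq_inv_of_mul_eq_one_right e3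
      rw [e1, e2, hM3, ← div_eq_mul_inv, hdsm])
  refine ⟨w, hw, ?_⟩
  rw [← hww, toSemi_mul]
  have hinv : toSemi Q h⁻¹ = (toSemi Q h)⁻¹ := map_inv (toSemiHom Q) h
  rw [hinv, map_mul, map_inv, hM, map_mul, map_mul, map_inv]

/-- Modulo the inner automorphisms, the special isometries are central in the conformal group, when `-1 ∈ Ω`. -/
theorem comm_clH (hrel : (Cfsg.Inn (Cfsg.POmega F ⇑Q)).relIndex (Cfsg.psoAut F ⇑Q) = 2) {u : Hs ⇑Q} (hu : u ∈ soH ⇑Q) (h : Hs ⇑Q) :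
    clH Q u * clH Q h = clH Q h * clH Q u := by
  have hx : conjHom ⇑Q u ∈ Cfsg.psoAut F ⇑Q := by
    rw [psoAut_eq]
    exact ⟨u, hu, rfl⟩
  have hy : conjHom ⇑Q h ∈ Cfsg.pgoAut F ⇑Q := by
    rw [pgoAut_eq]
    exact ⟨h, rfl⟩
  have hP : ∀ x ∈ Cfsg.psoAut F ⇑Q, ∀ y ∈ Cfsg.pgoAut F ⇑Q, y * x * y⁻¹ ∈ Cfsg.psoAut F ⇑Q := by
    intro x hx y hy
    have := (normal_pso hQ p).conj_mem (⟨x, pso_le_pgo hQ p hx⟩) (Subgroup.mem_subgroupOf.2 hx) ⟨y, hy⟩
    exact this
  have key := comm_of_index_two (Cfsg.Inn (Cfsg.POmega F ⇑Q)) (Cfsg.psoAut F ⇑Q) (Cfsg.pgoAut F ⇑Q) inferInstance hrel hP hx hy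
  have h1 : QuotientGroup.mk' (Cfsg.Inn (Cfsg.POmega F ⇑Q)) (conjHom ⇑Q u * conjHom ⇑Q h * (conjHom ⇑Q u)⁻¹ * (conjHom ⇑Q h)⁻¹) = 1 :=
    (QuotientGroup.eq_one_iff _).2 key
  rw [map_mul, map_mul, map_mul, map_inv, map_inv] at h1
  have h3 := mul_inv_eq_one.1 h1
  have h4 := mul_inv_eq_iff_eq_mul.1 h3
  exact h4

/-- The reflections are not special up to scalars and inner automorphisms. -/
theorem refl_ne_so (h2 : (2 : F) ≠ 0) (hn5 : 5 ≤ Fintype.card ι) {m : ℕ} (hcard : Fintype.card ι = 2 * m) {v : ι → F} (hv : Q v ≠ 0)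
    {u : Hs ⇑Q} (hu : u ∈ soH ⇑Q) : clH Q (reflH Q v) ≠ clH Q u := by
  intro h
  have h1 : (conjHom ⇑Q (reflH Q v))⁻¹ * conjHom ⇑Q u ∈ Cfsg.Inn (Cfsg.POmega F ⇑Q) := QuotientGroup.eq.1 h
  rw [inn_eq] at h1
  obtain ⟨s, hs, hs2⟩ := h1
  set w : Hs ⇑Q := (reflH Q v) * s * u⁻¹ with hw
  have hw1 : conjHom ⇑Q w = 1 := by
    rw [hw, map_mul, map_mul, map_inv, hs2]
    group
  obtain ⟨c, hc0, hcw⟩ := (conjHom_eq_one_iff (p := p) hQ hn5 _).1 hw1
  set cu : Fˣ := Units.mk0 c hc0 with hcu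
  have hws : w = scH cu := by
    apply Subtype.ext
    apply Units.ext
    rw [hcw, scH_val]
    rfl
  have hs' := omH_le_soH hQ hs
  have hmr : mult hQ (reflH Q v) = 1 := by
    rw [← MonoidHom.mem_ker, mem_ker_mult hQ]
    exact (Cfsg.Agent.Lib.Orth.Closure.reflEl Q v).2
  have hmso : ∀ {x : Hs ⇑Q}, x ∈ soH ⇑Q → mult hQ x = 1 := by
    intro x hx
    rw [← MonoidHom.mem_ker, mem_ker_mult hQ]
    exact hx.1
  have hc2 : cu * cu = 1 := by
    rw [← mult_scH hQ, ← hws, hw, map_mul, map_mul, map_inv, hmr, hmso hs', hmso hu]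
    simp
  let δ : Hs ⇑Q →* Fˣ := Matrix.GeneralLinearGroup.det.comp (Hs ⇑Q).subtype
  have hδso : ∀ {x : Hs ⇑Q}, x ∈ soH ⇑Q → δ x = 1 := fun hx => hx.2
  have hδr : ((δ (reflH Q v) : Fˣ) : F) = -1 := by
    show ((Cfsg.Agent.Lib.Orth.Closure.reflEl Q v : Cfsg.isometryGroup F ⇑Q) : GL ι F).val.det = -1
    rw [Cfsg.Agent.Lib.Orth.Closure.reflEl_val, Cfsg.Agent.Lib.Reflect.Basic.reflection_det Q v hv]
  have hδs : δ (scH cu) = 1 := by
    have e1 : δ (scH cu) = cu ^ Fintype.card ι := Units.ext (by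
      show ((scH cu : Hs ⇑Q).1 : GL ι F).val.det = _
      rw [scH_val, Matrix.det_smul, Matrix.det_one, mul_one]
      rfl)
    rw [e1, hcard, pow_mul, pow_two, hc2, one_pow]
  rw [← hws, hw, map_mul, map_mul, map_inv, hδso hs', hδso hu] at hδs
  simp only [mul_one, inv_one] at hδs
  rw [hδs] at hδr
  apply h2
  have h7 : (2 : F) = 1 + 1 := by norm_num
  rw [h7]
  nth_rw 1 [← neg_neg (1 : F)]
  rw [← hδr]
  simp

set_option maxHeartbeats 4000000 in
/-- **The dihedral case.** -/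
theorem out_d8_general (hn : 7 ≤ Fintype.card ι) (h8 : NoSolid Q) {f m : ℕ} (hF : Fintype.card F = p ^ f) (hf : 1 ≤ f) (h2 : (2 : F) ≠ 0)
    (hcard : Fintype.card ι = 2 * m) (hall : ∀ c : F, c ≠ 0 → ∃ g, Semi Q g (RingEquiv.refl F) c) (hC : CoordStable Q)
    (hneg : ∃ g : Cfsg.isometryGroup F ⇑Q, g ∈ Cfsg.Omega F ⇑Q ∧ ((g : GL ι F) : Matrix ι ι F) = -1)
    {v : ι → F} (hv : Q v ≠ 0) (hfix : ∀ (σ : F ≃+* F) i, σ (v i) = v i) :
    Nonempty (Cfsg.Out (Cfsg.POmega F ⇑Q) ≃* DihedralGroup 4 × Multiplicative (ZMod f)) := by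
  have hn7 : 7 ≤ finrank F (ι → F) := by rw [finrank_eq]; exact hn
  have hn5 : 5 ≤ Fintype.card ι := by omega
  let e := outCongr (pOmegaEquiv Q hQ hn5)
  let π : Cfsg.Out (Cfsg.POmega F ⇑Q) →* (F ≃+* F) := (thetaOut hQ p hn7 h8).comp e.toMonoidHom
  let s₀ : (F ≃+* F) →* Cfsg.Out (Cfsg.POmega F ⇑Q) := e.symm.toMonoidHom.comp ((outHom Q).comp (coordHom hC))
  have hes : ∀ θ, e (s₀ θ) = outHom Q (coordHom hC θ) := fun θ => e.apply_symm_apply _
  have hs : ∀ θ, π (s₀ θ) = θ := by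
    intro θ
    show thetaOut hQ p hn7 h8 (e (s₀ θ)) = θ
    rw [hes, thetaOut_apply, thetaHom_coordHom]
  have hecl : ∀ h, e (clH Q h) = outHom Q (toSemi Q h) := out_clH hQ hn5
  have hπcl : ∀ h, π (clH Q h) = 1 := by
    intro h
    show thetaOut hQ p hn7 h8 (e (clH Q h)) = 1
    rw [hecl, thetaOut_apply]
    exact theta_toSemi hQ p h
  have hker : π.ker = (Cfsg.pgoAut F ⇑Q).map (QuotientGroup.mk' (Cfsg.Inn (Cfsg.POmega F ⇑Q))) := ker_theta_out hQ p hn h8
  have hkcl : ∀ k ∈ π.ker, ∃ h, k = clH Q h := by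
    intro k hk
    rw [hker] at hk
    obtain ⟨α, hα, rfl⟩ := hk
    rw [pgoAut_eq] at hα
    obtain ⟨h, rfl⟩ := hα
    exact ⟨h, rfl⟩
  haveI hcyc : IsCyclic (F ≃+* F) := Cfsg.Agent.Lib.KS71.GalFin.isCyclic
  obtain ⟨φ, hφ1, hφ2⟩ := pgo_mod_inn_neg hQ p h2 hn hcard hall hneg
  obtain ⟨e₁⟩ := equiv_of_map (Cfsg.Inn (Cfsg.POmega F ⇑Q)) (Cfsg.pgoAut F ⇑Q) φ hφ1 hφ2 π.ker hker
  have hrel := relIndex_inn_pso_neg hQ p h2 hn hcard hneg
  -- the special element
  obtain ⟨u₀, hu₀, hu₀2⟩ : ∃ u ∈ soH ⇑Q, clH Q u ≠ 1 := by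
    by_contra hall'
    push Not at hall'
    have : Cfsg.psoAut F ⇑Q ≤ Cfsg.Inn (Cfsg.POmega F ⇑Q) := by
      rw [psoAut_eq]
      rintro _ ⟨u, hu, rfl⟩
      exact (QuotientGroup.eq_one_iff _).1 (hall' u hu)
    rw [Subgroup.relIndex_eq_one.2 this] at hrel
    omega
  refine prod_of_d8' π s₀ hs (Cfsg.Agent.Lib.KS71.PSLAutGroup.card_ringEquiv hF hf) e₁ (clH Q (reflH Q v)) (clH Q u₀)
    (hπcl _) ?_ ?_ ?_ (hπcl _) hu₀2 ?_ ?_ ?_
  · rw [← map_mul]
    have : reflH Q v * reflH Q v = 1 := by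
      apply Subtype.ext
      apply Units.ext
      apply Cfsg.Agent.Lib.Orth.Words.mat_eq_of_mulVec
      intro x
      show ((reflH Q v).1 * (reflH Q v).1 : GL ι F).val *ᵥ x = ((1 : GL ι F)).val *ᵥ x
      rw [Units.val_mul, ← Matrix.mulVec_mulVec, reflH_mulVec, reflH_mulVec, Units.val_one, Matrix.one_mulVec]
      show (refl Q v * refl Q v) x = x
      rw [refl_mul_self]
      rfl
    rw [this, map_one]
  · intro θ
    apply e.injective
    rw [map_mul, map_mul, hes, hecl, ← map_mul, ← map_mul]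
    congr 1
    refine refl_comm (coord_semi hC θ) (c := 1) ?_ hv
    funext i
    show θ (v i) = _
    rw [hfix]
    simp
  · intro h
    apply refl_ne_so hQ p h2 hn5 hcard hv (one_mem (soH ⇑Q))
    rw [h, map_one]
  · intro l hl
    obtain ⟨h, rfl⟩ := hkcl l hl
    exact comm_clH hQ p hrel hu₀ h
  · intro h
    exact refl_ne_so hQ p h2 hn5 hcard hv hu₀ h.symm
  · intro θ k hk l hl
    obtain ⟨h, rfl⟩ := hkcl k hk
    obtain ⟨h', rfl⟩ := hkcl l hl
    obtain ⟨w, hw, hww⟩ := comm_so hQ p h2 hn5 hcard (coordHom hC θ) h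
    have e1 : s₀ θ * clH Q h * (s₀ θ)⁻¹ * (clH Q h)⁻¹ = clH Q w := by
      apply e.injective
      rw [map_mul, map_mul, map_mul, map_inv, map_inv, hes, hecl, hecl]
      exact hww
    rw [e1]
    exact comm_clH hQ p hrel hw h'

set_option maxHeartbeats 4000000 in
/-- **The abelian case.** -/
theorem out_ab_general (hn : 7 ≤ Fintype.card ι) (h8 : NoSolid Q) {f m : ℕ} (hF : Fintype.card F = p ^ f) (hf : 1 ≤ f) (h2 : (2 : F) ≠ 0)
    (hcard : Fintype.card ι = 2 * m) (hall : ∀ c : F, c ≠ 0 → ∃ g, Semi Q g (RingEquiv.refl F) c) (hC : CoordStable Q)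
    (hneg : ¬ ∃ g : Cfsg.isometryGroup F ⇑Q, g ∈ Cfsg.Omega F ⇑Q ∧ ((g : GL ι F) : Matrix ι ι F) = -1) :
    Nonempty (Cfsg.Out (Cfsg.POmega F ⇑Q) ≃* Multiplicative (ZMod 2 × ZMod 2 × ZMod f)) := by
  have hn7 : 7 ≤ finrank F (ι → F) := by rw [finrank_eq]; exact hn
  have hn5 : 5 ≤ Fintype.card ι := by omega
  let e := outCongr (pOmegaEquiv Q hQ hn5)
  let π : Cfsg.Out (Cfsg.POmega F ⇑Q) →* (F ≃+* F) := (thetaOut hQ p hn7 h8).comp e.toMonoidHom
  let s₀ : (F ≃+* F) →* Cfsg.Out (Cfsg.POmega F ⇑Q) := e.symm.toMonoidHom.comp ((outHom Q).comp (coordHom hC))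
  have hes : ∀ θ, e (s₀ θ) = outHom Q (coordHom hC θ) := fun θ => e.apply_symm_apply _
  have hs : ∀ θ, π (s₀ θ) = θ := by
    intro θ
    show thetaOut hQ p hn7 h8 (e (s₀ θ)) = θ
    rw [hes, thetaOut_apply, thetaHom_coordHom]
  have hecl : ∀ h, e (clH Q h) = outHom Q (toSemi Q h) := out_clH hQ hn5
  have hker : π.ker = (Cfsg.pgoAut F ⇑Q).map (QuotientGroup.mk' (Cfsg.Inn (Cfsg.POmega F ⇑Q))) := ker_theta_out hQ p hn h8
  have hkcl : ∀ k ∈ π.ker, ∃ h, k = clH Q h := by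
    intro k hk
    rw [hker] at hk
    obtain ⟨α, hα, rfl⟩ := hk
    rw [pgoAut_eq] at hα
    obtain ⟨h, rfl⟩ := hα
    exact ⟨h, rfl⟩
  haveI hcyc : IsCyclic (F ≃+* F) := Cfsg.Agent.Lib.KS71.GalFin.isCyclic
  obtain ⟨φ, hφ1, hφ2⟩ := pgo_mod_inn_not_neg hQ p h2 hn hcard hall hneg
  obtain ⟨e₁⟩ := equiv_of_map (Cfsg.Inn (Cfsg.POmega F ⇑Q)) (Cfsg.pgoAut F ⇑Q) φ hφ1 hφ2 π.ker hker
  have hrel := relIndex_inn_pso_not_neg hQ p h2 hn hcard hneg
  have hI : Cfsg.psoAut F ⇑Q ≤ Cfsg.Inn (Cfsg.POmega F ⇑Q) := Subgroup.relIndex_eq_one.1 hrel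
  have hcomm : ∀ k ∈ π.ker, ∀ c, k * s₀ c = s₀ c * k := by
    intro k hk θ
    obtain ⟨h, rfl⟩ := hkcl k hk
    apply e.injective
    rw [map_mul, map_mul, hes, hecl]
    exact (comm_outHom hQ p h2 hI hn5 hcard (coordHom hC θ) h).symm
  let e₃ := prodOfSection π s₀ hs hcomm
  have hcardG : Nat.card (F ≃+* F) = f := Cfsg.Agent.Lib.KS71.PSLAutGroup.card_ringEquiv hF hf
  have e₄ : Multiplicative (ZMod f) ≃* (F ≃+* F) := by
    have := zmodCyclicMulEquiv hcyc
    rw [hcardG] at this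
    exact this
  exact ⟨e₃.trans ((MulEquiv.prodCongr e₁ e₄.symm).trans ((MulEquiv.prodMultiplicative _ _).symm.trans
    (AddEquiv.toMultiplicative (AddEquiv.prodAssoc : (ZMod 2 × ZMod 2) × ZMod f ≃+ ZMod 2 × ZMod 2 × ZMod f))))⟩

end orth

section statement

variable {F : Type u} [Field F] [Fintype F]

/-- **The outer automorphism group of `PΩ⁺_{2m}(q)`, `q` odd.** -/
theorem out_plus_odd {p f m : ℕ} [hp : Fact p.Prime] (hf : 1 ≤ f) (hF : Fintype.card F = p ^ f) (hp2 : p ≠ 2) (hm : 4 ≤ m) :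
    if m = 4 then Nonempty (Cfsg.Out (Cfsg.POmega F (Cfsg.quadFormPlus m F)) ≃* Equiv.Perm (Fin 4) × Multiplicative (ZMod f))
    else if p ^ f % 4 = 3 ∧ Odd m then
      Nonempty (Cfsg.Out (Cfsg.POmega F (Cfsg.quadFormPlus m F)) ≃* Multiplicative (ZMod 2 × ZMod 2 × ZMod f))
    else Nonempty (Cfsg.Out (Cfsg.POmega F (Cfsg.quadFormPlus m F)) ≃* DihedralGroup 4 × Multiplicative (ZMod f)) := by
  haveI hcF : CharP F p := charP_of_card hF hf
  by_cases h4 : m = 4
  · subst h4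
    rw [if_pos rfl]
    exact OmegaTriS4.out_odd₄ p hf hF hp2
  rw [if_neg h4]
  have hm5 : 5 ≤ m := by omega
  have hoddp : Odd p := hp.out.odd_of_ne_two hp2
  have hodd : Odd (Fintype.card F) := by
    rw [hF]
    exact hoddp.pow
  have h2 : (2 : F) ≠ 0 := OmegaPGO3.two_ne hodd
  have hQ := plusForm_nondeg (F := F) m
  have hc1 := OmegaPGO3.plus_card m
  have hn : 7 ≤ Fintype.card (Fin m ⊕ Fin m) := by omega
  have hfr : 7 ≤ finrank F (Fin m ⊕ Fin m → F) := by rw [finrank_eq]; exact hn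
  haveI : Nontrivial (Fin m ⊕ Fin m → F) := Module.nontrivial_of_finrank_pos (R := F) (by omega)
  have h8 : NoSolid (plusForm m F) := noSolid_plus hm5
  have hS := Cfsg.Agent.S0790.result rfl hodd m (by omega)
  rw [OmegaPGO3.plus_arith hodd, hF] at hS
  by_cases hcase : p ^ f % 4 = 3 ∧ Odd m
  · rw [if_pos hcase]
    have key := out_ab_general hQ p hn h8 hF hf h2 hc1 (semi_plus_mult m) (coordStable_plus m)
      (by rw [coe_plusForm]; exact fun h' => (hS.1 h') ⟨hcase.2, hcase.1⟩)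
    rw [coe_plusForm] at key
    exact key
  · rw [if_neg hcase]
    obtain ⟨v, hv, hfix⟩ := exists_fix_plus (F := F) (m := m) (by omega)
    have key := out_d8_general hQ p hn h8 hF hf h2 hc1 (semi_plus_mult m) (coordStable_plus m)
      (by rw [coe_plusForm]; exact hS.2 (fun h' => hcase ⟨h'.2, h'.1⟩)) hv hfix
    rw [coe_plusForm] at key
    exact key

end statement

end Cfsg.Agent.Lib.Classical.OmegaPlusOdd
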