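/-
Involutory graph automorphisms of `PΩ^±_{2m}(q)`, `q` odd: the similarities inducing them and the count of classes.
-/
import Mathlib
import Cfsg.Agent.Lib.Classical.OmegaInvLin
import Cfsg.Agent.Lib.Classical.OmegaQuadCount
import Cfsg.Agent.Lib.Classical.OmegaPlusOdd
import Cfsg.Agent.Lib.Classical.OmegaGF

set_option autoImplicit false
set_option linter.unusedSimpArgs false
set_option linter.unusedSectionVars false
set_option linter.style.haveILetI false
set_option linter.unusedVariables false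
set_option linter.unnecessarySimpa false

namespace Cfsg.Agent.Lib.Classical.OmegaGraphInv

open Module MulAction QuadraticMap Matrix Cfsg.Agent.Lib.Witt.Quadratic Cfsg.Agent.Lib.Orth.Refl
open Cfsg.Agent.Lib.Orth.Gen Cfsg.Agent.Lib.OrthRefl.Eichler Cfsg.Agent.Lib.Classical.QuadEichler
open Cfsg.Agent.Lib.Classical.QuadEichSimple Cfsg.Agent.Lib.Classical.OmegaHP Cfsg.Agent.Lib.Classical.OmegaLocal
open Cfsg.Agent.Lib.Classical.OmegaRoot Cfsg.Agent.Lib.Classical.OmegaSemi Cfsg.Agent.Lib.Classical.OmegaConj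
open Cfsg.Agent.Lib.Classical.OmegaBar Cfsg.Agent.Lib.Classical.OmegaAut Cfsg.Agent.Lib.Classical.OmegaCount
open Cfsg.Agent.Lib.Orth.Forms Cfsg.Agent.Lib.Classical.BinaryForms Cfsg.Agent.Lib.Classical.QuadEichBridge
open Cfsg.Agent.Lib.Classical.OmegaForms Cfsg.Agent.Lib.Classical.OmegaOut Cfsg.Agent.Lib.Orth.Bridge
open Cfsg.Agent.Lib.Classical.MatrixBridge Cfsg.Agent.Lib.Classical.SympSimple
open Cfsg.Agent.Lib.Classical.OmegaPGO Cfsg.Agent.Lib.Classical.OmegaPGO2 Cfsg.Agent.Lib.Classical.OmegaFrob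
open Cfsg.Agent.Lib.Classical.OmegaOutOdd Cfsg.Agent.Lib.KS71.Speiser Cfsg.Agent.Lib.Classical.OmegaDesc
open Cfsg.Agent.Lib.Classical.OmegaFieldOdd Cfsg.Agent.Lib.Classical.OmegaCent Cfsg.Agent.Lib.KS71.ClassSplit
open Cfsg.Agent.Lib.Classical.OmegaFieldCount Cfsg.Agent.Lib.QuadFn.MaxSingular Cfsg.Agent.Lib.Orth.Parity
open Cfsg.Agent.Lib.Classical.OmegaClass Cfsg.Agent.Lib.Orth.HypBasis Cfsg.Agent.Lib.QuadFn.PlusForm
open Cfsg.Agent.Lib.Classical.OmegaType Cfsg.Agent.Lib.Classical.OmegaPlusConj Cfsg.Agent.Lib.Classical.OmegaCentF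
open Cfsg.Agent.Lib.Classical.OmegaCross Cfsg.Agent.Lib.Classical.OmegaMinusP
open Cfsg.Agent.Lib.Classical.OmegaMinusConj
open Cfsg.Agent.Lib.Classical.OmegaLift Cfsg.Agent.Lib.Orth.Levi
open Cfsg.Agent.Lib.Classical.OmegaQuadCount
open Cfsg.Agent.Lib.Classical.OmegaInvLin Cfsg.Agent.Lib.Classical.OmegaPlusOdd Cfsg.Agent.Lib.Classical.OmegaGF
open scoped commutatorElement

universe u

section vectors

variable {F : Type u} [Field F] [Fintype F] {ι : Type} [Fintype ι] [DecidableEq ι] {Q : QuadraticForm F (ι → F)}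

/-- A quadratic form on which `g` is a self-adjoint similarity with non-square multiplier has a non-singular vector
orthogonal to its image. -/
theorem exists_orth_image (hQ : (polarBilin Q).Nondegenerate) (h2 : (2 : F) ≠ 0) (hn : 5 ≤ Fintype.card ι) (g : (ι → F) →ₗ[F] (ι → F)) {μ : F}
    (hμ : μ ≠ 0) (hns : ¬ IsSquare μ) (hsim : ∀ v, Q (g v) = μ * Q v) (hsq : ∀ v, g (g v) = μ • v) :
    ∃ w, Q w ≠ 0 ∧ polar Q w (g w) = 0 := by
  classical
  by_contra hall
  push Not at hall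
  have hall' : ∀ w, polar Q w (g w) = 0 → Q w = 0 := fun w hw => by
    by_contra h
    exact hall w h hw
  have hpol : ∀ x y, polar Q (g x) (g y) = μ * polar Q x y := by
    intro x y
    rw [polar, polar, ← map_add, hsim, hsim, hsim]
    ring
  have hadj : ∀ x y, polar Q (g x) y = polar Q x (g y) := by
    intro x y
    have h1 := hpol (g x) y
    rw [hsq, polar_smul_left, smul_eq_mul] at h1
    exact (mul_left_cancel₀ hμ h1).symm
  have hginj : ∀ x, g x = 0 → x = 0 := by
    intro x hx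
    have h1 := hsq x
    rw [hx, map_zero] at h1
    exact (smul_eq_zero.1 h1.symm).resolve_left hμ
  -- the second quadratic form
  let A : QuadraticForm F (ι → F) := LinearMap.BilinMap.toQuadraticMap ((polarBilin Q).compl₁₂ g LinearMap.id)
  have hA : ∀ x, A x = polar Q (g x) x := fun x => rfl
  have hpA : ∀ x y, polar A x y = 2 * polar Q (g x) y := by
    intro x y
    have e : polar Q (g y) x = polar Q (g x) y := by
      rw [hadj, polar_comm]
    rw [polar, hA, hA, hA, map_add, polar_add_left, polar_add_right, polar_add_right, e, two_mul]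
    ring
  have hAnd : (polarBilin A).Nondegenerate := by
    have key : ∀ x, (∀ y, polar A x y = 0) → x = 0 := by
      intro x hx
      apply hginj
      apply hQ.1 (g x)
      intro y
      have := hx y
      rw [hpA] at this
      exact (mul_eq_zero.1 this).resolve_left h2
    constructor
    · exact key
    · intro x hx
      apply key
      intro y
      rw [polar_comm]
      exact hx y
  have hzero : ∀ w, A w = 0 → Q w = 0 := by
    intro w hw
    apply hall'
    rw [← hadj]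
    exact hw
  -- a hyperbolic pair
  have hfr : finrank F (ι → F) = Fintype.card ι := by simp
  obtain ⟨e, -, he0, hAe⟩ := Cfsg.Agent.Lib.OrthRefl.Singular.exists_singular A hAnd ⊤ (by
    rw [finrank_top, hfr]
    omega)
  obtain ⟨f, hAf, hef, -⟩ := Cfsg.Agent.Lib.OrthRefl.Singular.exists_singular_partner A hAnd ⊥ (e := e)
    (by
      rw [Submodule.mem_bot]
      exact he0) hAe (by
      intro x hx
      rw [Submodule.mem_bot] at hx
      subst hx
      simp)
  set l := polar Q e f with hl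
  have hQe := hzero e hAe
  have hQf := hzero f hAf
  -- the complement
  set BA : LinearMap.BilinForm F (ι → F) := polarBilin A with hBA
  have hrefl : BA.IsRefl := by
    intro x y h
    show polar A y x = 0
    rw [polar_comm]
    exact h
  set S : Submodule F (ι → F) := Submodule.span F {e, f} with hS
  set U : Submodule F (ι → F) := BA.orthogonal S with hU
  have hUe : ∀ x ∈ U, polar A e x = 0 := fun x hx => hx e (Submodule.subset_span (by simp))
  have hUf : ∀ x ∈ U, polar A f x = 0 := fun x hx => hx f (Submodule.subset_span (by simp))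
  -- the relation between the forms on the complement
  have hQU : ∀ x ∈ U, Q x = l * A x := by
    intro x hx
    have h1 := hUe x hx
    have h3 := hUf x hx
    have key : ∀ x ∈ U, Q x + polar Q e x - A x * l - A x * polar Q x f = 0 := by
      intro x hx
      have h1 := hUe x hx
      have h3 := hUf x hx
      have hs : A (e + x - A x • f) = 0 := by
        rw [Q_sub, map_add_eq, QuadraticMap.map_smul, hAe, hAf, polar_smul_right, polar_add_left, h1, hef, polar_comm A x f, h3]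
        simp
      have h4 := hzero _ hs
      rw [Q_sub, map_add_eq, QuadraticMap.map_smul, hQe, hQf, polar_smul_right, polar_add_left] at h4
      simp only [smul_eq_mul] at h4
      linear_combination h4
    have h4 := key x hx
    have h5 := key (-x) (neg_mem hx)
    have e1 : A (-x) = A x := QuadraticMap.map_neg _ _
    have e2 : Q (-x) = Q x := QuadraticMap.map_neg _ _
    rw [e1, e2, polar_neg_right, polar_neg_left] at h5
    have : 2 * (Q x - l * A x) = 0 := by
      linear_combination h4 + h5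
    exact sub_eq_zero.1 ((mul_eq_zero.1 this).resolve_left h2)
  have hBU : ∀ x ∈ U, ∀ y ∈ U, polar Q x y = 2 * l * polar Q (g x) y := by
    intro x hx y hy
    have h1 := hQU (x + y) (add_mem hx hy)
    have h3 : Q (x + y) = Q x + Q y + polar Q x y := map_add_eq Q x y
    have h4 : A (x + y) = A x + A y + polar A x y := map_add_eq A x y
    rw [hpA] at h4
    rw [hQU x hx, hQU y hy] at h3
    rw [h3, h4] at h1
    linear_combination h1
  -- the contradiction
  set φ : (ι → F) →ₗ[F] (ι → F) := μ⁻¹ • g - (2 * l) • LinearMap.id with hφ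
  have hgφ : ∀ x, g (φ x) = x - (2 * l) • g x := by
    intro x
    simp only [hφ, LinearMap.sub_apply, LinearMap.smul_apply, LinearMap.id_apply, map_sub, map_smul, hsq]
    rw [smul_smul, inv_mul_cancel₀ hμ, one_smul]
  have hφinj : ∀ x, φ x = 0 → x = 0 := by
    intro x hx
    have h1 : g x = (μ * (2 * l)) • x := by
      have : μ⁻¹ • g x - (2 * l) • x = 0 := hx
      have h3 : μ⁻¹ • g x = (2 * l) • x := sub_eq_zero.1 this
      have h4 := congrArg (fun z => μ • z) h3
      simp only [smul_smul, mul_inv_cancel₀ hμ, one_smul] at h4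
      exact h4
    by_contra hx0
    have h3 := hsq x
    rw [h1, map_smul, h1, smul_smul] at h3
    have h4 : (μ * (2 * l) * (μ * (2 * l)) - μ) • x = 0 := by
      rw [sub_smul, h3, sub_self]
    have h5 := (smul_eq_zero.1 h4).resolve_right hx0
    exact hns ⟨μ * (2 * l), (sub_eq_zero.1 h5).symm⟩
  set W₂ : Submodule F (ι → F) := BA.orthogonal U with hW₂
  have hφU : ∀ x ∈ U, φ x ∈ W₂ := by
    intro x hx y hy
    show polar A y (φ x) = 0
    rw [polar_comm, hpA, hgφ, polar_sub_left, polar_smul_left, hBU x hx y hy]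
    simp
  have hrS : finrank F S ≤ 2 := by
    have := finrank_span_le_card (R := F) ({e, f} : Set (ι → F))
    refine this.trans ?_
    have h3 : ({e, f} : Set (ι → F)).toFinset.card ≤ 2 := by
      classical
      simpa using Finset.card_le_two (a := e) (b := f)
    simpa using h3
  have hdS : finrank F U = finrank F (ι → F) - finrank F S := LinearMap.BilinForm.finrank_orthogonal hAnd S
  have hdU : finrank F W₂ = finrank F (ι → F) - finrank F U := LinearMap.BilinForm.finrank_orthogonal hAnd U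
  have hle : finrank F U ≤ finrank F W₂ := by
    let φ' : U →ₗ[F] W₂ := (φ.comp U.subtype).codRestrict W₂ (fun x => hφU x.1 x.2)
    apply LinearMap.finrank_le_finrank_of_injective (f := φ')
    intro x y hxy
    have h1 : φ (x.1 - y.1) = 0 := by
      rw [map_sub]
      exact sub_eq_zero.2 (congrArg Subtype.val hxy)
    exact Subtype.ext (sub_eq_zero.1 (hφinj _ h1))
  have h3 := Submodule.finrank_le U
  rw [hfr] at hdS hdU h3
  omega

end vectors

section group

variable {F : Type u} [Field F] [Fintype F] {ι : Type} [Fintype ι] [DecidableEq ι] {Q : QuadraticForm F (ι → F)} [Nontrivial (ι → F)]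
variable (hQ : (polarBilin Q).Nondegenerate) (hn : 5 ≤ Fintype.card ι) (p : ℕ) [hp : Fact p.Prime] [hc : CharP F p]
variable {m : ℕ} {P : Subgroup (Hs ⇑Q)}

omit [Nontrivial (ι → F)] in
/-- The reflection of a multiple. -/
theorem reflH_smul (v : ι → F) {c : F} (hc0 : c ≠ 0) : reflH Q (c • v) = reflH Q v := by
  apply Subtype.ext
  apply Units.ext
  apply Cfsg.Agent.Lib.Orth.Words.mat_eq_of_mulVec
  intro x
  rw [reflH_mulVec, reflH_mulVec, refl_apply, refl_apply, QuadraticMap.map_smul, polar_smul_right, smul_smul]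
  by_cases hv : Q v = 0
  · simp [hv]
  · congr 2
    simp only [smul_eq_mul]
    field_simp

/-- Orthogonal reflections commute. -/
theorem reflH_comm (hQ : (polarBilin Q).Nondegenerate) {a b : ι → F} (ha : Q a ≠ 0) (hab : polar Q a b = 0) : reflH Q a * reflH Q b = reflH Q b * reflH Q a := by
  have h1 := conj_reflH hQ (reflH Q a) (v := b)
  by_cases hb : Q b = 0
  · have e : reflH Q b = 1 := by
      apply Subtype.ext
      apply Units.ext
      apply Cfsg.Agent.Lib.Orth.Words.mat_eq_of_mulVec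
      intro x
      rw [reflH_mulVec, refl_apply, hb]
      simp
    rw [e]
    simp
  have h3 := h1 hb
  have h4 : (reflH Q a).1.val *ᵥ b = b := by
    rw [reflH_mulVec, refl_apply, polar_comm, hab]
    simp
  rw [h4] at h3
  exact mul_inv_eq_iff_eq_mul.1 h3

/-- The linear map of a similarity. -/
noncomputable def linH (g : Hs ⇑Q) : (ι → F) →ₗ[F] (ι → F) := Matrix.toLin' g.1.val

omit [Nontrivial (ι → F)] in
theorem linH_apply (g : Hs ⇑Q) (v : ι → F) : linH g v = g.1.val *ᵥ v := rfl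

omit [Nontrivial (ι → F)] in
theorem det_linH (g : Hs ⇑Q) : LinearMap.det (linH g) = g.1.val.det := LinearMap.det_toLin' _

include hQ in
/-- Outside the class subgroup the determinant has the other sign. -/
theorem det_not_mem (hP : IsClassSub hQ m P) (h2 : (2 : F) ≠ 0) (hcard : Fintype.card ι = 2 * m) {g : Hs ⇑Q} (hg : g ∉ P) :
    g.1.val.det = - (mult hQ g : F) ^ m := by
  have h1 := det_sq_of_sim hQ g.1.val _ (mult_spec hQ g)
  rw [hcard, pow_mul', pow_two] at h1
  have h3 : (g.1.val.det - (mult hQ g : F) ^ m) * (g.1.val.det + (mult hQ g : F) ^ m) = 0 := by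
    linear_combination h1
  rcases mul_eq_zero.1 h3 with h4 | h4
  · exact absurd ((hP.det h2 g).2 (sub_eq_zero.1 h4)) hg
  · exact eq_neg_of_add_eq_zero_left h4

include hQ in
/-- The product of two elements outside the class subgroup lies in it. -/
theorem mul_mem_of_not_mem (hP : IsClassSub hQ m P) (h2 : (2 : F) ≠ 0) (hcard : Fintype.card ι = 2 * m) {x y : Hs ⇑Q} (hx : x ∉ P) (hy : y ∉ P) :
    x * y ∈ P := by
  rw [hP.det h2]
  have e1 : (x * y).1.val.det = x.1.val.det * y.1.val.det := by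
    show (x.1 * y.1 : GL ι F).val.det = _
    rw [Units.val_mul, Matrix.det_mul]
  rw [e1, det_not_mem hQ hP h2 hcard hx, det_not_mem hQ hP h2 hcard hy, map_mul, Units.val_mul, mul_pow]
  ring

include hQ hn p in
/-- An involution in the action comes from a similarity with scalar square. -/
theorem exists_sq_scalar {g : Hs ⇑Q} (hγ : conjHom ⇑Q g * conjHom ⇑Q g = 1) :
    ∃ c : F, c ≠ 0 ∧ (∀ v, linH g (linH g v) = c • v) ∧ c * c = (mult hQ g : F) * (mult hQ g : F) := by
  rw [← map_mul, conjHom_eq_one_iff (p := p) hQ hn] at hγ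
  obtain ⟨c, hc0, hcg⟩ := hγ
  have hv : ∀ v, linH g (linH g v) = c • v := by
    intro v
    rw [linH_apply, linH_apply, Matrix.mulVec_mulVec]
    have e : g.1.val * g.1.val = c • (1 : Matrix ι ι F) := by
      rw [← Units.val_mul]
      exact hcg
    rw [e, Matrix.smul_mulVec, Matrix.one_mulVec]
  refine ⟨c, hc0, hv, ?_⟩
  obtain ⟨v, hv0⟩ := Cfsg.Agent.Lib.Orth.Closure.exists_nonsingular (Q := Q) hQ
  have h1 : Q (linH g (linH g v)) = (mult hQ g : F) * ((mult hQ g : F) * Q v) := by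
    rw [linH_apply, linH_apply, mult_spec hQ, mult_spec hQ]
  rw [hv, QuadraticMap.map_smul, smul_eq_mul] at h1
  have h3 : (c * c) * Q v = ((mult hQ g : F) * (mult hQ g : F)) * Q v := by
    rw [h1]
    ring
  exact mul_right_cancel₀ hv0 h3

include hQ in
/-- The similarity with `g² = -μ`, or with `g² = μ` non-square, has determinant `(-g²)^m`. -/
theorem det_of_sq (h2 : (2 : F) ≠ 0) (hcard : Fintype.card ι = 2 * m) {g : Hs ⇑Q} {c : F} (hc0 : c ≠ 0) (hsq : ∀ v, linH g (linH g v) = c • v)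
    (hH : ∀ v, Q v ≠ 0 → polar Q v (linH g v) ^ 2 ≠ 4 * (mult hQ g : F) * Q v ^ 2) : g.1.val.det = (-c) ^ m := by
  obtain ⟨M, hM, hdet⟩ := det_of_plane h2 (finrank F (ι → F)) (ι → F) Q hQ (linH g) (mult hQ g : F) c (mult hQ g).ne_zero hc0
    (fun v => mult_spec hQ g v) hsq hH rfl
  have hfr : finrank F (ι → F) = Fintype.card ι := by simp
  have hMm : M = m := by omega
  rw [det_linH, hMm] at hdet
  exact hdet

include hQ in
/-- The multiplier of an improper similarity with scalar square. -/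
theorem sq_eq_mult (hP : IsClassSub hQ m P) (h2 : (2 : F) ≠ 0) (hcard : Fintype.card ι = 2 * m) {g : Hs ⇑Q} (hg : g ∉ P) {c : F} (hc0 : c ≠ 0)
    (hsq : ∀ v, linH g (linH g v) = c • v) (hcc : c * c = (mult hQ g : F) * (mult hQ g : F)) : c = (mult hQ g : F) := by
  set μ : F := (mult hQ g : F) with hμ
  have hμ0 : μ ≠ 0 := (mult hQ g).ne_zero
  have h3 : (c - μ) * (c + μ) = 0 := by
    linear_combination hcc
  rcases mul_eq_zero.1 h3 with h4 | h4
  · exact sub_eq_zero.1 h4
  exfalso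
  have hcm : c = -μ := eq_neg_of_add_eq_zero_left h4
  apply hg
  rw [hP.det h2, det_of_sq hQ h2 hcard hc0 hsq, hcm, neg_neg]
  intro v hv
  have hpol : polar Q (linH g v) (linH g (linH g v)) = μ * polar Q v (linH g v) := by
    have hsimv : ∀ v, Q (linH g v) = μ * Q v := fun v => mult_spec hQ g v
    have hpolg : ∀ x y, polar Q (linH g x) (linH g y) = μ * polar Q x y := by
      intro x y
      rw [polar, polar, ← map_add, hsimv (x + y), hsimv x, hsimv y]
      ring
    exact hpolg v (linH g v)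
  rw [hsq, polar_smul_right, polar_comm, smul_eq_mul, hcm] at hpol
  have h5 : 2 * μ * polar Q v (linH g v) = 0 := by
    linear_combination -hpol
  have h6 := (mul_eq_zero.1 h5).resolve_left (mul_ne_zero h2 hμ0)
  rw [h6]
  intro h7
  have h8 : (2 * Q v) * (2 * Q v) * μ = 0 := by
    linear_combination -h7
  exact (mul_ne_zero (mul_ne_zero (mul_ne_zero h2 hv) (mul_ne_zero h2 hv)) hμ0) h8

include hQ in
/-- The determinant in the non-square case. -/
theorem det_of_nonsq (h2 : (2 : F) ≠ 0) (hcard : Fintype.card ι = 2 * m) {g : Hs ⇑Q} (hns : ¬ IsSquare (mult hQ g : F))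
    (hsq : ∀ v, linH g (linH g v) = (mult hQ g : F) • v) : g.1.val.det = (-(mult hQ g : F)) ^ m := by
  refine det_of_sq hQ h2 hcard (mult hQ g).ne_zero hsq ?_
  intro v hv h
  apply hns
  refine ⟨polar Q v (linH g v) / (2 * Q v), ?_⟩
  have h20 : 2 * Q v ≠ 0 := mul_ne_zero h2 hv
  field_simp
  linear_combination -h

include hQ in
/-- Two reflections, with non-square product of norms, whose product commutes with the involution: the non-square case. -/
theorem exists_pair_nonsq (h2 : (2 : F) ≠ 0) (hn : 5 ≤ Fintype.card ι) {g : Hs ⇑Q} (hns : ¬ IsSquare (mult hQ g : F))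
    (hsq : ∀ v, linH g (linH g v) = (mult hQ g : F) • v) :
    ∃ a b, Q a ≠ 0 ∧ Q b ≠ 0 ∧ ¬ IsSquare (Q a * Q b) ∧ g * (reflH Q a * reflH Q b) * g⁻¹ = reflH Q a * reflH Q b := by
  set μ : F := (mult hQ g : F) with hμ
  have hμ0 : μ ≠ 0 := (mult hQ g).ne_zero
  obtain ⟨w, hw, hw2⟩ := exists_orth_image hQ h2 hn (linH g) hμ0 hns (fun v => mult_spec hQ g v) hsq
  have hQb : Q (linH g w) = μ * Q w := mult_spec hQ g w
  have hb : Q (linH g w) ≠ 0 := by
    rw [hQb]
    exact mul_ne_zero hμ0 hw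
  refine ⟨w, linH g w, hw, hb, ?_, ?_⟩
  · rw [hQb]
    intro h
    apply hns
    obtain ⟨t, ht⟩ := h
    refine ⟨t / Q w, ?_⟩
    field_simp
    linear_combination ht
  · have h1 : g * reflH Q w * g⁻¹ = reflH Q (linH g w) := conj_reflH hQ g hw
    have h3 : g * reflH Q (linH g w) * g⁻¹ = reflH Q w := by
      rw [conj_reflH hQ g hb]
      show reflH Q (linH g (linH g w)) = _
      rw [hsq, reflH_smul _ hμ0]
    have e : g * (reflH Q w * reflH Q (linH g w)) * g⁻¹ = (g * reflH Q w * g⁻¹) * (g * reflH Q (linH g w) * g⁻¹) := by group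
    rw [e, h1, h3]
    exact (reflH_comm hQ hw hw2).symm

include hQ in
/-- Two reflections, with non-square product of norms, whose product commutes with the involution: the square case. -/
theorem exists_pair_sq (h2 : (2 : F) ≠ 0) (hn : 5 ≤ Fintype.card ι) {g : Hs ⇑Q} {t : F} (ht0 : t ≠ 0) (ht : (mult hQ g : F) = t * t)
    (hsq : ∀ v, linH g (linH g v) = (t * t) • v) :
    ∃ a b, Q a ≠ 0 ∧ Q b ≠ 0 ∧ ¬ IsSquare (Q a * Q b) ∧ g * (reflH Q a * reflH Q b) * g⁻¹ = reflH Q a * reflH Q b := by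
  classical
  have hsim : ∀ v, Q (linH g v) = t * t * Q v := by
    intro v
    rw [← ht]
    exact mult_spec hQ g v
  have hch : ringChar F ≠ 2 := by
    intro h
    apply h2
    have := ringChar.spec F 2
    exact_mod_cast this.2 (by rw [h])
  obtain ⟨δ, hδ⟩ := FiniteField.exists_nonsquare hch
  have hδ0 : δ ≠ 0 := by
    rintro rfl
    exact hδ IsSquare.zero
  have hcompl := isCompl_Eig (linH g) h2 ht0 hsq
  have hdim := Submodule.finrank_add_eq_of_isCompl hcompl
  have hfr : finrank F (ι → F) = Fintype.card ι := by simp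
  -- one of the eigenspaces is large enough
  obtain ⟨s, hs0, hss, hsdim⟩ : ∃ s : F, s ≠ 0 ∧ s * s = t * t ∧ 2 ≤ finrank F (Eig (linH g) s) := by
    by_cases h : 2 ≤ finrank F (Eig (linH g) t)
    · exact ⟨t, ht0, rfl, h⟩
    · exact ⟨-t, neg_ne_zero.2 ht0, by ring, by omega⟩
  have hsim' : ∀ v, Q (linH g v) = s * s * Q v := by
    intro v
    rw [hss]
    exact hsim v
  have hsq' : ∀ v, linH g (linH g v) = (s * s) • v := by
    intro v
    rw [hss]
    exact hsq v
  have hnd := nondeg_Eig Q (linH g) h2 hs0 hsim' hsq' hQ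
  obtain ⟨a, ha⟩ := Cfsg.Agent.Lib.Orth.Closure.exists_Q_eq (Q.comp (Eig (linH g) s).subtype) h2 hnd hsdim 1
  obtain ⟨b, hb⟩ := Cfsg.Agent.Lib.Orth.Closure.exists_Q_eq (Q.comp (Eig (linH g) s).subtype) h2 hnd hsdim δ
  have ha' : Q a.1 = 1 := ha
  have hb' : Q b.1 = δ := hb
  have hQa : Q a.1 ≠ 0 := by
    rw [ha']
    exact one_ne_zero
  have hQb : Q b.1 ≠ 0 := by
    rw [hb']
    exact hδ0
  refine ⟨a.1, b.1, hQa, hQb, ?_, ?_⟩
  · rw [ha', hb', one_mul]
    exact hδ
  · have e : g * (reflH Q a.1 * reflH Q b.1) * g⁻¹ = (g * reflH Q a.1 * g⁻¹) * (g * reflH Q b.1 * g⁻¹) := by group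
    have h1 : g * reflH Q a.1 * g⁻¹ = reflH Q a.1 := by
      rw [conj_reflH hQ g hQa]
      show reflH Q (linH g a.1) = _
      rw [mem_Eig.1 a.2, reflH_smul _ hs0]
    have h3 : g * reflH Q b.1 * g⁻¹ = reflH Q b.1 := by
      rw [conj_reflH hQ g hQb]
      show reflH Q (linH g b.1) = _
      rw [mem_Eig.1 b.2, reflH_smul _ hs0]
    rw [e, h1, h3]

end group

section count

variable {F : Type u} [Field F] [Fintype F] {ι : Type} [Fintype ι] [DecidableEq ι] {Q : QuadraticForm F (ι → F)} [Nontrivial (ι → F)]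
variable (hQ : (polarBilin Q).Nondegenerate) (hn : 5 ≤ Fintype.card ι) (p : ℕ) [hp : Fact p.Prime] [hc : CharP F p]
variable {m : ℕ} {P : Subgroup (Hs ⇑Q)}

include hQ hn p in
/-- When `-1 ∈ Ω`, the group of class-preserving similarities is abelian modulo `Ω` and the scalars. -/
theorem comm_mod_inn (h2 : (2 : F) ≠ 0) (hP : IsClassSub hQ m P) (hneg : ∃ s : Cfsg.Omega F ⇑Q, (s.1.1 : GL ι F).val = -1)
    (a : P) (ha : ¬ IsSquare (mult hQ a.1 : F)) {x y : Hs ⇑Q} (hx : x ∈ P) (hy : y ∈ P) : clH Q x * clH Q y = clH Q y * clH Q x := by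
  haveI : (Nom P).Normal := by
    haveI : (Cfsg.Inn (Cfsg.POmega F ⇑Q)).Normal := by
      constructor
      rintro n hn g
      obtain ⟨y, rfl⟩ := hn
      exact ⟨g y, by
        ext z
        simp [MulAut.conj_apply]⟩
    exact Subgroup.normal_comap _
  have hcard : Nat.card (P ⧸ Nom P) = 2 ^ 2 := by
    have := index_Nom hQ hn p h2 hP hneg a ha
    rw [Subgroup.index] at this
    rw [this]
    norm_num
  haveI : Fact (Nat.Prime 2) := ⟨Nat.prime_two⟩
  haveI := IsPGroup.isMulCommutative_of_card_eq_prime_sq (p := 2) hcard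
  have h1 : ((⟨x, hx⟩ : P) : P ⧸ Nom P) * ((⟨y, hy⟩ : P) : P ⧸ Nom P) = ((⟨y, hy⟩ : P) : P ⧸ Nom P) * ((⟨x, hx⟩ : P) : P ⧸ Nom P) :=
    mul_comm' _ _
  rw [← QuotientGroup.mk_mul, ← QuotientGroup.mk_mul, QuotientGroup.eq] at h1
  have h3 : conjHom ⇑Q ((x * y)⁻¹ * (y * x)) ∈ Cfsg.Inn (Cfsg.POmega F ⇑Q) := h1
  have h4 : clH Q ((x * y)⁻¹ * (y * x)) = 1 := (QuotientGroup.eq_one_iff _).2 h3
  rw [map_mul, map_inv, inv_mul_eq_one, map_mul, map_mul] at h4
  exact h4

include hQ hn p in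
/-- **Elements commuting with an improper involution have square multipliers**, when `-1 ∈ Ω`. -/
theorem cent_sq (h2 : (2 : F) ≠ 0) (hcard : Fintype.card ι = 2 * m) (hP : IsClassSub hQ m P) (hneg : ∃ s : Cfsg.Omega F ⇑Q, (s.1.1 : GL ι F).val = -1)
    (a : P) (ha : ¬ IsSquare (mult hQ a.1 : F)) {g h : Hs ⇑Q} (hg : g ∉ P) (hh : h ∈ P)
    (hcomm : conjHom ⇑Q h * conjHom ⇑Q g = conjHom ⇑Q g * conjHom ⇑Q h) : IsSquare (mult hQ h : F) := by
  obtain ⟨v, hv⟩ := Cfsg.Agent.Lib.Orth.Closure.exists_nonsingular (Q := Q) hQ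
  set r := reflH Q v with hr
  have hr2 : r * r = 1 := reflH_sq hQ v
  have hrinv : r⁻¹ = r := inv_eq_of_mul_eq_one_left hr2
  have hrP : r ∉ P := by
    intro h1
    have h3 := (hP.word r 1 [v] one_ne_zero (by
      intro u hu
      simp only [List.mem_singleton] at hu
      rw [hu]
      exact hv) (by
      rw [one_smul]
      have := wordH_val (Q := Q) [v]
      rw [← this]
      simp [wordH, hr])).1 h1
    simp at h3
  have hb : r * g ∈ P := mul_mem_of_not_mem hQ hP h2 hcard hrP hg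
  have hgeq : g = r * (r * g) := by
    rw [← mul_assoc, hr2, one_mul]
  have hbc := comm_mod_inn hQ hn p h2 hP hneg a ha hh hb
  have hcl : clH Q h * clH Q g = clH Q g * clH Q h := by
    rw [← map_mul (clH Q), ← map_mul (clH Q)]
    show QuotientGroup.mk' _ (conjHom ⇑Q (h * g)) = QuotientGroup.mk' _ (conjHom ⇑Q (g * h))
    rw [map_mul (conjHom ⇑Q), map_mul (conjHom ⇑Q), hcomm]
  rw [hgeq, map_mul, ← mul_assoc, mul_assoc (clH Q r), hbc.symm, ← mul_assoc] at hcl
  have hcl2 := mul_right_cancel hcl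
  -- the commutator is a word
  have e : h * r * h⁻¹ * r⁻¹ = wordH Q [h.1.val *ᵥ v, v] := by
    rw [hrinv, conj_reflH hQ h hv]
    simp [wordH, hr]
  have hQh : Q (h.1.val *ᵥ v) = (mult hQ h : F) * Q v := mult_spec hQ h v
  have hQh0 : Q (h.1.val *ᵥ v) ≠ 0 := by
    rw [hQh]
    exact mul_ne_zero (mult hQ h).ne_zero hv
  have hinn : conjHom ⇑Q (wordH Q [h.1.val *ᵥ v, v]) ∈ Cfsg.Inn (Cfsg.POmega F ⇑Q) := by
    rw [← e]
    apply (QuotientGroup.eq_one_iff _).1
    show clH Q (h * r * h⁻¹ * r⁻¹) = 1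
    rw [map_mul, map_mul, map_mul, map_inv, map_inv, hcl2]
    group
  have hw := (inn_iff_word hQ hn p hneg (wordH Q [h.1.val *ᵥ v, v]) 1 one_ne_zero [h.1.val *ᵥ v, v] (by
    intro u hu
    simp only [List.mem_cons, List.not_mem_nil, or_false] at hu
    rcases hu with rfl | rfl
    · exact hQh0
    · exact hv) (by simp) (by rw [one_smul, wordH_val])).1 hinn
  simp only [List.map_cons, List.map_nil, List.prod_cons, List.prod_nil, mul_one] at hw
  obtain ⟨t, ht⟩ := hw
  rw [hQh] at ht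
  refine ⟨t / Q v, ?_⟩
  field_simp
  linear_combination ht

include hQ hn p in
/-- The class count for an improper involution when `-1 ∈ Ω`. -/
theorem count_neg (h2 : (2 : F) ≠ 0) (hcard : Fintype.card ι = 2 * m) (hP : IsClassSub hQ m P) (hneg : ∃ s : Cfsg.Omega F ⇑Q, (s.1.1 : GL ι F).val = -1)
    (a : P) (ha : ¬ IsSquare (mult hQ a.1 : F)) {g : Hs ⇑Q} (hg : g ∉ P) (hγ : conjHom ⇑Q g * conjHom ⇑Q g = 1) :
    Cfsg.splitClassCount (P.map (conjHom ⇑Q)) (Cfsg.Inn (Cfsg.POmega F ⇑Q)) (conjHom ⇑Q g) = 2 := by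
  rw [split_class hQ hn hP]
  set C := (Subgroup.centralizer {conjHom ⇑Q g}).comap ((conjHom ⇑Q).comp P.subtype) with hC
  set N := Nom P with hN
  set M := Msq hQ P with hM
  show (C ⊔ N).index = 2
  have hCM : C ≤ M := by
    rintro ⟨x, hx⟩ hxC
    rw [hM, mem_Msq]
    have h1 : conjHom ⇑Q x ∈ Subgroup.centralizer {conjHom ⇑Q g} := hxC
    have h3 := Subgroup.mem_centralizer_iff.1 h1 (conjHom ⇑Q g) rfl
    exact cent_sq hQ hn p h2 hcard hP hneg a ha hg hx h3.symm
  have hNM : N ≤ M := Nom_le_Msq hQ hn p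
  have hle : C ⊔ N ≤ M := sup_le hCM hNM
  have hNL : N ≤ C ⊔ N := le_sup_right
  have h1 := Subgroup.relIndex_mul_relIndex N (C ⊔ N) M hNL hle
  have h3 : N.relIndex M = 2 := relIndex_Nom hQ hn p h2 hP hneg
  rw [h3] at h1
  -- the element
  obtain ⟨c, hc0, hsq, hcc⟩ := exists_sq_scalar hQ hn p hγ
  have hcμ := sq_eq_mult hQ hP h2 hcard hg hc0 hsq hcc
  rw [hcμ] at hsq
  obtain ⟨u₁, u₂, hu₁, hu₂, hns, hcomm⟩ : ∃ a b, Q a ≠ 0 ∧ Q b ≠ 0 ∧ ¬ IsSquare (Q a * Q b) ∧ g * (reflH Q a * reflH Q b) * g⁻¹ = reflH Q a * reflH Q b := by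
    by_cases hμs : IsSquare (mult hQ g : F)
    · obtain ⟨t, ht⟩ := hμs
      have ht0 : t ≠ 0 := by
        rintro rfl
        exact (mult hQ g).ne_zero (by simpa using ht)
      rw [ht] at hsq
      exact exists_pair_sq hQ h2 hn ht0 ht hsq
    · exact exists_pair_nonsq hQ h2 hn hμs hsq
  have hvs₀ : ∀ u ∈ [u₁, u₂], Q u ≠ 0 := by
    intro u hu
    simp only [List.mem_cons, List.not_mem_nil, or_false] at hu
    rcases hu with rfl | rfl
    · exact hu₁
    · exact hu₂
  have hwv : (wordH Q [u₁, u₂]).1.val = (1 : F) • (([u₁, u₂] : List (ι → F)).map (fun v => Cfsg.reflectionMatrix ⇑Q v)).prod := by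
    rw [one_smul, wordH_val]
  have hwP : wordH Q [u₁, u₂] ∈ P := (hP.word _ 1 [u₁, u₂] one_ne_zero hvs₀ hwv).2 (by simp)
  have hwe : wordH Q [u₁, u₂] = reflH Q u₁ * reflH Q u₂ := by
    simp [wordH]
  have hwC : (⟨wordH Q [u₁, u₂], hwP⟩ : P) ∈ C := by
    rw [hC, Subgroup.mem_comap]
    refine Subgroup.mem_centralizer_iff.2 ?_
    rintro _ rfl
    show conjHom ⇑Q g * conjHom ⇑Q (wordH Q [u₁, u₂]) = conjHom ⇑Q (wordH Q [u₁, u₂]) * conjHom ⇑Q g
    rw [← map_mul, ← map_mul, hwe]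
    congr 1
    exact mul_inv_eq_iff_eq_mul.1 hcomm
  have hwN : (⟨wordH Q [u₁, u₂], hwP⟩ : P) ∉ N := by
    intro h5
    have h6 := (inn_iff_word hQ hn p hneg (wordH Q [u₁, u₂]) 1 one_ne_zero [u₁, u₂] hvs₀ (by simp) hwv).1 h5
    simp only [List.map_cons, List.map_nil, List.prod_cons, List.prod_nil, mul_one] at h6
    exact hns h6
  have h4 : N.relIndex (C ⊔ N) ≠ 1 := by
    intro h5
    exact hwN (Subgroup.relIndex_eq_one.1 h5 (Subgroup.mem_sup_left hwC))
  have h5 : N.relIndex (C ⊔ N) ∣ 2 := ⟨_, h1.symm⟩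
  have h6 : N.relIndex (C ⊔ N) = 2 := by
    rcases (Nat.dvd_prime Nat.prime_two).1 h5 with h | h
    · exact absurd h h4
    · exact h
  have h7 : (C ⊔ N).relIndex M = 1 := by
    rw [h6] at h1
    omega
  have h8 : M ≤ C ⊔ N := Subgroup.relIndex_eq_one.1 h7
  have h9 : C ⊔ N = M := le_antisymm hle h8
  rw [h9]
  exact index_Msq hQ h2 a ha

include hQ hn p in
/-- When `-1 ∉ Ω`, the similarities of square multiplier act through `Ω`. -/
theorem Msq_le_Nom_not_neg (h2 : (2 : F) ≠ 0) (hn7 : 7 ≤ Fintype.card ι) (hcard : Fintype.card ι = 2 * m) (hP : IsClassSub hQ m P)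
    (hneg : ¬ ∃ g : Cfsg.isometryGroup F ⇑Q, g ∈ Cfsg.Omega F ⇑Q ∧ ((g : GL ι F) : Matrix ι ι F) = -1) : Msq hQ P ≤ Nom P := by
  have hI : Cfsg.psoAut F ⇑Q ≤ Cfsg.Inn (Cfsg.POmega F ⇑Q) :=
    Subgroup.relIndex_eq_one.1 (relIndex_inn_pso_not_neg hQ p h2 hn7 hcard hneg)
  rintro ⟨x, hx⟩ hxM
  rw [mem_Msq] at hxM
  obtain ⟨t, ht⟩ := hxM
  have ht0 : t ≠ 0 := by
    rintro rfl
    exact (mult hQ x).ne_zero (by simpa using ht)
  obtain ⟨vs, hvs, hev, hw⟩ := exists_word_of_sq hQ hn hP x hx t ht0 ht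
  have hy : (wordH Q vs).1.val = (1 : F) • (vs.map (fun v => Cfsg.reflectionMatrix ⇑Q v)).prod := by
    rw [one_smul, wordH_val]
  have hyP : wordH Q vs ∈ P := (hP.word _ 1 vs one_ne_zero hvs hy).2 hev
  have hconj : conjHom ⇑Q x = conjHom ⇑Q (wordH Q vs) := conjHom_smul hQ hn p (wordH Q vs) x t ht0 (by
    rw [hw, wordH_val])
  show conjHom ⇑Q x ∈ Cfsg.Inn (Cfsg.POmega F ⇑Q)
  rw [hconj]
  apply hI
  rw [psoAut_eq]
  refine ⟨wordH Q vs, ?_, rfl⟩
  obtain ⟨W, hW⟩ := word_isometry (Q := Q) vs hvs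
  have hiso : (wordH Q vs).1 ∈ Cfsg.isometryGroup F ⇑Q := by
    have : (wordH Q vs).1 = W.1 := by
      apply Units.ext
      rw [wordH_val]
      exact hW.symm
    rw [this]
    exact W.2
  have hm1 : mult hQ (wordH Q vs) = 1 := by
    rw [← MonoidHom.mem_ker, mem_ker_mult hQ]
    exact hiso
  refine ⟨hiso, ?_⟩
  apply Units.ext
  show (wordH Q vs).1.val.det = 1
  rw [(hP.det h2 _).1 hyP, hm1]
  simp

include hQ hn p in
/-- The index of the `Ω`-part when `-1 ∉ Ω`. -/
theorem index_Nom_not_neg (h2 : (2 : F) ≠ 0) (hn7 : 7 ≤ Fintype.card ι) (hcard : Fintype.card ι = 2 * m) (hP : IsClassSub hQ m P)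
    (hneg : ¬ ∃ g : Cfsg.isometryGroup F ⇑Q, g ∈ Cfsg.Omega F ⇑Q ∧ ((g : GL ι F) : Matrix ι ι F) = -1)
    (a : P) (ha : ¬ IsSquare (mult hQ a.1 : F)) : (Nom P).index = 2 := by
  have h1 : Nom P = Msq hQ P := le_antisymm (Nom_le_Msq hQ hn p) (Msq_le_Nom_not_neg hQ hn p h2 hn7 hcard hP hneg)
  rw [h1]
  exact index_Msq hQ h2 a ha

include hQ hn p in
/-- The class count when `-1 ∉ Ω`: at most two. -/
theorem count_not_neg (h2 : (2 : F) ≠ 0) (hn7 : 7 ≤ Fintype.card ι) (hcard : Fintype.card ι = 2 * m) (hP : IsClassSub hQ m P)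
    (hneg : ¬ ∃ g : Cfsg.isometryGroup F ⇑Q, g ∈ Cfsg.Omega F ⇑Q ∧ ((g : GL ι F) : Matrix ι ι F) = -1)
    (a : P) (ha : ¬ IsSquare (mult hQ a.1 : F)) (x : MulAut (Cfsg.POmega F ⇑Q)) :
    Cfsg.splitClassCount (P.map (conjHom ⇑Q)) (Cfsg.Inn (Cfsg.POmega F ⇑Q)) x = 1 ∨
    Cfsg.splitClassCount (P.map (conjHom ⇑Q)) (Cfsg.Inn (Cfsg.POmega F ⇑Q)) x = 2 := by
  rw [split_class hQ hn hP]
  apply (Nat.dvd_prime Nat.prime_two).1
  rw [← index_Nom_not_neg hQ hn p h2 hn7 hcard hP hneg a ha]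
  exact Subgroup.index_dvd_of_le le_sup_right

end count

section plus

variable {F : Type u} [Field F] [Fintype F]

set_option maxHeartbeats 2000000 in
/-- **S2718**. -/
theorem main_plus_inv (hodd : Odd (Fintype.card F)) {m : ℕ} (hm : 4 ≤ m) (γ : MulAut (Cfsg.POmega F (Cfsg.quadFormPlus m F)))
    (hγ : Cfsg.IsSimilarityGraphAutPOmegaPlus m γ) (hγ2 : orderOf γ = 2) :
    (Cfsg.splitClassCount (Cfsg.inndiagPOmegaPlus m F) (Cfsg.Inn (Cfsg.POmega F (Cfsg.quadFormPlus m F))) γ = 1 ∨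
      Cfsg.splitClassCount (Cfsg.inndiagPOmegaPlus m F) (Cfsg.Inn (Cfsg.POmega F (Cfsg.quadFormPlus m F))) γ = 2) ∧
    (¬ (Odd m ∧ Fintype.card F % 4 = 3) →
      Cfsg.splitClassCount (Cfsg.inndiagPOmegaPlus m F) (Cfsg.Inn (Cfsg.POmega F (Cfsg.quadFormPlus m F))) γ = 2) := by
  classical
  obtain ⟨p, hp, hc⟩ := OmegaPGO3.exists_char (F := F)
  haveI := hp
  haveI := hc
  have h2 : (2 : F) ≠ 0 := OmegaPGO3.two_ne hodd
  have hQ := plusForm_nondeg (F := F) m
  have hcard := card_plus m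
  have hn : 5 ≤ Fintype.card (Fin m ⊕ Fin m) := by omega
  have hn7 : 7 ≤ Fintype.card (Fin m ⊕ Fin m) := by omega
  haveI : Nonempty (Fin m ⊕ Fin m) := ⟨.inl ⟨0, by omega⟩⟩
  haveI : Nontrivial (Fin m ⊕ Fin m → F) := inferInstance
  obtain ⟨g, hg, hnp, hi⟩ := hγ
  let ĝ : Hs ⇑(plusForm m F) := ⟨g, hg⟩
  have hĝ : conjHom ⇑(plusForm m F) ĝ = γ := ((induced_iff ĝ γ).1 hi).symm
  have hP := isClassSub_HpPlus (F := F) m
  have hĝP : ĝ ∉ HpPlus m F := fun h =>
    hnp ((preserves_iff_mem (plusForm_nondeg m) (finrank_total F m) (stdM_ts F m) (stdM_finrank F m) ĝ).2 h)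
  have hγ1 : γ ^ 2 = 1 := hγ2 ▸ pow_orderOf_eq_one γ
  have hsq : conjHom ⇑(plusForm m F) ĝ * conjHom ⇑(plusForm m F) ĝ = 1 :=
    (pow_two _).symm.trans ((congrArg (fun z => z ^ 2) hĝ).trans hγ1)
  obtain ⟨a, ha⟩ := exists_nonsq_plus m hn h2
  have hS := Cfsg.Agent.S0790.result rfl hodd m (by omega)
  rw [OmegaPGO3.plus_arith hodd] at hS
  rw [inndiag_plus_eq]
  subst hĝ
  by_cases hcase : Odd m ∧ Fintype.card F % 4 = 3
  · refine ⟨?_, fun h => absurd hcase h⟩
    have hneg : ¬ ∃ g : Cfsg.isometryGroup F ⇑(plusForm m F), g ∈ Cfsg.Omega F ⇑(plusForm m F) ∧ ((g : GL (Fin m ⊕ Fin m) F) : Matrix (Fin m ⊕ Fin m) (Fin m ⊕ Fin m) F) = -1 := by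
      intro h
      exact (hS.1 h) hcase
    exact count_not_neg hQ hn p h2 hn7 hcard hP hneg a ha _
  · have hneg : ∃ s : Cfsg.Omega F ⇑(plusForm m F), (s.1.1 : GL (Fin m ⊕ Fin m) F).val = -1 := by
      obtain ⟨g, hg, hg2⟩ := hS.2 hcase
      exact ⟨⟨g, hg⟩, hg2⟩
    have key := count_neg hQ hn p h2 hcard hP hneg a ha hĝP hsq
    exact ⟨Or.inr key, fun _ => key⟩

end plus

end Cfsg.Agent.Lib.Classical.OmegaGraphInv
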