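/-
Involutory graph automorphisms of `PΩ⁻_{2m+2}(q)`, `q` odd: the class count.
-/
import Mathlib
import Cfsg.Agent.Lib.Classical.OmegaGraphInv
import Cfsg.Agent.Lib.Classical.OmegaModel

set_option autoImplicit false
set_option linter.unusedSimpArgs false
set_option linter.unusedSectionVars false
set_option linter.style.haveILetI false
set_option linter.unusedVariables false
set_option linter.unnecessarySimpa false

namespace Cfsg.Agent.Lib.Classical.OmegaGraphInv2

open Module MulAction QuadraticMap Matrix Cfsg.Agent.Lib.Witt.Quadratic Cfsg.Agent.Lib.Orth.Refl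
open Cfsg.Agent.Lib.Orth.Gen Cfsg.Agent.Lib.OrthRefl.Eichler Cfsg.Agent.Lib.Classical.QuadEichler
open Cfsg.Agent.Lib.Classical.QuadEichSimple Cfsg.Agent.Lib.Classical.OmegaHP Cfsg.Agent.Lib.Classical.OmegaLocal
open Cfsg.Agent.Lib.Classical.OmegaRoot Cfsg.Agent.Lib.Classical.OmegaSemi Cfsg.Agent.Lib.Classical.OmegaConj
open Cfsg.Agent.Lib.Classical.OmegaBar Cfsg.Agent.Lib.Classical.OmegaAut Cfsg.Agent.Lib.Classical.OmegaCount
open Cfsg.Agent.Lib.Orth.Forms Cfsg.Agent.Lib.Classical.BinaryForms Cfsg.Agent.Lib.Classical.QuadEichBridge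
open Cfsg.Agent.Lib.Classical.OmegaForms Cfsg.Agent.Lib.Classical.OmegaOut Cfsg.Agent.Lib.Orth.Bridge
open Cfsg.Agent.Lib.Classical.MatrixBridge Cfsg.Agent.Lib.Classical.SympSimple
open Cfsg.Agent.Lib.Classical.OmegaPGO Cfsg.Agent.Lib.Classical.OmegaPGO2 Cfsg.Agent.Lib.Classical.OmegaFrob
open Cfsg.Agent.Lib.Classical.OmegaOutOdd Cfsg.Agent.Lib.KS71.Speiser Cfsg.Agent.Lib.Classical.OmegaDesc
open Cfsg.Agent.Lib.Classical.OmegaFieldOdd Cfsg.Agent.Lib.Classical.OmegaCent Cfsg.Agent.Lib.KS71.ClassSplit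
open Cfsg.Agent.Lib.Classical.OmegaFieldCount Cfsg.Agent.Lib.QuadFn.MaxSingular Cfsg.Agent.Lib.Orth.Parity
open Cfsg.Agent.Lib.Classical.OmegaClass Cfsg.Agent.Lib.Orth.HypBasis Cfsg.Agent.Lib.QuadFn.PlusForm
open Cfsg.Agent.Lib.Classical.OmegaType Cfsg.Agent.Lib.Classical.OmegaPlusConj Cfsg.Agent.Lib.Classical.OmegaCentF
open Cfsg.Agent.Lib.Classical.OmegaCross Cfsg.Agent.Lib.Classical.OmegaMinusP
open Cfsg.Agent.Lib.Classical.OmegaMinusConj
open Cfsg.Agent.Lib.Classical.OmegaLift Cfsg.Agent.Lib.Orth.Levi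
open Cfsg.Agent.Lib.Classical.OmegaQuadCount
open Cfsg.Agent.Lib.Classical.OmegaInvLin Cfsg.Agent.Lib.Classical.OmegaPlusOdd Cfsg.Agent.Lib.Classical.OmegaGF
open Cfsg.Agent.Lib.Classical.OmegaGraphInv Cfsg.Agent.Lib.Classical.OmegaModel
open scoped commutatorElement

universe u

section count

variable {F : Type u} [Field F] [Fintype F] {ι : Type} [Fintype ι] [DecidableEq ι] {Q : QuadraticForm F (ι → F)} [Nontrivial (ι → F)]
variable (hQ : (polarBilin Q).Nondegenerate) (hn : 5 ≤ Fintype.card ι) (p : ℕ) [hp : Fact p.Prime] [hc : CharP F p]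
variable {m : ℕ} {P : Subgroup (Hs ⇑Q)}

omit [Nontrivial (ι → F)] in
theorem linH_inj (x : Hs ⇑Q) {v : ι → F} (hv : linH x v = 0) : v = 0 := by
  have h1 : (x⁻¹ : Hs ⇑Q).1.val *ᵥ (x.1.val *ᵥ v) = v := by
    rw [Matrix.mulVec_mulVec, ← Units.val_mul]
    have : (x⁻¹ : Hs ⇑Q).1 * x.1 = 1 := by
      rw [← Subgroup.coe_mul, inv_mul_cancel]
      rfl
    rw [this]
    simp
  rw [← h1]
  have hv' : x.1.val *ᵥ v = 0 := hv
  rw [hv']
  simp

include hQ hn p in
/-- Elements commuting with an improper involution in even half-dimension have square multipliers, when `-1 ∉ Ω`. -/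
theorem cent_sq_even (h2 : (2 : F) ≠ 0) (hcard : Fintype.card ι = 2 * m) (hP : IsClassSub hQ m P) (hme : Even m)
    {g x : Hs ⇑Q} (hg : g ∉ P) (hγ : conjHom ⇑Q g * conjHom ⇑Q g = 1)
    (hcomm : conjHom ⇑Q x * conjHom ⇑Q g = conjHom ⇑Q g * conjHom ⇑Q x) : IsSquare (mult hQ x : F) := by
  classical
  obtain ⟨c, hc0, hsq, hcc⟩ := exists_sq_scalar hQ hn p hγ
  have hcμ := sq_eq_mult hQ hP h2 hcard hg hc0 hsq hcc
  rw [hcμ] at hsq
  set μ : F := (mult hQ g : F) with hμ
  have hμ0 : μ ≠ 0 := (mult hQ g).ne_zero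
  -- the multiplier is a square
  have hμs : IsSquare μ := by
    by_contra hns
    apply hg
    rw [hP.det h2, det_of_nonsq hQ h2 hcard hns hsq, hme.neg_pow]
  obtain ⟨t, ht⟩ := hμs
  have ht0 : t ≠ 0 := by
    rintro rfl
    exact hμ0 (by simpa using ht)
  rw [ht] at hsq
  have hsim : ∀ v, Q (linH g v) = t * t * Q v := by
    intro v
    rw [← ht]
    exact mult_spec hQ g v
  have hcompl := isCompl_Eig (linH g) h2 ht0 hsq
  have hdim := Submodule.finrank_add_eq_of_isCompl hcompl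
  have hfr : finrank F (ι → F) = Fintype.card ι := by simp
  rw [hfr, hcard] at hdim
  set k₁ := finrank F (Eig (linH g) t) with hk₁
  set k₂ := finrank F (Eig (linH g) (-t)) with hk₂
  have hdet := det_Eig (linH g) h2 ht0 hsq
  rw [det_linH, det_not_mem hQ hP h2 hcard hg] at hdet
  have hk₂odd : Odd k₂ := by
    by_contra hne
    rw [Nat.not_odd_iff_even] at hne
    rw [hne.neg_pow, ← pow_add, hdim, pow_mul, pow_two] at hdet
    have e : (mult hQ g : F) = t * t := ht
    rw [e] at hdet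
    have h3 : 2 * (t * t) ^ m = 0 := by
      linear_combination -hdet
    exact (mul_ne_zero h2 (pow_ne_zero _ (mul_ne_zero ht0 ht0))) h3
  have hk₁odd : Odd k₁ := by
    have h3 : k₁ = 2 * m - k₂ := by omega
    rw [Nat.odd_iff] at hk₂odd ⊢
    omega
  -- the sign
  have h1 : conjHom ⇑Q (x * g * x⁻¹ * g⁻¹) = 1 := by
    rw [map_mul, map_mul, map_mul, map_inv, map_inv, hcomm]
    group
  obtain ⟨ε, hε0, hε⟩ := (conjHom_eq_one_iff (p := p) hQ hn _).1 h1
  have hxg : ∀ v, linH x (linH g v) = ε • linH g (linH x v) := by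
    intro v
    have e : x * g = (x * g * x⁻¹ * g⁻¹) * (g * x) := by group
    have e2 : (x * g).1.val = ε • (g * x).1.val := by
      conv_lhs => rw [e]
      show ((x * g * x⁻¹ * g⁻¹).1 * (g * x).1 : GL ι F).val = _
      rw [Units.val_mul, hε, Matrix.smul_mul, Matrix.one_mul]
    have e3 : (x * g).1.val = x.1.val * g.1.val := rfl
    have e4 : (g * x).1.val = g.1.val * x.1.val := rfl
    rw [e3, e4] at e2
    show x.1.val *ᵥ (g.1.val *ᵥ v) = ε • (g.1.val *ᵥ (x.1.val *ᵥ v))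
    rw [Matrix.mulVec_mulVec, e2, Matrix.smul_mulVec, Matrix.mulVec_mulVec]
  have hε2 : ε * ε = 1 := by
    obtain ⟨v, hv⟩ := exists_ne (0 : ι → F)
    have h3 := hxg (linH g v)
    rw [hsq, map_smul, hxg, map_smul, hsq, smul_smul, smul_smul] at h3
    have h4 : (t * t - ε * ε * (t * t)) • linH x v = 0 := by
      rw [sub_smul, h3, sub_self]
    rcases smul_eq_zero.1 h4 with h5 | h5
    · have h6 : (t * t) * (1 - ε * ε) = 0 := by
        linear_combination h5
      have := (mul_eq_zero.1 h6).resolve_left (mul_ne_zero ht0 ht0)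
      exact (sub_eq_zero.1 this).symm
    · exact absurd (linH_inj x h5) hv
  have hxsim : ∀ v, Q (linH x v) = (mult hQ x : F) * Q v := fun v => mult_spec hQ x v
  rcases mul_self_eq_one_iff.1 hε2 with he | he
  · -- the eigenspaces are preserved
    have hmem : ∀ v ∈ Eig (linH g) t, linH x v ∈ Eig (linH g) t := by
      intro v hv
      rw [mem_Eig] at hv ⊢
      have h3 := hxg v
      rw [he, one_smul, hv, map_smul] at h3
      exact h3.symm
    have hnd := nondeg_Eig Q (linH g) h2 ht0 hsim hsq hQ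
    exact isSquare_of_odd_sim (Q.comp (Eig (linH g) t).subtype) hnd ((linH x).restrict hmem) (mult hQ x).ne_zero
      (fun v => hxsim v.1) hk₁odd
  · -- the eigenspaces are interchanged
    exfalso
    have hmem₁ : ∀ v ∈ Eig (linH g) t, linH x v ∈ Eig (linH g) (-t) := by
      intro v hv
      rw [mem_Eig] at hv ⊢
      have h3 := hxg v
      rw [he, hv, map_smul, neg_one_smul] at h3
      rw [neg_smul, h3, neg_neg]
    have hmem₂ : ∀ v ∈ Eig (linH g) (-t), linH x v ∈ Eig (linH g) t := by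
      intro v hv
      rw [mem_Eig] at hv ⊢
      have h3 := hxg v
      rw [he, hv, map_smul, neg_one_smul, neg_smul] at h3
      exact (neg_injective h3).symm
    have h3 : k₁ ≤ k₂ := by
      let f : Eig (linH g) t →ₗ[F] Eig (linH g) (-t) := ((linH x).comp (Eig (linH g) t).subtype).codRestrict _ (fun v => hmem₁ v.1 v.2)
      apply LinearMap.finrank_le_finrank_of_injective (f := f)
      intro u v huv
      have h4 : linH x (u.1 - v.1) = 0 := by
        rw [map_sub]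
        exact sub_eq_zero.2 (congrArg Subtype.val huv)
      exact Subtype.ext (sub_eq_zero.1 (linH_inj x h4))
    have h4 : k₂ ≤ k₁ := by
      let f : Eig (linH g) (-t) →ₗ[F] Eig (linH g) t := ((linH x).comp (Eig (linH g) (-t)).subtype).codRestrict _ (fun v => hmem₂ v.1 v.2)
      apply LinearMap.finrank_le_finrank_of_injective (f := f)
      intro u v huv
      have h4 : linH x (u.1 - v.1) = 0 := by
        rw [map_sub]
        exact sub_eq_zero.2 (congrArg Subtype.val huv)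
      exact Subtype.ext (sub_eq_zero.1 (linH_inj x h4))
    have h5 : k₂ = m := by omega
    rw [h5] at hk₂odd
    exact (Nat.not_even_iff_odd.2 hk₂odd) hme

include hQ hn p in
/-- The class count when `-1 ∉ Ω`, in even half-dimension. -/
theorem count_not_neg_even (h2 : (2 : F) ≠ 0) (hn7 : 7 ≤ Fintype.card ι) (hcard : Fintype.card ι = 2 * m) (hP : IsClassSub hQ m P)
    (hneg : ¬ ∃ g : Cfsg.isometryGroup F ⇑Q, g ∈ Cfsg.Omega F ⇑Q ∧ ((g : GL ι F) : Matrix ι ι F) = -1)
    (a : P) (ha : ¬ IsSquare (mult hQ a.1 : F)) (hme : Even m) {g : Hs ⇑Q} (hg : g ∉ P) (hγ : conjHom ⇑Q g * conjHom ⇑Q g = 1) :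
    Cfsg.splitClassCount (P.map (conjHom ⇑Q)) (Cfsg.Inn (Cfsg.POmega F ⇑Q)) (conjHom ⇑Q g) = 2 := by
  rw [split_class hQ hn hP]
  have h1 : Nom P = Msq hQ P := le_antisymm (Nom_le_Msq hQ hn p) (Msq_le_Nom_not_neg hQ hn p h2 hn7 hcard hP hneg)
  set C := (Subgroup.centralizer {conjHom ⇑Q g}).comap ((conjHom ⇑Q).comp P.subtype) with hC
  show (C ⊔ Nom P).index = 2
  have hCM : C ≤ Nom P := by
    rw [h1]
    rintro ⟨x, hx⟩ hxC
    rw [mem_Msq]
    have h3 : conjHom ⇑Q x ∈ Subgroup.centralizer {conjHom ⇑Q g} := hxC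
    have h4 := Subgroup.mem_centralizer_iff.1 h3 (conjHom ⇑Q g) rfl
    exact cent_sq_even hQ hn p h2 hcard hP hme hg hγ h4.symm
  rw [sup_eq_right.2 hCM]
  exact index_Nom_not_neg hQ hn p h2 hn7 hcard hP hneg a ha

end count

section norm

variable {F : Type u} [Field F] [Fintype F]

/-- Over a finite field, the norm to the fixed field of an involutory automorphism is surjective. -/
theorem exists_nrm_eq (σ : F ≃+* F) (hσ : orderOf σ = 2) {d : F} (hd : σ d = d) (hd0 : d ≠ 0) : ∃ e : F, e ≠ 0 ∧ e * σ e = d := by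
  classical
  letI : Fintype (Fx σ) := Fintype.ofFinite _
  have hcard : Fintype.card F = Fintype.card (Fx σ) ^ 2 := by
    have := card_Fx σ
    rw [hσ, Nat.card_eq_fintype_card] at this
    exact this
  have hfr : finrank (Fx σ) F = 2 := by
    have h1 := Module.card_eq_pow_finrank (K := Fx σ) (V := F)
    rw [hcard] at h1
    have h3 : 2 ≤ Fintype.card (Fx σ) := Fintype.one_lt_card
    exact (Nat.pow_right_injective h3 h1).symm
  obtain ⟨e, he⟩ := FiniteField.norm_surjective (Fx σ) F (⟨d, hd⟩ : Fx σ)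
  let τ : F ≃ₐ[Fx σ] F := AlgEquiv.ofRingEquiv (f := σ) (fun r => r.2)
  have hτ : τ ≠ 1 := by
    intro h
    have h1 : σ = 1 := by
      ext x
      have := DFunLike.congr_fun h x
      exact this
    rw [h1, orderOf_one] at hσ
    omega
  haveI : FiniteDimensional (Fx σ) F := inferInstance
  haveI : IsGalois (Fx σ) F := inferInstance
  have hcardAut : Fintype.card (F ≃ₐ[Fx σ] F) = 2 := by
    rw [← hfr, ← Nat.card_eq_fintype_card]
    exact IsGalois.card_aut_eq_finrank _ _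
  have huniv : (Finset.univ : Finset (F ≃ₐ[Fx σ] F)) = {1, τ} := by
    symm
    apply Finset.eq_univ_of_card
    rw [Finset.card_pair hτ.symm, hcardAut]
  have h1 := Algebra.norm_eq_prod_automorphisms (Fx σ) e
  rw [huniv, Finset.prod_pair hτ.symm, he] at h1
  refine ⟨e, ?_, h1.symm⟩
  rintro rfl
  apply hd0
  have h3 : (1 : F ≃ₐ[Fx σ] F) 0 * τ 0 = 0 := by simp
  rw [h3] at h1
  exact h1

end norm

section noinv

variable {F : Type u} [Field F] [Fintype F] {ι : Type} [Fintype ι] [DecidableEq ι] {Q : QuadraticForm F (ι → F)} [Nontrivial (ι → F)]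
variable (hQ : (polarBilin Q).Nondegenerate) (hn : 5 ≤ Fintype.card ι) (p : ℕ) [hp : Fact p.Prime] [hc : CharP F p]

include hQ hn p in
/-- If there is no Lagrangian, no semisimilarity with an involutory field automorphism induces an involution. -/
theorem no_semi_inv {k : ℕ} (hcard : Fintype.card ι = 2 * (k + 1)) (hL : ¬ ∃ U : Submodule F (ι → F), TS (⇑Q) U ∧ finrank F U = k + 1)
    {T : SemiEl Q} {σ : F ≃+* F} {l : F} (H : Semi Q T.1 σ l) (hσ : orderOf σ = 2) (hT : conjS hQ hn T * conjS hQ hn T = 1) : False := by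
  rw [← map_mul, conjS_eq_one_iff hQ hn p] at hT
  obtain ⟨d, hd0, hd⟩ := hT
  have hd' : ∀ x, T.1 (T.1 x) = d • x := hd
  have hσd : σ d = d := by
    obtain ⟨x, hx⟩ := exists_ne (0 : ι → F)
    have h1 := hd' (T.1 x)
    rw [hd' x, H.smul] at h1
    have h3 : (σ d - d) • T.1 x = 0 := by
      rw [sub_smul, h1, sub_self]
    have h4 : T.1 x ≠ 0 := by
      intro h5
      exact hx ((map_eq_zero_iff T.1 T.1.injective).1 h5)
    exact sub_eq_zero.1 ((smul_eq_zero.1 h3).resolve_right h4)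
  obtain ⟨e, he0, he⟩ := exists_nrm_eq σ hσ (d := d⁻¹) (by rw [map_inv₀, hσd]) (inv_ne_zero hd0)
  -- the normalised element
  let T' : SemiEl Q := scS' e he0 * T
  have hT'x : ∀ x, T'.1 x = e • T.1 x := fun x => rfl
  have H' : Semi Q T'.1 σ (e * e * l) := by
    refine ⟨fun c x => ?_, fun x => ?_, mul_ne_zero (mul_ne_zero he0 he0) H.ne⟩
    · rw [hT'x, hT'x, H.smul, smul_comm]
    · rw [hT'x, QuadraticMap.map_smul, H.Q_eq, smul_eq_mul]
      ring
  have hT'2 : T' ^ 2 = 1 := by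
    apply Subtype.ext
    ext x i
    have h1 : (T' ^ 2).1 x = T'.1 (T'.1 x) := by
      rw [pow_two]
      rfl
    have h3 : T'.1 (T'.1 x) = x := by
      rw [hT'x, hT'x, H.smul, hd', smul_smul, smul_smul, he, inv_mul_cancel₀ hd0, one_smul]
    rw [h1, h3]
    rfl
  obtain ⟨k₀, b, D⟩ := exists_desc hQ H' hσ (by norm_num) hT'2
  have hnd := descend_nondeg _ D.stable (twistForm_nondeg hQ k₀ D.b_ne)
  by_cases hU : ∃ U₀ : Submodule (Fx σ) (ι → Fx σ), TS (⇑(descend (twistForm Q k₀ b) D.stable)) U₀ ∧ finrank (Fx σ) U₀ = k + 1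
  · obtain ⟨U₀, h1, h3⟩ := hU
    obtain ⟨W, hW, hWm, -⟩ := stable_of_lagr hQ H' D (m := k + 1) hcard hnd h1 h3
    exact hL ⟨W, hW, hWm⟩
  · obtain ⟨U, hU₁, hU₂, -⟩ := neighbour_of_elliptic hQ H' D hcard hnd hσ hU
    exact hL ⟨U, hU₁, hU₂⟩

end noinv

section minus

variable {F : Type u} [Field F] [Fintype F]

set_option maxHeartbeats 2000000 in
/-- **S2719**. -/
theorem main_minus_inv (hodd : Odd (Fintype.card F)) {m : ℕ} (hm : 3 ≤ m) (a b : F)
    (hab : ∀ z₁ z₂ : F, z₁ ^ 2 + a * z₁ * z₂ + b * z₂ ^ 2 = 0 → z₁ = 0 ∧ z₂ = 0)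
    (γ : MulAut (Cfsg.POmega F (Cfsg.quadFormMinus m F a b))) (hγ : Cfsg.IsGraphAutClassPOmegaMinus m a b γ) (hγ2 : orderOf γ = 2) :
    (Cfsg.splitClassCount (Cfsg.inndiagPOmegaMinus m F a b) (Cfsg.Inn (Cfsg.POmega F (Cfsg.quadFormMinus m F a b))) γ = 1 ∨
      Cfsg.splitClassCount (Cfsg.inndiagPOmegaMinus m F a b) (Cfsg.Inn (Cfsg.POmega F (Cfsg.quadFormMinus m F a b))) γ = 2) ∧
    (¬ (Even m ∧ Fintype.card F % 4 = 1) →
      Cfsg.splitClassCount (Cfsg.inndiagPOmegaMinus m F a b) (Cfsg.Inn (Cfsg.POmega F (Cfsg.quadFormMinus m F a b))) γ = 2) := by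
  classical
  obtain ⟨p, hp, hc⟩ := OmegaPGO3.exists_char (F := F)
  haveI := hp
  haveI := hc
  have h2 : (2 : F) ≠ 0 := OmegaPGO3.two_ne hodd
  have hQ := minusForm_nondeg (F := F) m hab
  have hcard := card_minus' (k := m)
  have hn : 5 ≤ Fintype.card ((Fin m ⊕ Fin m) ⊕ Fin 2) := by omega
  have hn7 : 7 ≤ Fintype.card ((Fin m ⊕ Fin m) ⊕ Fin 2) := by omega
  have hn' : 5 ≤ 2 * m + 2 := by omega
  haveI : Nonempty ((Fin m ⊕ Fin m) ⊕ Fin 2) := ⟨.inr 0⟩
  haveI : Nontrivial ((Fin m ⊕ Fin m) ⊕ Fin 2 → F) := inferInstance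
  have hP := isClassSub_Pm hn' hab
  have hL := no_lagr_minus (k := m) hab
  obtain ⟨hγmem, hγn, -⟩ := hγ
  have hγ1 : γ ^ 2 = 1 := by
    have h := pow_orderOf_eq_one γ
    rw [hγ2] at h
    exact h
  -- the semisimilarity
  obtain ⟨T, hT⟩ := conjS_surjective hQ hn p hn7 (noSolid_minus hab) γ
  have hTT : conjS hQ hn T * conjS hQ hn T = 1 :=
    (pow_two _).symm.trans ((congrArg (fun z => z ^ 2) hT).trans hγ1)
  obtain ⟨σ, l, H⟩ := T.2
  have hσ : σ = RingEquiv.refl F := by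
    by_contra hσ1
    have h3 := hTT
    rw [← map_mul, conjS_eq_one_iff hQ hn p] at h3
    obtain ⟨d, hd0, hd⟩ := h3
    have hsq : σ * σ = 1 := by
      have h4 : Semi (minusForm m F a b) (T * T).1 (RingEquiv.refl F) (d * d) := by
        refine ⟨fun c x => ?_, fun x => ?_, mul_ne_zero hd0 hd0⟩
        · rw [hd, hd, smul_comm]
          rfl
        · rw [hd, QuadraticMap.map_smul, smul_eq_mul]
          rfl
      have h5 : Semi (minusForm m F a b) (T * T).1 (σ * σ) (l * σ l) := by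
        refine ⟨fun c x => ?_, fun x => ?_, mul_ne_zero H.ne (fun h => H.ne (σ.map_eq_zero_iff.1 h))⟩
        · show T.1 (T.1 (c • x)) = (σ (σ c)) • T.1 (T.1 x)
          rw [H.smul, H.smul]
        · show minusForm m F a b (T.1 (T.1 x)) = l * σ l * σ (σ _)
          rw [H.Q_eq, H.Q_eq, map_mul]
          ring
      exact Semi.theta_unique h5 h4
    have hord : orderOf σ = 2 := by
      apply orderOf_eq_prime (p := 2)
      · rw [pow_two, hsq]
      · exact hσ1
    exact no_semi_inv hQ hn p hcard hL H hord hTT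
  subst hσ
  obtain ⟨ĝ, hĝ1, -⟩ := exists_Hs_of_semi hQ H
  have hĝT : toSemi _ ĝ = T := by
    apply Subtype.ext
    ext x i
    exact congrFun (hĝ1 x) i
  have hĝ : conjHom ⇑(minusForm m F a b) ĝ = γ := by
    rw [← conjS_toSemi hQ hn, hĝT]
    exact hT
  have hĝP : ĝ ∉ Pm hn' hab := by
    intro h
    apply hγn
    rw [inndiag_minus_eq' hn' hab]
    exact ⟨ĝ, h, hĝ⟩
  have hsq : conjHom ⇑(minusForm m F a b) ĝ * conjHom ⇑(minusForm m F a b) ĝ = 1 :=
    (pow_two _).symm.trans ((congrArg (fun z => z ^ 2) hĝ).trans hγ1)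
  -- a non-square multiplier
  obtain ⟨a₀, ha₀⟩ : ∃ a₀ : Pm hn' hab, ¬ IsSquare (mult hQ a₀.1 : F) := by
    have hch : ringChar F ≠ 2 := by
      intro h
      apply h2
      have := ringChar.spec F 2
      exact_mod_cast this.2 (by rw [h])
    obtain ⟨δ, hδ⟩ := FiniteField.exists_nonsquare hch
    have hδ0 : δ ≠ 0 := by
      rintro rfl
      exact hδ IsSquare.zero
    obtain ⟨g₀, hg₀⟩ := semi_minus_mult (k := m) hab δ hδ0
    obtain ⟨g₁, -, h3⟩ := exists_Hs_of_semi hQ hg₀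
    obtain ⟨g', hg', h4⟩ := exists_mult_class hQ hn hP hcard g₁
    refine ⟨⟨g', hg'⟩, ?_⟩
    show ¬ IsSquare (mult hQ g' : F)
    rw [h4, h3]
    exact hδ
  have hS := OmegaPGO3.neg_minus_iff (m := m) hodd hab
  rw [OmegaPGO3.minus_arith hodd] at hS
  rw [inndiag_minus_eq' hn' hab]
  subst hĝ
  by_cases hcase : Even m ∧ Fintype.card F % 4 = 3
  · have hneg : ∃ s : Cfsg.Omega F ⇑(minusForm m F a b), (s.1.1 : GL ((Fin m ⊕ Fin m) ⊕ Fin 2) F).val = -1 := by
      obtain ⟨g, hg, hg2⟩ := hS.2 hcase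
      exact ⟨⟨g, hg⟩, hg2⟩
    have key := count_neg hQ hn p h2 hcard hP hneg a₀ ha₀ hĝP hsq
    exact ⟨Or.inr key, fun _ => key⟩
  · have hneg : ¬ ∃ g : Cfsg.isometryGroup F ⇑(minusForm m F a b), g ∈ Cfsg.Omega F ⇑(minusForm m F a b) ∧ ((g : GL ((Fin m ⊕ Fin m) ⊕ Fin 2) F) : Matrix ((Fin m ⊕ Fin m) ⊕ Fin 2) ((Fin m ⊕ Fin m) ⊕ Fin 2) F) = -1 := by
      intro h
      exact hcase (hS.1 h)
    refine ⟨count_not_neg hQ hn p h2 hn7 hcard hP hneg a₀ ha₀ _, fun hc2 => ?_⟩
    have hodd4 : Fintype.card F % 4 = 1 ∨ Fintype.card F % 4 = 3 := by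
      rw [Nat.odd_iff] at hodd
      omega
    have hmo : Odd m := by
      by_contra h
      rw [Nat.not_odd_iff_even] at h
      rcases hodd4 with h5 | h5
      · exact hc2 ⟨h, h5⟩
      · exact hcase ⟨h, h5⟩
    exact count_not_neg_even hQ hn p h2 hn7 hcard hP hneg a₀ ha₀ hmo.add_one hĝP hsq

end minus

end Cfsg.Agent.Lib.Classical.OmegaGraphInv2
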