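/-
Field automorphisms of `PΩ⁻` of prime order (S2716).
-/
import Mathlib
import Cfsg.Agent.Lib.Classical.OmegaLift

set_option autoImplicit false
set_option linter.unusedSimpArgs false
set_option linter.unusedSectionVars false
set_option linter.style.haveILetI false
set_option linter.unusedVariables false

namespace Cfsg.Agent.Lib.Classical.OmegaMinusField



open Module MulAction QuadraticMap Matrix Cfsg.Agent.Lib.Witt.Quadratic Cfsg.Agent.Lib.Orth.Refl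
open Cfsg.Agent.Lib.Orth.Gen Cfsg.Agent.Lib.OrthRefl.Eichler Cfsg.Agent.Lib.Classical.QuadEichler
open Cfsg.Agent.Lib.Classical.QuadEichSimple Cfsg.Agent.Lib.Classical.OmegaHP Cfsg.Agent.Lib.Classical.OmegaLocal
open Cfsg.Agent.Lib.Classical.OmegaRoot Cfsg.Agent.Lib.Classical.OmegaSemi Cfsg.Agent.Lib.Classical.OmegaConj
open Cfsg.Agent.Lib.Classical.OmegaBar Cfsg.Agent.Lib.Classical.OmegaAut Cfsg.Agent.Lib.Classical.OmegaCount
open Cfsg.Agent.Lib.Orth.Forms Cfsg.Agent.Lib.Classical.BinaryForms Cfsg.Agent.Lib.Classical.QuadEichBridge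
open Cfsg.Agent.Lib.Classical.OmegaForms Cfsg.Agent.Lib.Classical.OmegaOut Cfsg.Agent.Lib.Orth.Bridge
open Cfsg.Agent.Lib.Classical.MatrixBridge Cfsg.Agent.Lib.Classical.SympSimple
open Cfsg.Agent.Lib.Classical.OmegaPGO Cfsg.Agent.Lib.Classical.OmegaPGO2 Cfsg.Agent.Lib.Classical.OmegaFrob
open Cfsg.Agent.Lib.Classical.OmegaOutOdd Cfsg.Agent.Lib.KS71.Speiser Cfsg.Agent.Lib.Classical.OmegaDesc
open Cfsg.Agent.Lib.Classical.OmegaFieldOdd Cfsg.Agent.Lib.Classical.OmegaCent Cfsg.Agent.Lib.KS71.ClassSplit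
open Cfsg.Agent.Lib.Classical.OmegaFieldCount Cfsg.Agent.Lib.QuadFn.MaxSingular Cfsg.Agent.Lib.Orth.Parity
open Cfsg.Agent.Lib.Classical.OmegaClass Cfsg.Agent.Lib.Orth.HypBasis Cfsg.Agent.Lib.QuadFn.PlusForm
open Cfsg.Agent.Lib.Classical.OmegaType Cfsg.Agent.Lib.Classical.OmegaPlusConj Cfsg.Agent.Lib.Classical.OmegaCentF
open Cfsg.Agent.Lib.Classical.OmegaCross Cfsg.Agent.Lib.Classical.OmegaMinusP
open Cfsg.Agent.Lib.Classical.OmegaMinusConj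
open Cfsg.Agent.Lib.Classical.OmegaLift
open scoped commutatorElement

universe u v

section minus

variable {F : Type u} [Field F] [Fintype F] {F₀ : Type v} [Field F₀] [Fintype F₀] {k : ℕ} {a b : F}

/-- **S2716**. -/
theorem main_field (p f : ℕ) [hp : Fact p.Prime] (hF : Fintype.card F = p ^ f) (hf : 1 ≤ f) (hk : 3 ≤ k)
    (hab : ∀ z₁ z₂ : F, z₁ ^ 2 + a * z₁ * z₂ + b * z₂ ^ 2 = 0 → z₁ = 0 ∧ z₂ = 0)
    (x : MulAut (Cfsg.POmega F (Cfsg.quadFormMinus k F a b))) (hx : Cfsg.IsFieldAutClassPOmegaMinus k x) {r : ℕ} (hr : r.Prime) (hxr : orderOf x = r)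
    (hF₀ : Fintype.card F₀ = p ^ (f / r)) :
    Odd r ∧ r ∣ f ∧ (∃ a₀ b₀ : F₀, (∀ z₁ z₂ : F₀, z₁ ^ 2 + a₀ * z₁ * z₂ + b₀ * z₂ ^ 2 = 0 → z₁ = 0 ∧ z₂ = 0) ∧
      Nonempty (↥(Cfsg.inndiagPOmegaMinus k F a b ⊓ Subgroup.centralizer {x}) ≃* ↥(Cfsg.inndiagPOmegaMinus k F₀ a₀ b₀))) ∧
      Cfsg.splitClassCount (Cfsg.inndiagPOmegaMinus k F a b) (Cfsg.Inn (Cfsg.POmega F (Cfsg.quadFormMinus k F a b))) x = 1 := by
  classical
  haveI hc : CharP F p := charP_of_card_eq_prime_pow hF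
  have hn : 5 ≤ Fintype.card ((Fin k ⊕ Fin k) ⊕ Fin 2) := by
    rw [card_minus']
    omega
  have hQ := minusForm_nondeg (F := F) k hab
  have hn' : 5 ≤ 2 * k + 2 := by omega
  obtain ⟨a', b', σ, T₀, l₀, v, c, hab', hσ1, hσa, hσb, hσr, H₀, hconj, hT₀, hv, hQv⟩ := exists_data p hk hab x hx hxr hn
  have hodd : Odd r := by
    rcases hr.eq_two_or_odd' with h | h
    · exfalso
      subst h
      have ha'' : a' ∈ Fx σ := hσa
      have hb'' : b' ∈ Fx σ := hσb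
      obtain ⟨ρ, hρ, -⟩ := exists_root_two (σ := σ) hσr (a₀ := ⟨a', ha''⟩) (b₀ := ⟨b', hb''⟩) (by
        intro z₁ z₂ hz
        have h1 := hab' z₁ z₂ (by
          have := congrArg (fun t : Fx σ => (t : F)) hz
          simpa using this)
        exact ⟨Subtype.ext h1.1, Subtype.ext h1.2⟩)
      have h2 := hab' ρ 1 (by
        simp only at hρ
        linear_combination hρ)
      exact one_ne_zero h2.2
    · exact h
  have hrf : r ∣ f := by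
    rw [← hσr]
    exact Cfsg.Agent.Lib.KS71.PSLCent.order_dvd hF hf σ
  obtain ⟨ε, hε⟩ := Cfsg.Agent.Lib.KS71.PSLCent.exists_embed hF hf σ (F₀ := F₀) (by rw [hσr]; exact hF₀)
  have hfr0 : f / r ≠ 0 := by
    have := Nat.div_pos (Nat.le_of_dvd (by omega) hrf) hr.pos
    omega
  haveI hcp₀ : CharP F₀ p := charP_of_card_eq_prime_pow hF₀
  obtain ⟨k₀, β, D⟩ := exists_desc hQ H₀ hσr hr.pos hT₀
  have hnd := descend_nondeg _ D.stable (twistForm_nondeg hQ k₀ D.b_ne)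
  have hL : ¬ ∃ U₀ : Submodule (Fx σ) ((Fin k ⊕ Fin k) ⊕ Fin 2 → Fx σ), TS (⇑(descend (twistForm (minusForm k F a b) k₀ β) D.stable)) U₀ ∧ finrank (Fx σ) U₀ = k + 1 := by
    rintro ⟨U₀, h1, h2⟩
    obtain ⟨W, hW, hWm, -⟩ := stable_of_lagr hQ H₀ D (m := k + 1) (card_minus' k) hnd h1 h2
    exact no_lagr_minus hab ⟨W, hW, hWm⟩
  obtain ⟨a₁, b₁, K, hab₁, hform, hT⟩ := exists_minus_model hQ H₀ D (card_minus' k) hnd hL
  obtain ⟨a₀, ha₀⟩ := (hε (a₁ : F)).1 a₁.2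
  obtain ⟨b₀, hb₀⟩ := (hε (b₁ : F)).1 b₁.2
  have hab₀ : ∀ z₁ z₂ : F₀, z₁ ^ 2 + a₀ * z₁ * z₂ + b₀ * z₂ ^ 2 = 0 → z₁ = 0 ∧ z₂ = 0 := by
    intro z₁ z₂ hz
    have hm : ∀ z : F₀, ε z ∈ Fx σ := fun z => (hε _).2 ⟨z, rfl⟩
    have h1 := hab₁ ⟨ε z₁, hm z₁⟩ ⟨ε z₂, hm z₂⟩ (by
      apply Subtype.ext
      have := congrArg ε hz
      simp only [map_add, map_mul, map_pow, map_zero, ha₀, hb₀] at this
      simpa using this)
    constructor
    · exact (map_eq_zero ε).1 (congrArg Subtype.val h1.1)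
    · exact (map_eq_zero ε).1 (congrArg Subtype.val h1.2)
  have hQ₀ := minusForm_nondeg (F := F₀) k hab₀
  have hcK : ∀ y : (Fin k ⊕ Fin k) ⊕ Fin 2 → F₀, β * minusForm k F a b (K (mapV ε y)) = ε (minusForm k F₀ a₀ b₀ y) := by
    intro y
    rw [hform, ← mapV_minus k ε a₀ b₀ y, ha₀, hb₀]
  have hn'₀ : 5 ≤ 2 * k + 2 := hn'
  have hP := isClassSub_Pm (F := F) (a := a) (b := b) hn' hab
  have hP₀ := isClassSub_Pm (F := F₀) (a := a₀) (b := b₀) hn' hab₀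
  subst hconj
  rw [inndiag_minus_eq' hn' hab]
  refine ⟨hodd, hrf, ⟨a₀, b₀, hab₀, ?_⟩, ?_⟩
  · rw [inndiag_minus_eq' hn' hab₀]
    have e1 : ∀ g, g ∈ Pm hn' hab₀ ↔ liftH ε K β hcK D.b_ne g ∈ Pm hn' hab :=
      fun g => lift_mem_iff ε K β hcK D.b_ne hQ hQ₀ hn hP hP₀ g
    have e2 : ∀ (d : F) (hd : d ≠ 0) (g g' : Hs ⇑(minusForm k F a b)), g'.1.val = d • g.1.val → (g ∈ Pm hn' hab ↔ g' ∈ Pm hn' hab) :=
      fun d hd g g' h => class_smul hQ hn hP (card_minus' k) d hd g g' h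
    have e3 := cent_equiv' ε K β hcK D.b_ne σ hε T₀ hT hQ hQ₀ hn p hn (Pm hn' hab) (Pm hn' hab₀) e1 e2
    exact e3
  · refine count_one ε K β hcK D.b_ne σ hε T₀ hT hQ hQ₀ hn hn p hP hP₀ (card_minus' k) ?_ ?_
    · intro t ht
      obtain ⟨g, hg⟩ := semi_minus_mult (k := k) hab₀ t ht
      obtain ⟨ĝ, -, h2⟩ := exists_Hs_of_semi hQ₀ hg
      exact ⟨ĝ, h2⟩
    · intro h2 s hs0 hs
      refine not_isSquare_of_odd ε σ hε hodd ?_ h2 hs0 hs
      rw [← hσr]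
      exact pow_orderOf_eq_one σ

end minus

end Cfsg.Agent.Lib.Classical.OmegaMinusField
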