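/-
Spinor norms through the Wall form: alternating forms have square discriminant, and the spinor class of a "unitary" element
`y y'⁻¹` on a non-degenerate subspace is the class of `det y`.
-/
import Mathlib
import Cfsg.Agent.Lib.Orth.Spin

set_option autoImplicit false
set_option linter.unusedSimpArgs false
set_option linter.unusedSectionVars false
set_option linter.style.haveILetI false
set_option linter.unusedVariables false

namespace Cfsg.Agent.Lib.Classical.OmegaSSLin

open Module QuadraticMap LinearMap.BilinForm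

universe u

section alt

variable {F : Type u} [Field F]

/-- The Gram determinant of a non-degenerate alternating form is a square. -/
theorem alt_det_sq : ∀ (n : ℕ) (V : Type u) [AddCommGroup V] [Module F V] [FiniteDimensional F V]
    (C : LinearMap.BilinForm F V) (hC : C.Nondegenerate) (hA : C.IsAlt), finrank F V = n →
    ∀ {ι : Type} [Fintype ι] [DecidableEq ι] (b : Basis ι F V), IsSquare (toMatrix b C).det := by
  intro n
  induction n using Nat.strong_induction_on with
  | _ n ih =>
    intro V _ _ _ C hC hA hn ι _ _ b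
    rcases Nat.eq_zero_or_pos n with rfl | hpos
    · have hι : IsEmpty ι := by
        have h1 := finrank_eq_card_basis b
        rw [hn] at h1
        exact Fintype.card_eq_zero_iff.1 h1.symm
      rw [Matrix.det_isEmpty]
      exact IsSquare.one
    haveI : Nontrivial V := Module.nontrivial_of_finrank_pos (R := F) (by omega)
    obtain ⟨e, he⟩ := exists_ne (0 : V)
    have hCsymm : ∀ x y, C x y = - C y x := fun x y => (hA.neg_eq y x).symm
    -- the partner
    obtain ⟨f, hef⟩ : ∃ f, C e f = 1 := by
      by_contra hall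
      push Not at hall
      have h0 : ∀ y, C e y = 0 := by
        intro y
        by_contra h
        apply hall ((C e y)⁻¹ • y)
        rw [map_smul, smul_eq_mul, inv_mul_cancel₀ h]
      exact he (hC.1 e h0)
    have hfe : C f e = -1 := by
      rw [hCsymm, hef]
    have hee : C e e = 0 := hA e
    have hff : C f f = 0 := hA f
    have hrefl : C.IsRefl := hA.isRefl
    set P : Submodule F V := Submodule.span F (Set.range ![e, f]) with hP
    have hmemP : ∀ x, x ∈ P ↔ ∃ α β : F, α • e + β • f = x := by
      intro x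
      rw [hP, Matrix.range_cons, Matrix.range_cons, Matrix.range_empty, Set.union_empty, ← Set.insert_eq]
      exact Submodule.mem_span_pair
    set W : Submodule F V := C.orthogonal P with hW
    have hmemW : ∀ x, x ∈ W ↔ C e x = 0 ∧ C f x = 0 := by
      intro x
      constructor
      · intro h
        exact ⟨h e (Submodule.subset_span ⟨0, rfl⟩), h f (Submodule.subset_span ⟨1, rfl⟩)⟩
      · rintro ⟨h1, h3⟩ y hy
        obtain ⟨α, β, rfl⟩ := (hmemP y).1 hy
        show C (α • e + β • f) x = 0
        simp [h1, h3]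
    have hdisj : Disjoint P W := by
      rw [Submodule.disjoint_def]
      intro x hx hx'
      obtain ⟨α, β, rfl⟩ := (hmemP x).1 hx
      obtain ⟨h1, h3⟩ := (hmemW _).1 hx'
      simp only [map_add, map_smul, smul_eq_mul, hee, hef, hfe, hff, mul_one, mul_zero, zero_add, add_zero] at h1 h3
      have hα : α = 0 := by
        have := h3
        linear_combination -this
      subst h1
      subst hα
      simp
    have hcompl : IsCompl P W := (isCompl_orthogonal_iff_disjoint hrefl).2 hdisj
    have hli : LinearIndependent F ![e, f] := by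
      rw [LinearIndependent.pair_iff]
      intro α β hab
      have h1 := congrArg (C e) hab
      have h3 := congrArg (C f) hab
      simp only [map_add, map_smul, smul_eq_mul, hee, hef, hfe, hff, mul_one, mul_zero, zero_add, add_zero, map_zero] at h1 h3
      constructor
      · linear_combination -h3
      · exact h1
    have hrank : finrank F P = 2 := by
      rw [hP, finrank_span_eq_card hli]
      simp
    have hrank2 : finrank F P + finrank F W = n := by
      rw [Submodule.finrank_add_eq_of_isCompl hcompl, hn]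
    -- the restriction
    let C' : LinearMap.BilinForm F W := C.restrict W
    have hC' : C'.Nondegenerate := by
      have key : ∀ x : W, (∀ y : W, C x.1 y.1 = 0) → x = 0 := by
        intro x hx
        apply Subtype.ext
        apply hC.1 x.1
        intro z
        have hz : z ∈ P ⊔ W := by
          rw [hcompl.sup_eq_top]
          trivial
        obtain ⟨p, hp, y, hy, rfl⟩ := Submodule.mem_sup.1 hz
        rw [map_add]
        have h1 : C p x.1 = 0 := x.2 p hp
        have h3 := hx ⟨y, hy⟩
        rw [hCsymm, h1, h3]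
        simp
      constructor
      · intro x hx
        exact key x hx
      · intro x hx
        apply key x
        intro y
        rw [hCsymm]
        have : C y.1 x.1 = 0 := hx y
        rw [this]
        simp
    have hA' : C'.IsAlt := fun x => hA x.1
    have hsqW := ih (finrank F W) (by omega) W C' hC' hA' rfl (finBasis F W)
    -- the basis
    let bP : Basis (Fin 2) F P := Basis.span hli
    have hb0 : (bP 0 : V) = e := congrArg Subtype.val (Basis.span_apply hli 0)
    have hb1 : (bP 1 : V) = f := congrArg Subtype.val (Basis.span_apply hli 1)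
    let eq : (P × W) ≃ₗ[F] V := Submodule.prodEquivOfIsCompl P W hcompl
    let B₀ : Basis (Fin 2 ⊕ Fin (finrank F W)) F V := (bP.prod (finBasis F W)).map eq
    have hB₀l : ∀ i, B₀ (Sum.inl i) = (bP i : V) := by
      intro i
      simp [B₀, eq]
    have hB₀r : ∀ i, B₀ (Sum.inr i) = (finBasis F W i : V) := by
      intro i
      simp [B₀, eq]
    have hcross : ∀ (p : P) (y : W), C p.1 y.1 = 0 := fun p y => y.2 p.1 p.2
    have hG : toMatrix B₀ C = Matrix.fromBlocks !![0, 1; -1, 0] 0 0 (toMatrix (finBasis F W) C') := by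
      ext s t
      rw [toMatrix_apply]
      rcases s with i | i <;> rcases t with j | j
      · rw [hB₀l, hB₀l, Matrix.fromBlocks_apply₁₁]
        fin_cases i <;> fin_cases j <;> simp [hb0, hb1, hee, hef, hfe, hff]
      · rw [hB₀l, hB₀r, Matrix.fromBlocks_apply₁₂, hcross]
        rfl
      · rw [hB₀r, hB₀l, Matrix.fromBlocks_apply₂₁, hCsymm, hcross]
        simp
      · rw [hB₀r, hB₀r, Matrix.fromBlocks_apply₂₂, toMatrix_apply]
        rfl
    have hdet : (toMatrix B₀ C).det = (toMatrix (finBasis F W) C').det := by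
      rw [hG, Matrix.det_fromBlocks_zero₂₁, Matrix.det_fin_two_of]
      ring
    have hcard : Fintype.card ι = Fintype.card (Fin 2 ⊕ Fin (finrank F W)) :=
      ((finrank_eq_card_basis b).symm.trans (finrank_eq_card_basis B₀))
    let eι : ι ≃ (Fin 2 ⊕ Fin (finrank F W)) := Fintype.equivOfCardEq hcard
    let B₁ : Basis ι F V := B₀.reindex eι.symm
    have hG₁ : toMatrix B₁ C = (toMatrix B₀ C).submatrix eι eι := by
      ext s t
      simp [toMatrix_apply, B₁]
    have hdet₁ : (toMatrix B₁ C).det = (toMatrix B₀ C).det := by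
      rw [hG₁, Matrix.det_submatrix_equiv_self]
    have hchg := toMatrix_mul_basis_toMatrix (b := B₁) b C
    have hd := congrArg Matrix.det hchg
    rw [Matrix.det_mul, Matrix.det_mul, Matrix.det_transpose, hdet₁, hdet] at hd
    rw [← hd]
    obtain ⟨s, hs⟩ := hsqW
    exact ⟨(B₁.toMatrix b).det * s, by rw [hs]; ring⟩

end alt

section block

variable {F : Type u} [Field F] {V : Type u} [AddCommGroup V] [Module F V] [FiniteDimensional F V]
variable {Z W : Submodule F V}

/-- Block-diagonal linear map. -/
noncomputable def blockL (hc : IsCompl Z W) (f : Z →ₗ[F] Z) (h : W →ₗ[F] W) : V →ₗ[F] V :=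
  ((Submodule.prodEquivOfIsCompl Z W hc : (Z × W) ≃ₗ[F] V) : (Z × W) →ₗ[F] V) ∘ₗ (f.prodMap h) ∘ₗ
    ((Submodule.prodEquivOfIsCompl Z W hc).symm : V →ₗ[F] (Z × W))

theorem blockL_left (hc : IsCompl Z W) (f : Z →ₗ[F] Z) (h : W →ₗ[F] W) (a : Z) : blockL hc f h (a : V) = f a := by
  simp [blockL, Submodule.prodEquivOfIsCompl_symm_apply_left]

theorem blockL_right (hc : IsCompl Z W) (f : Z →ₗ[F] Z) (h : W →ₗ[F] W) (a : W) : blockL hc f h (a : V) = h a := by
  simp [blockL, Submodule.prodEquivOfIsCompl_symm_apply_right]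

theorem blockL_add (hc : IsCompl Z W) (f : Z →ₗ[F] Z) (h : W →ₗ[F] W) (a : Z) (b : W) :
    blockL hc f h ((a : V) + b) = (f a : V) + h b := by
  rw [map_add, blockL_left, blockL_right]

theorem det_blockL (hc : IsCompl Z W) (f : Z →ₗ[F] Z) (h : W →ₗ[F] W) :
    LinearMap.det (blockL hc f h) = LinearMap.det f * LinearMap.det h := by
  rw [blockL, LinearMap.det_conj, LinearMap.det_prodMap]

theorem exists_decomp (hc : IsCompl Z W) (v : V) : ∃ (a : Z) (b : W), v = (a : V) + b := by
  have hz : v ∈ Z ⊔ W := by
    rw [hc.sup_eq_top]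
    trivial
  obtain ⟨a, ha, b, hb, rfl⟩ := Submodule.mem_sup.1 hz
  exact ⟨⟨a, ha⟩, ⟨b, hb⟩, rfl⟩

end block

section sn

variable {F : Type u} [Field F] {V : Type u} [AddCommGroup V] [Module F V] [FiniteDimensional F V]
variable {Q : QuadraticForm F V}

/-- Orthogonal complement for the polar form. -/
noncomputable abbrev orthP (Q : QuadraticForm F V) (Z : Submodule F V) : Submodule F V :=
  LinearMap.BilinForm.orthogonal (polarBilin Q) Z

theorem mem_orthP {Z : Submodule F V} {v : V} : v ∈ orthP Q Z ↔ ∀ z ∈ Z, polar Q z v = 0 := Iff.rfl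

/-- The bilinear polar form on a subspace. -/
noncomputable def polZ (Q : QuadraticForm F V) (Z : Submodule F V) : LinearMap.BilinForm F Z :=
  (polarBilin Q).compl₁₂ Z.subtype Z.subtype

theorem polZ_apply {Z : Submodule F V} (a b : Z) : polZ Q Z a b = polar Q a b := rfl

set_option maxHeartbeats 1000000 in
/-- **The spinor class of a "unitary" element**: for `y`, `y'` mutually adjoint on a non-degenerate subspace, the element
`y y'⁻¹`, extended by the identity, has spinor class that of `det y`. -/
theorem sn_block [Finite F] (h2 : (2 : F) ≠ 0) (hQ : (polarBilin Q).Nondegenerate) {Z : Submodule F V}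
    (hc : IsCompl Z (orthP Q Z)) (y y' : Z →ₗ[F] Z)
    (hadj : ∀ a b : Z, polar Q (y a : V) (b : V) = polar Q (a : V) (y' b : V))
    (hcomm : ∀ a, y (y' a) = y' (y a)) (hi : Function.Injective y') (hi2 : Function.Injective (y' - y)) :
    ∃ u : V ≃ₗ[F] V, u ∈ Cfsg.Agent.Lib.Witt.Quadratic.isoGroup Q ∧ (∀ a : Z, u (y' a : V) = (y a : V)) ∧
      (∀ w ∈ orthP Q Z, u w = w) ∧ LinearMap.det (u : V →ₗ[F] V) = 1 ∧
      Cfsg.Agent.Lib.Orth.Spin.sn Q u = Cfsg.Agent.Lib.Orth.Spin.sqc (LinearMap.det y) := by
  classical
  have hZnd : ∀ a : Z, (∀ b : Z, polar Q (a : V) (b : V) = 0) → a = 0 := by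
    intro a ha
    have h1 : (a : V) ∈ orthP Q Z := by
      intro z hz
      show polar Q z a = 0
      rw [polar_comm]
      exact ha ⟨z, hz⟩
    have h3 := (Submodule.disjoint_def.1 hc.disjoint) _ a.2 h1
    exact Subtype.ext h3
  let y'e : Z ≃ₗ[F] Z := LinearEquiv.ofInjectiveEndo y' hi
  have hy'e : ∀ a, y'e a = y' a := fun a => rfl
  let y'inv : Z →ₗ[F] Z := (y'e.symm : Z →ₗ[F] Z)
  have hy'y : ∀ a, y' (y'inv a) = a := fun a => y'e.apply_symm_apply a
  have hyy' : ∀ a, y'inv (y' a) = a := fun a => y'e.symm_apply_apply a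
  let u₀ : Z →ₗ[F] Z := y ∘ₗ y'inv
  have hu₀ : ∀ a, u₀ (y' a) = y a := by
    intro a
    show y (y'inv (y' a)) = y a
    rw [hyy']
  have hsurj : ∀ a, ∃ c, y' c = a := fun a => ⟨y'inv a, hy'y a⟩
  have hpol : ∀ a b : Z, polar Q (u₀ a : V) (u₀ b : V) = polar Q (a : V) (b : V) := by
    intro a b
    obtain ⟨c, rfl⟩ := hsurj a
    obtain ⟨d, rfl⟩ := hsurj b
    rw [hu₀, hu₀, hadj c (y d), ← hcomm, polar_comm Q (y' c : V), ← hadj]
    rw [polar_comm]
  have hQ₀ : ∀ a : Z, Q (u₀ a : V) = Q (a : V) := by
    intro a
    have h1 := hpol a a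
    rw [QuadraticMap.polar_self, QuadraticMap.polar_self] at h1
    simp only [nsmul_eq_mul, Nat.cast_ofNat] at h1
    exact mul_left_cancel₀ h2 h1
  set W := orthP Q Z with hW
  let uL : V →ₗ[F] V := blockL hc u₀ LinearMap.id
  have huL : ∀ (a : Z) (b : W), uL ((a : V) + b) = (u₀ a : V) + b := by
    intro a b
    exact blockL_add hc u₀ LinearMap.id a b
  have hQu : ∀ v, Q (uL v) = Q v := by
    intro v
    obtain ⟨a, b, rfl⟩ := exists_decomp hc v
    rw [huL, QuadraticMap.map_add Q (u₀ a : V), QuadraticMap.map_add Q (a : V), hQ₀]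
    have e1 : polar Q (u₀ a : V) (b : V) = 0 := b.2 _ (u₀ a).2
    have e2 : polar Q (a : V) (b : V) = 0 := b.2 _ a.2
    rw [e1, e2]
  have hpolu : ∀ x t, polar Q (uL x) (uL t) = polar Q x t := by
    intro x t
    rw [polar, polar, ← map_add, hQu, hQu, hQu]
  have hinj : Function.Injective uL := by
    rw [injective_iff_map_eq_zero]
    intro x hx
    apply hQ.1 x
    intro t
    show polar Q x t = 0
    rw [← hpolu, hx]
    simp
  let u : V ≃ₗ[F] V := LinearEquiv.ofInjectiveEndo uL hinj
  have hu : ∀ v, u v = uL v := fun v => rfl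
  have hmem : u ∈ Cfsg.Agent.Lib.Witt.Quadratic.isoGroup Q := hQu
  have huZ : ∀ a : Z, u (a : V) = (u₀ a : V) := by
    intro a
    exact blockL_left hc u₀ LinearMap.id a
  have huW : ∀ w ∈ W, u w = w := by
    intro w hw
    exact blockL_right hc u₀ LinearMap.id ⟨w, hw⟩
  -- determinants
  have hdinv : LinearMap.det y' * LinearMap.det y'inv = 1 := by
    rw [← LinearMap.det_comp]
    have : y' ∘ₗ y'inv = LinearMap.id := LinearMap.ext hy'y
    rw [this, LinearMap.det_id]
  have hdy'0 : LinearMap.det y' ≠ 0 := left_ne_zero_of_mul_eq_one hdinv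
  let B := finBasis F Z
  let PZ := polZ Q Z
  have hPZnd : (toMatrix B PZ).det ≠ 0 := by
    apply (nondegenerate_iff_det_ne_zero B).1
    constructor
    · intro a ha
      exact hZnd a ha
    · intro a ha
      apply hZnd a
      intro c
      rw [polar_comm]
      exact ha c
  have hdetyy' : LinearMap.det y = LinearMap.det y' := by
    have h1 : (LinearMap.toMatrix B B y).transpose * toMatrix B PZ = toMatrix B PZ * LinearMap.toMatrix B B y' := by
      have e1 : toMatrix B PZ * LinearMap.toMatrix B B y' = toMatrix B (PZ.compRight y') := (toMatrix_compRight B PZ y').symm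
      have e2 : (LinearMap.toMatrix B B y).transpose * toMatrix B PZ = toMatrix B (PZ.compLeft y) := (toMatrix_compLeft B PZ y).symm
      rw [e1, e2]
      congr 1
      ext a b
      show polar Q (y a : V) (b : V) = polar Q (a : V) (y' b : V)
      exact hadj a b
    have h3 := congrArg Matrix.det h1
    rw [Matrix.det_mul, Matrix.det_mul, Matrix.det_transpose, LinearMap.det_toMatrix, LinearMap.det_toMatrix, mul_comm] at h3
    exact mul_left_cancel₀ hPZnd h3
  have hdu₀ : LinearMap.det u₀ = 1 := by
    show LinearMap.det (y ∘ₗ y'inv) = 1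
    rw [LinearMap.det_comp, hdetyy', hdinv]
  have hdet : LinearMap.det (u : V →ₗ[F] V) = 1 := by
    have : (u : V →ₗ[F] V) = uL := rfl
    rw [this, det_blockL, hdu₀, LinearMap.det_id, one_mul]
  -- the frame
  have hfix : Cfsg.Agent.Lib.Orth.Wall.fixSp u = W := by
    ext v
    rw [Cfsg.Agent.Lib.Orth.Wall.mem_fixSp]
    constructor
    · intro hv
      obtain ⟨a, b, rfl⟩ := exists_decomp hc v
      have h1 : u ((a : V) + b) = (u₀ a : V) + b := huL a b
      rw [h1] at hv
      have h3 : (u₀ a : V) = a := add_right_cancel hv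
      obtain ⟨c, rfl⟩ := hsurj a
      rw [hu₀] at h3
      have h4 : (y' - y) c = 0 := by
        apply Subtype.ext
        show (y' c : V) - (y c : V) = 0
        rw [h3]
        simp
      have h5 : c = 0 := by
        apply hi2
        rw [h4]
        simp
      subst h5
      simp
    · intro hv
      exact huW v hv
  let b : Fin (finrank F Z) → V := fun i => (B i : V)
  have hspan : Submodule.span F (Set.range b) = Z := by
    have h := congrArg (Submodule.map Z.subtype) B.span_eq
    rw [Submodule.map_span, Submodule.map_top, Submodule.range_subtype, ← Set.range_comp] at h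
    exact h
  have hframe : Cfsg.Agent.Lib.Orth.Wall.IsFrame u b := by
    refine ⟨B.linearIndependent.map' Z.subtype (Submodule.ker_subtype Z), ?_⟩
    rw [hspan, hfix]
    exact hc
  -- the form
  let s : Z →ₗ[F] Z := y' - y
  have hsinj : Function.Injective s := hi2
  have hssurj : Function.Surjective s := LinearMap.surjective_of_injective hsinj
  let C : LinearMap.BilinForm F Z := PZ.compRight s
  have hCapp : ∀ a b, C a b = polar Q (a : V) (s b : V) := fun a b => rfl
  have hCalt : C.IsAlt := by
    intro a
    rw [hCapp]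
    show polar Q (a : V) ((y' a : V) - (y a : V)) = 0
    rw [polar_sub_right, ← hadj, polar_comm Q (a : V) (y a : V), sub_self]
  have hCnd : C.Nondegenerate := by
    constructor
    · intro a ha
      apply hZnd
      intro c
      obtain ⟨d, rfl⟩ := hssurj c
      exact ha d
    · intro a ha
      apply hsinj
      rw [map_zero]
      apply hZnd
      intro c
      rw [polar_comm]
      exact ha c
  obtain ⟨t, ht⟩ := alt_det_sq _ Z C hCnd hCalt rfl B
  have hgram : Cfsg.Agent.Lib.Orth.Wall.gram Q u b = toMatrix B C * LinearMap.toMatrix B B y'inv := by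
    rw [← toMatrix_compRight]
    ext i j
    rw [Cfsg.Agent.Lib.Orth.Wall.gram_apply, Cfsg.Agent.Lib.Orth.Wall.wall_apply, toMatrix_apply]
    show polar Q (b i) (b j - u (b j)) = polar Q (B i : V) (s (y'inv (B j)) : V)
    have e : (s (y'inv (B j)) : V) = b j - u (b j) := by
      show (y' (y'inv (B j)) : V) - (y (y'inv (B j)) : V) = _
      rw [hy'y]
      exact congrArg (fun z => (B j : V) - z) (huZ (B j)).symm
    rw [e]
  have hd : (Cfsg.Agent.Lib.Orth.Wall.gram Q u b).det = t * t * (LinearMap.det y)⁻¹ := by
    rw [hgram, Matrix.det_mul, ht, LinearMap.det_toMatrix, hdetyy']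
    congr 1
    exact eq_inv_of_mul_eq_one_right hdinv
  have hne := hframe.det_gram_ne_zero hQ hmem
  have ht0 : t ≠ 0 := by
    rintro rfl
    apply hne
    rw [hd]
    simp
  have hy0 : LinearMap.det y ≠ 0 := by
    rw [hdetyy']
    exact hdy'0
  refine ⟨u, hmem, ?_, huW, hdet, ?_⟩
  · intro a
    rw [huZ, hu₀]
  · have h1 : Cfsg.Agent.Lib.Orth.Spin.IsDisc Q u (t * t * (LinearMap.det y)⁻¹) :=
      ⟨Fin (finrank F Z), inferInstance, inferInstance, b, hframe, hd⟩
    rw [Cfsg.Agent.Lib.Orth.Spin.sn_eq hQ hmem h1, Cfsg.Agent.Lib.Orth.Spin.sqc_mul_self_mul ht0 (inv_ne_zero hy0),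
      Cfsg.Agent.Lib.Orth.Spin.sqc_inv hy0]

end sn

end Cfsg.Agent.Lib.Classical.OmegaSSLin
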