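/-
An irreducible isometry of odd order on a quadratic space: the field generated by it, and the elements of its centraliser.
-/
import Mathlib
import Cfsg.Agent.Lib.Classical.OmegaSSLin
import Cfsg.Agent.Lib.Orth.Closure

set_option autoImplicit false
set_option linter.unusedSimpArgs false
set_option linter.unusedSectionVars false
set_option linter.style.haveILetI false
set_option linter.unusedVariables false

namespace Cfsg.Agent.Lib.Classical.OmegaSSField

open Module QuadraticMap Polynomial Cfsg.Agent.Lib.Classical.OmegaSSLin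

universe u

section tower

variable {F : Type u} [Field F] [Finite F] {K : Type u} [Field K] [Algebra F K] [FiniteDimensional F K]

/-- Norms along the fixed field of an involution. -/
theorem norm_tower (τ : K ≃ₐ[F] K) (hτ : τ ≠ 1) (hτ2 : τ * τ = 1) :
    ∃ M, finrank F K = 2 * M ∧ (∀ y, τ y = y → IsSquare (Algebra.norm F y)) ∧
      (∀ ν : F, ν ≠ 0 → ∃ z : K, z ≠ 0 ∧ z * τ z = algebraMap F K ν ∧ Algebra.norm F z = ν ^ M) := by
  classical
  haveI : Finite K := Module.finite_of_finite F
  letI : Fintype K := Fintype.ofFinite K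
  let H : Subgroup (K ≃ₐ[F] K) := Subgroup.zpowers τ
  let K₀ : IntermediateField F K := IntermediateField.fixedField H
  have hord : orderOf τ = 2 := orderOf_eq_prime (by rw [pow_two, hτ2]) hτ
  have hfr : finrank K₀ K = 2 := by
    have h1 := IntermediateField.finrank_fixedField_eq_card (F := F) (E := K) H
    rw [← hord, ← Nat.card_zpowers]
    exact h1
  have hM : finrank F K = 2 * finrank F K₀ := by
    rw [← finrank_mul_finrank F K₀ K, hfr, mul_comm]
  have hfix : ∀ x : K₀, τ (x : K) = x := by
    intro x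
    exact x.2 ⟨τ, Subgroup.mem_zpowers τ⟩
  have hmem : ∀ y : K, τ y = y → y ∈ K₀ := by
    intro y hy
    rw [IntermediateField.mem_fixedField_iff]
    intro f hf
    obtain ⟨k, rfl⟩ := Subgroup.mem_zpowers_iff.1 hf
    have h1 : ∀ n : ℕ, (τ ^ n) y = y := by
      intro n
      induction n with
      | zero => rfl
      | succ n ih =>
        rw [pow_succ, AlgEquiv.mul_apply, hy, ih]
    have h2 : ∀ n : ℕ, (τ⁻¹ ^ n) y = y := by
      have h3 : τ⁻¹ = τ := inv_eq_of_mul_eq_one_left hτ2
      rw [h3]
      exact h1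
    obtain ⟨n, rfl | rfl⟩ := k.eq_nat_or_neg
    · simpa using h1 n
    · simpa using h2 n
  let τ₀ : K ≃ₐ[K₀] K := AlgEquiv.ofRingEquiv (f := (τ : K ≃+* K)) (fun r => hfix r)
  have hτ₀a : ∀ x, τ₀ x = τ x := fun x => rfl
  have hτ₀ : τ₀ ≠ 1 := by
    intro h
    apply hτ
    ext x
    have := DFunLike.congr_fun h x
    exact this
  haveI : IsGalois K₀ K := inferInstance
  have hcardAut : Fintype.card (K ≃ₐ[K₀] K) = 2 := by
    rw [← hfr, ← Nat.card_eq_fintype_card]
    exact IsGalois.card_aut_eq_finrank _ _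
  have huniv : (Finset.univ : Finset (K ≃ₐ[K₀] K)) = {1, τ₀} := by
    symm
    apply Finset.eq_univ_of_card
    rw [Finset.card_pair hτ₀.symm, hcardAut]
  have hnorm : ∀ z : K, algebraMap K₀ K (Algebra.norm K₀ z) = z * τ z := by
    intro z
    rw [Algebra.norm_eq_prod_automorphisms, huniv, Finset.prod_pair hτ₀.symm, hτ₀a]
    rfl
  have htow : ∀ z : K, Algebra.norm F (Algebra.norm K₀ z) = Algebra.norm F z := fun z => Algebra.norm_norm
  refine ⟨finrank F K₀, hM, ?_, ?_⟩
  · intro y hy
    let y₀ : K₀ := ⟨y, hmem y hy⟩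
    have h1 : Algebra.norm K₀ y = y₀ ^ 2 := by
      have e : y = algebraMap K₀ K y₀ := rfl
      rw [e, Algebra.norm_algebraMap, hfr]
    rw [← htow, h1, map_pow]
    exact ⟨_, pow_two _⟩
  · intro ν hν
    obtain ⟨z, hz⟩ := FiniteField.norm_surjective K₀ K (algebraMap F K₀ ν)
    have h1 : z * τ z = algebraMap F K ν := by
      rw [← hnorm, hz]
      rfl
    refine ⟨z, ?_, h1, ?_⟩
    · rintro rfl
      rw [zero_mul] at h1
      exact hν ((map_eq_zero (algebraMap F K)).1 h1.symm)
    · rw [← htow, hz, Algebra.norm_algebraMap]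

end tower

section irr

variable {F : Type u} [Field F] {A : Type u} [AddCommGroup A] [Module F A] [FiniteDimensional F A]

/-- Irreducibility of an endomorphism. -/
def IsIrr (g : A →ₗ[F] A) : Prop := ∀ S : Submodule F A, (∀ x ∈ S, g x ∈ S) → S = ⊥ ∨ S = ⊤

theorem aeval_comm (g : Module.End F A) (q : F[X]) (x : A) : aeval g q (g x) = g (aeval g q x) := by
  have h : Commute (aeval g q) g := by
    have := (Commute.all q X).map (aeval g)
    rwa [aeval_X] at this
  exact DFunLike.congr_fun h.eq x

theorem ker_or {g : Module.End F A} (h : IsIrr g) (q : F[X]) : aeval g q = 0 ∨ Function.Injective (aeval g q) := by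
  have hinv : ∀ x ∈ LinearMap.ker (aeval g q), g x ∈ LinearMap.ker (aeval g q) := by
    intro x hx
    rw [LinearMap.mem_ker] at hx ⊢
    rw [aeval_comm, hx, map_zero]
  rcases h _ hinv with h1 | h1
  · right
    exact LinearMap.ker_eq_bot.1 h1
  · left
    exact LinearMap.ker_eq_top.1 h1

theorem irr_minpoly [Nontrivial A] {g : Module.End F A} (h : IsIrr g) : Irreducible (minpoly F g) := by
  have hint : IsIntegral F g := Algebra.IsIntegral.isIntegral g
  have hmon := minpoly.monic hint
  have hne : minpoly F g ≠ 0 := hmon.ne_zero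
  refine ⟨fun hu => minpoly.ne_one F g ((hmon.isUnit_iff).1 hu), ?_⟩
  intro a b hab
  have h0 : aeval g a * aeval g b = 0 := by
    rw [← map_mul, ← hab, minpoly.aeval]
  rcases ker_or h a with h1 | h1
  · right
    obtain ⟨c, rfl⟩ := minpoly.dvd F g h1
    have e : minpoly F g * 1 = minpoly F g * (c * b) := by
      rw [mul_one, ← mul_assoc]
      exact hab
    have e2 := mul_left_cancel₀ hne e
    exact IsUnit.of_mul_eq_one _ (by rw [mul_comm]; exact e2.symm)
  · left
    have hb0 : aeval g b = 0 := by
      apply LinearMap.ext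
      intro x
      apply h1
      have := DFunLike.congr_fun h0 x
      simpa using this
    obtain ⟨c, rfl⟩ := minpoly.dvd F g hb0
    have e : minpoly F g * 1 = minpoly F g * (a * c) := by
      rw [mul_one, mul_left_comm]
      exact hab
    have e2 := mul_left_cancel₀ hne e
    exact IsUnit.of_mul_eq_one _ e2.symm

variable (g : Module.End F A)

/-- The field generated by an irreducible endomorphism. -/
abbrev Kg : Type u := AdjoinRoot (minpoly F g)

/-- The action of the field. -/
noncomputable def phi : Kg g →ₐ[F] Module.End F A :=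
  Ideal.Quotient.liftₐ (Ideal.span {minpoly F g}) (aeval g) (by
    intro a ha
    obtain ⟨c, rfl⟩ := Ideal.mem_span_singleton.1 ha
    simp [minpoly.aeval])

theorem phi_mk (q : F[X]) : phi g (AdjoinRoot.mk (minpoly F g) q) = aeval g q := rfl

theorem phi_root : phi g (AdjoinRoot.root (minpoly F g)) = g := by
  have := phi_mk g X
  rwa [AdjoinRoot.mk_X, aeval_X] at this

theorem phi_comm (a : Kg g) (x : A) : phi g a (g x) = g (phi g a x) := by
  have h := mul_comm a (AdjoinRoot.root (minpoly F g))
  have h1 := congrArg (phi g) h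
  rw [map_mul, map_mul, phi_root] at h1
  exact DFunLike.congr_fun h1 x

section field

variable [hf : Fact (Irreducible (minpoly F g))] [Nontrivial A]

theorem phi_inj_of_ne {a : Kg g} (ha : a ≠ 0) : Function.Injective (phi g a) := by
  intro x y hxy
  have h1 : phi g a⁻¹ * phi g a = 1 := by
    rw [← map_mul, inv_mul_cancel₀ ha, map_one]
  have h2 := congrArg (phi g a⁻¹) hxy
  have h3 : ∀ z, phi g a⁻¹ (phi g a z) = z := fun z => DFunLike.congr_fun h1 z
  rwa [h3, h3] at h2

theorem phi_injective : Function.Injective (phi g) := by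
  rw [injective_iff_map_eq_zero]
  intro a ha
  by_contra hne
  have h1 : phi g a⁻¹ * phi g a = 1 := by
    rw [← map_mul, inv_mul_cancel₀ hne, map_one]
  rw [ha, mul_zero] at h1
  exact zero_ne_one h1

noncomputable instance kg_finite : FiniteDimensional F (Kg g) :=
  (AdjoinRoot.powerBasis (hf.out.ne_zero)).finite

/-- The identification of the field with the space. -/
noncomputable def evL (v₀ : A) : Kg g →ₗ[F] A := (LinearMap.applyₗ v₀) ∘ₗ (phi g).toLinearMap

theorem evL_apply (v₀ : A) (a : Kg g) : evL g v₀ a = phi g a v₀ := rfl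

theorem evL_bij (h : IsIrr g) {v₀ : A} (hv : v₀ ≠ 0) : Function.Bijective (evL g v₀) := by
  constructor
  · rw [injective_iff_map_eq_zero]
    intro a ha
    by_contra hne
    have h1 := phi_inj_of_ne g hne
    have h2 : phi g a v₀ = phi g a 0 := by
      rw [map_zero]
      exact ha
    exact hv (h1 h2)
  · have hinv : ∀ x ∈ LinearMap.range (evL g v₀), g x ∈ LinearMap.range (evL g v₀) := by
      rintro _ ⟨a, rfl⟩
      refine ⟨AdjoinRoot.root (minpoly F g) * a, ?_⟩
      rw [evL_apply, evL_apply, map_mul, phi_root]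
      rfl
    rcases h _ hinv with h1 | h1
    · exfalso
      apply hv
      have h2 : v₀ ∈ LinearMap.range (evL g v₀) := ⟨1, by rw [evL_apply, map_one]; rfl⟩
      rw [h1] at h2
      exact (Submodule.mem_bot F).1 h2
    · exact LinearMap.range_eq_top.1 h1

theorem finrank_Kg (h : IsIrr g) {v₀ : A} (hv : v₀ ≠ 0) : finrank F (Kg g) = finrank F A :=
  (LinearEquiv.ofBijective (evL g v₀) (evL_bij g h hv)).finrank_eq

theorem det_phi (h : IsIrr g) {v₀ : A} (hv : v₀ ≠ 0) (a : Kg g) : LinearMap.det (phi g a) = Algebra.norm F a := by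
  let e := LinearEquiv.ofBijective (evL g v₀) (evL_bij g h hv)
  have h1 : phi g a = (e : Kg g →ₗ[F] A) ∘ₗ (Algebra.lmul F (Kg g) a) ∘ₗ (e.symm : A →ₗ[F] Kg g) := by
    apply LinearMap.ext
    intro x
    obtain ⟨b, rfl⟩ := e.surjective x
    show _ = e (a * e.symm (e b))
    rw [LinearEquiv.symm_apply_apply]
    show phi g a (phi g b v₀) = phi g (a * b) v₀
    rw [map_mul]
    rfl
  rw [h1, LinearMap.det_conj, Algebra.norm_apply]

end field

end irr

section good

variable {F : Type u} [Field F] [Finite F] {V : Type u} [AddCommGroup V] [Module F V] [FiniteDimensional F V]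

/-- Similarities commuting with `g`, of the right determinant. -/
def GoodE1 (Q : QuadraticForm F V) (g : V →ₗ[F] V) : Prop :=
  ∃ M, finrank F V = 2 * M ∧ ∀ ν : F, ν ≠ 0 → ∃ δ : V →ₗ[F] V, (∀ v, δ (g v) = g (δ v)) ∧ (∀ v, Q (δ v) = ν * Q v) ∧ LinearMap.det δ = ν ^ M

/-- Adjoint pairs commuting with `g`, of non-square determinant. -/
def GoodE2 (Q : QuadraticForm F V) (g : V →ₗ[F] V) : Prop :=
  ∃ y y' : V →ₗ[F] V, (∀ a b, polar Q (y a) b = polar Q a (y' b)) ∧ (∀ a, y (y' a) = y' (y a)) ∧ (∀ a, y (g a) = g (y a)) ∧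
    (∀ a, y' (g a) = g (y' a)) ∧ Function.Injective y' ∧ Function.Injective (y' - y) ∧ ¬ IsSquare (LinearMap.det y)

theorem exists_nonsq (h2 : (2 : F) ≠ 0) : ∃ d : F, ¬ IsSquare d := by
  have hch : ringChar F ≠ 2 := by
    intro h
    apply h2
    have := ringChar.spec F 2
    exact_mod_cast this.2 (by rw [h])
  exact FiniteField.exists_nonsquare hch

set_option maxHeartbeats 1000000 in
/-- The anisotropic irreducible case. -/
theorem irr_good (h2 : (2 : F) ≠ 0) {Q : QuadraticForm F V} (hQ : (polarBilin Q).Nondegenerate) (g : Module.End F V)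
    (hg : ∀ v, Q (g v) = Q v) {r : ℕ} (hr : Odd r) (hgr : g ^ r = 1) (hfix : ∀ v, g v = v → v = 0) [Nontrivial V] (hI : IsIrr g) :
    GoodE1 Q g ∧ GoodE2 Q g := by
  classical
  haveI : Fact (Irreducible (minpoly F g)) := ⟨irr_minpoly hI⟩
  obtain ⟨v₀, hv₀⟩ := exists_ne (0 : V)
  have hpol : ∀ x y, polar Q (g x) (g y) = polar Q x y := by
    intro x y
    rw [polar, polar, ← map_add, hg, hg, hg]
  obtain ⟨k, hk⟩ := hr
  let g' : Module.End F V := g ^ (2 * k)
  have hgg' : g * g' = 1 := by
    rw [← hgr, hk, pow_succ' g (2 * k)]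
  have hg'g : ∀ b, g (g' b) = b := fun b => DFunLike.congr_fun hgg' b
  have hadj0 : ∀ a b, polar Q (g a) b = polar Q a (g' b) := by
    intro a b
    conv_lhs => rw [← hg'g b]
    exact hpol a (g' b)
  have hadjn : ∀ (n : ℕ) (a b : V), polar Q ((g ^ n) a) b = polar Q a ((g' ^ n) b) := by
    intro n
    induction n with
    | zero =>
      intro a b
      rfl
    | succ n ih =>
      intro a b
      rw [pow_succ', Module.End.mul_apply, hadj0, ih, ← Module.End.mul_apply, ← pow_succ]
  have hadjq : ∀ (q : F[X]) (a b : V), polar Q (aeval g q a) b = polar Q a (aeval g' q b) := by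
    intro q a b
    induction q using Polynomial.induction_on' with
    | add p q hp hq =>
      simp only [map_add, LinearMap.add_apply, polar_add_left, polar_add_right, hp, hq]
    | monomial n c =>
      rw [aeval_monomial, aeval_monomial, Module.End.mul_apply, Module.End.mul_apply, Module.algebraMap_end_apply,
        Module.algebraMap_end_apply, polar_smul_left, polar_smul_right, hadjn]
  have hg'0 : aeval g' (minpoly F g) = 0 := by
    apply LinearMap.ext
    intro b
    apply hQ.2
    intro a
    show polar Q a (aeval g' (minpoly F g) b) = 0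
    rw [← hadjq, minpoly.aeval]
    simp
  let θ : Kg g := AdjoinRoot.root (minpoly F g)
  have hphiθ : phi g (θ ^ (2 * k)) = g' := by
    rw [map_pow, phi_root]
  have hroot : (minpoly F g).eval₂ (Algebra.ofId F (Kg g) : F →ₐ[F] Kg g) (θ ^ (2 * k)) = 0 := by
    have h1 : (minpoly F g).eval₂ (algebraMap F (Kg g)) (θ ^ (2 * k)) = aeval (θ ^ (2 * k)) (minpoly F g) := rfl
    have h3 : phi g (aeval (θ ^ (2 * k)) (minpoly F g)) = 0 := by
      rw [← aeval_algHom_apply, hphiθ, hg'0]
    have h4 := phi_injective g (h3.trans (map_zero (phi g)).symm)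
    exact h1.trans h4
  let σ₀ : Kg g →ₐ[F] Kg g := AdjoinRoot.liftAlgHom (minpoly F g) (Algebra.ofId F (Kg g)) (θ ^ (2 * k)) hroot
  have hσmk : ∀ q : F[X], phi g (σ₀ (AdjoinRoot.mk (minpoly F g) q)) = aeval g' q := by
    intro q
    have h1 : σ₀ (AdjoinRoot.mk (minpoly F g) q) = aeval (θ ^ (2 * k)) q := by
      show AdjoinRoot.liftAlgHom (minpoly F g) (Algebra.ofId F (Kg g)) (θ ^ (2 * k)) hroot (AdjoinRoot.mk (minpoly F g) q) = _
      rw [AdjoinRoot.liftAlgHom_mk]
      rfl
    rw [h1, ← aeval_algHom_apply, hphiθ]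
  have hσ : ∀ (a : Kg g) (v w : V), polar Q (phi g a v) w = polar Q v (phi g (σ₀ a) w) := by
    intro a v w
    induction a using AdjoinRoot.induction_on with
    | ih q =>
      rw [phi_mk, hσmk, hadjq]
  have hσσ : ∀ a, σ₀ (σ₀ a) = a := by
    intro a
    apply phi_injective g
    apply LinearMap.ext
    intro v
    rw [← sub_eq_zero]
    apply hQ.2
    intro w
    show polar Q w (phi g (σ₀ (σ₀ a)) v - phi g a v) = 0
    rw [polar_sub_right, ← hσ, polar_comm, ← hσ, polar_comm, sub_self]
  let τ : Kg g ≃ₐ[F] Kg g := AlgEquiv.ofAlgHom σ₀ σ₀ (AlgHom.ext hσσ) (AlgHom.ext hσσ)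
  have hτa : ∀ a, τ a = σ₀ a := fun a => rfl
  have hτ1 : τ ≠ 1 := by
    intro h
    have h1 : σ₀ θ = θ := by
      rw [← hτa, h]
      rfl
    have h3 : g' = g := by
      have h4 : σ₀ θ = θ ^ (2 * k) := by
        show AdjoinRoot.liftAlgHom (minpoly F g) (Algebra.ofId F (Kg g)) (θ ^ (2 * k)) hroot (AdjoinRoot.root (minpoly F g)) = _
        rw [AdjoinRoot.liftAlgHom_root]
      rw [h4] at h1
      rw [← hphiθ, h1]
      exact phi_root g
    have h4 : g * g = 1 := by
      conv_lhs => rw [← h3]
      rw [h3]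
      conv_lhs =>
        rw [← h3]
      rw [← hgg', h3]
    have h5 : g = 1 := by
      have h6 : g ^ r = (g * g) ^ k * g := by
        rw [hk, pow_succ, pow_mul, pow_two]
      rw [h6, h4, one_pow, one_mul] at hgr
      exact hgr
    apply hv₀
    apply hfix
    rw [h5]
    rfl
  have hτ2 : τ * τ = 1 := by
    ext a
    exact hσσ a
  obtain ⟨M, hM, hsq, hnrm⟩ := norm_tower τ hτ1 hτ2
  have hdet := fun a => det_phi g hI hv₀ a
  have hfr : finrank F V = 2 * M := by
    rw [← finrank_Kg g hI hv₀, hM]
  refine ⟨⟨M, hfr, ?_⟩, ?_⟩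
  · intro ν hν
    obtain ⟨z, hz0, hz, hzn⟩ := hnrm ν hν
    refine ⟨phi g z, fun v => phi_comm g z v, ?_, ?_⟩
    · intro v
      have h1 : polar Q (phi g z v) (phi g z v) = polar Q v (phi g (τ z) (phi g z v)) := hσ z v _
      have h3 : phi g (τ z) (phi g z v) = ν • v := by
        have h4 : phi g (τ z) * phi g z = algebraMap F (Module.End F V) ν := by
          rw [← map_mul, mul_comm, hz]
          exact (phi g).commutes ν
        rw [← Module.End.mul_apply, h4, Module.algebraMap_end_apply]
      rw [h3, polar_smul_right, QuadraticMap.polar_self, QuadraticMap.polar_self] at h1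
      simp only [nsmul_eq_mul, Nat.cast_ofNat, smul_eq_mul] at h1
      apply mul_left_cancel₀ h2
      rw [h1]
      ring
    · rw [hdet, hzn]
  · obtain ⟨d, hd⟩ := exists_nonsq h2
    haveI : Finite (Kg g) := Module.finite_of_finite F
    obtain ⟨y, hy⟩ := FiniteField.norm_surjective F (Kg g) d
    have hy0 : y ≠ 0 := by
      rintro rfl
      apply hd
      rw [← hy, Algebra.norm_zero]
      exact IsSquare.zero
    have hτy : τ y ≠ y := by
      intro h
      apply hd
      rw [← hy]
      exact hsq y h
    have hτy0 : τ y ≠ 0 := (map_ne_zero τ).2 hy0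
    refine ⟨phi g y, phi g (τ y), fun a b => hσ y a b, ?_, fun a => phi_comm g y a, fun a => phi_comm g _ a, phi_inj_of_ne g hτy0, ?_, ?_⟩
    · intro a
      rw [← Module.End.mul_apply, ← Module.End.mul_apply, ← map_mul, ← map_mul, mul_comm]
    · have e : phi g (τ y) - phi g y = phi g (τ y - y) := (map_sub _ _ _).symm
      rw [e]
      exact phi_inj_of_ne g (sub_ne_zero.2 hτy)
    · rw [hdet, hy]
      exact hd

/-- Block maps along a product decomposition. -/
noncomputable def conjP {A B Z : Type u} [AddCommGroup A] [Module F A] [AddCommGroup B] [Module F B] [AddCommGroup Z] [Module F Z]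
    (e : (A × B) ≃ₗ[F] Z) (f : A →ₗ[F] A) (h : B →ₗ[F] B) : Z →ₗ[F] Z :=
  (e : (A × B) →ₗ[F] Z) ∘ₗ (f.prodMap h) ∘ₗ (e.symm : Z →ₗ[F] (A × B))

theorem conjP_apply {A B Z : Type u} [AddCommGroup A] [Module F A] [AddCommGroup B] [Module F B] [AddCommGroup Z] [Module F Z]
    (e : (A × B) ≃ₗ[F] Z) (f : A →ₗ[F] A) (h : B →ₗ[F] B) (a : A) (b : B) : conjP e f h (e (a, b)) = e (f a, h b) := by
  simp [conjP]

theorem det_conjP {A B Z : Type u} [AddCommGroup A] [Module F A] [AddCommGroup B] [Module F B] [AddCommGroup Z] [Module F Z]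
    [FiniteDimensional F A] [FiniteDimensional F B]
    (e : (A × B) ≃ₗ[F] Z) (f : A →ₗ[F] A) (h : B →ₗ[F] B) : LinearMap.det (conjP e f h) = LinearMap.det f * LinearMap.det h := by
  rw [conjP, LinearMap.det_conj, LinearMap.det_prodMap]

set_option maxHeartbeats 1000000 in
/-- The hyperbolic case. -/
theorem hyp_good (h2 : (2 : F) ≠ 0) {A B Z : Type u} [AddCommGroup A] [Module F A] [FiniteDimensional F A] [AddCommGroup B] [Module F B]
    [FiniteDimensional F B] [AddCommGroup Z] [Module F Z] [FiniteDimensional F Z] (e : (A × B) ≃ₗ[F] Z) (Q : QuadraticForm F Z)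
    (P : A →ₗ[F] B →ₗ[F] F) (hPa : ∀ a, (∀ b, P a b = 0) → a = 0) (hPb : ∀ b, (∀ a, P a b = 0) → b = 0)
    (hQ : ∀ a b, Q (e (a, b)) = P a b) (gA : Module.End F A) (gB : Module.End F B) (g : Module.End F Z)
    (hg : ∀ a b, g (e (a, b)) = e (gA a, gB b)) (hiso : ∀ v, Q (g v) = Q v) [Nontrivial A] (hI : IsIrr gA) :
    GoodE1 Q g ∧ GoodE2 Q g := by
  classical
  have hP : ∀ a b, P (gA a) (gB b) = P a b := by
    intro a b
    rw [← hQ, ← hg, hiso, hQ]
  have hpolar : ∀ a b c d, polar Q (e (a, b)) (e (c, d)) = P a d + P c b := by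
    intro a b c d
    have h1 : e (a, b) + e (c, d) = e (a + c, b + d) := by
      rw [← map_add]
      rfl
    rw [polar, h1, hQ, hQ, hQ]
    simp only [map_add, LinearMap.add_apply]
    ring
  have hgAinj : Function.Injective gA := by
    rw [injective_iff_map_eq_zero]
    intro a ha
    apply hPa
    intro b
    rw [← hP a b, ha]
    simp
  have hgAsurj : Function.Surjective gA := LinearMap.surjective_of_injective hgAinj
  -- the duality
  have hdim₁ : finrank F A ≤ finrank F B := by
    have h1 : Function.Injective P := by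
      rw [injective_iff_map_eq_zero]
      intro a ha
      apply hPa
      intro b
      rw [ha]
      rfl
    have := LinearMap.finrank_le_finrank_of_injective h1
    rwa [Subspace.dual_finrank_eq] at this
  have hdim₂ : finrank F B ≤ finrank F A := by
    have h1 : Function.Injective P.flip := by
      rw [injective_iff_map_eq_zero]
      intro b hb
      apply hPb
      intro a
      have := LinearMap.congr_fun hb a
      exact this
    have := LinearMap.finrank_le_finrank_of_injective h1
    rwa [Subspace.dual_finrank_eq] at this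
  have hdim : finrank F B = finrank F A := le_antisymm hdim₂ hdim₁
  have hflip : Function.Bijective P.flip := by
    have h1 : Function.Injective P.flip := by
      rw [injective_iff_map_eq_zero]
      intro b hb
      apply hPb
      intro a
      have := LinearMap.congr_fun hb a
      exact this
    refine ⟨h1, ?_⟩
    exact (LinearMap.injective_iff_surjective_of_finrank_eq_finrank (K := F) (V := B) (V₂ := Module.Dual F A) (by rw [Subspace.dual_finrank_eq, hdim])).1 h1
  let τ : B ≃ₗ[F] Module.Dual F A := LinearEquiv.ofBijective P.flip hflip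
  have hτ : ∀ a b, τ b a = P a b := fun a b => rfl
  let adj : (A →ₗ[F] A) → (B →ₗ[F] B) := fun f => (τ.symm : Module.Dual F A →ₗ[F] B) ∘ₗ f.dualMap ∘ₗ (τ : B →ₗ[F] Module.Dual F A)
  have hadj : ∀ f a b, P a (adj f b) = P (f a) b := by
    intro f a b
    rw [← hτ, ← hτ]
    show τ (τ.symm (f.dualMap (τ b))) a = _
    rw [LinearEquiv.apply_symm_apply]
    rfl
  constructor
  · -- the similarity
    refine ⟨finrank F A, ?_, ?_⟩
    · rw [← e.finrank_eq, finrank_prod, hdim]
      ring
    · intro ν hν
      refine ⟨conjP e (ν • LinearMap.id) LinearMap.id, ?_, ?_, ?_⟩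
      · intro v
        obtain ⟨⟨a, b⟩, rfl⟩ := e.surjective v
        rw [hg, conjP_apply, conjP_apply, hg]
        simp
      · intro v
        obtain ⟨⟨a, b⟩, rfl⟩ := e.surjective v
        rw [conjP_apply, hQ, hQ]
        simp
      · rw [det_conjP, LinearMap.det_smul, LinearMap.det_id, LinearMap.det_id]
        ring
  · -- the adjoint pair
    haveI : Fact (Irreducible (minpoly F gA)) := ⟨irr_minpoly hI⟩
    obtain ⟨v₀, hv₀⟩ := exists_ne (0 : A)
    obtain ⟨d, hd⟩ := exists_nonsq h2
    haveI : Finite (Kg gA) := Module.finite_of_finite F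
    obtain ⟨y, hy⟩ := FiniteField.norm_surjective F (Kg gA) d
    have hdet := fun a => det_phi gA hI hv₀ a
    have hy0 : y ≠ 0 := by
      rintro rfl
      apply hd
      rw [← hy, Algebra.norm_zero]
      exact IsSquare.zero
    have hy1 : y ≠ 1 := by
      rintro rfl
      apply hd
      rw [← hy, map_one]
      exact IsSquare.one
    let f : A →ₗ[F] A := phi gA y
    have hfinj : Function.Injective f := phi_inj_of_ne gA hy0
    have hfsurj : Function.Surjective f := LinearMap.surjective_of_injective hfinj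
    have hf1 : (phi gA (y - 1) : A →ₗ[F] A) = f - LinearMap.id := by
      rw [map_sub, map_one]
      rfl
    have hf1inj : Function.Injective (f - LinearMap.id : A →ₗ[F] A) := by
      rw [← hf1]
      exact phi_inj_of_ne gA (sub_ne_zero.2 hy1)
    have hf1surj : Function.Surjective (f - LinearMap.id : A →ₗ[F] A) := LinearMap.surjective_of_injective hf1inj
    have hfg : ∀ a, f (gA a) = gA (f a) := fun a => phi_comm gA y a
    let f' := adj f
    have hf'g : ∀ b, f' (gB b) = gB (f' b) := by
      intro b
      rw [← sub_eq_zero]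
      apply hPb
      intro a
      obtain ⟨a₀, rfl⟩ := hgAsurj a
      rw [map_sub, hadj, hP, hfg, hP, hadj, sub_self]
    have hf'inj : Function.Injective f' := by
      rw [injective_iff_map_eq_zero]
      intro b hb
      apply hPb
      intro a
      obtain ⟨a₀, rfl⟩ := hfsurj a
      rw [← hadj, hb, map_zero]
    refine ⟨conjP e f LinearMap.id, conjP e LinearMap.id f', ?_, ?_, ?_, ?_, ?_, ?_, ?_⟩
    · intro v w
      obtain ⟨⟨a, b⟩, rfl⟩ := e.surjective v
      obtain ⟨⟨c, d⟩, rfl⟩ := e.surjective w
      rw [conjP_apply, conjP_apply, hpolar, hpolar]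
      simp only [LinearMap.id_apply]
      rw [show P a (f' d) = P (f a) d from hadj f a d]
    · intro v
      obtain ⟨⟨a, b⟩, rfl⟩ := e.surjective v
      simp only [conjP_apply, LinearMap.id_apply]
    · intro v
      obtain ⟨⟨a, b⟩, rfl⟩ := e.surjective v
      simp only [conjP_apply, hg, LinearMap.id_apply, hfg]
    · intro v
      obtain ⟨⟨a, b⟩, rfl⟩ := e.surjective v
      simp only [conjP_apply, hg, LinearMap.id_apply, hf'g]
    · rw [injective_iff_map_eq_zero]
      intro v hv
      obtain ⟨⟨a, b⟩, rfl⟩ := e.surjective v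
      rw [conjP_apply] at hv
      have h1 : ((LinearMap.id a, f' b) : A × B) = 0 := e.injective (hv.trans (map_zero e).symm)
      have h3 : a = 0 := congrArg Prod.fst h1
      have h4 : f' b = 0 := congrArg Prod.snd h1
      have h5 : b = 0 := hf'inj (h4.trans (map_zero f').symm)
      rw [h3, h5]
      exact map_zero e
    · rw [injective_iff_map_eq_zero]
      intro v hv
      obtain ⟨⟨a, b⟩, rfl⟩ := e.surjective v
      have h0 : (conjP e LinearMap.id f' - conjP e f LinearMap.id) (e (a, b)) = e (a - f a, f' b - b) := by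
        rw [LinearMap.sub_apply, conjP_apply, conjP_apply, ← map_sub]
        rfl
      rw [h0] at hv
      have h1 : ((a - f a, f' b - b) : A × B) = 0 := e.injective (hv.trans (map_zero e).symm)
      have h3 : a - f a = 0 := congrArg Prod.fst h1
      have h4 : f' b - b = 0 := congrArg Prod.snd h1
      have h5 : a = 0 := by
        apply hf1inj
        rw [map_zero, LinearMap.sub_apply, LinearMap.id_apply, ← neg_eq_zero, neg_sub]
        exact h3
      have h6 : b = 0 := by
        apply hPb
        intro a'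
        obtain ⟨a₀, rfl⟩ := hf1surj a'
        rw [LinearMap.sub_apply, LinearMap.id_apply, map_sub, LinearMap.sub_apply, ← hadj]
        rw [← map_sub, h4, map_zero]
      rw [h5, h6]
      exact map_zero e
    · rw [det_conjP, LinearMap.det_id, mul_one]
      show ¬ IsSquare (LinearMap.det (phi gA y))
      rw [hdet, hy]
      exact hd

/-- The case of a plane on which the isometry is trivial. -/
theorem plane_good (h2 : (2 : F) ≠ 0) {Q : QuadraticForm F V} (hQ : (polarBilin Q).Nondegenerate) (b : Basis (Fin 2) F V)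
    (h0 : Q (b 0) ≠ 0) (h1 : Q (b 1) ≠ 0) (h01 : polar Q (b 0) (b 1) = 0) : GoodE1 Q LinearMap.id := by
  classical
  set c := Q (b 0) with hc
  set d := Q (b 1) with hd
  refine ⟨1, ?_, ?_⟩
  · rw [finrank_eq_card_basis b]
    simp
  intro ν hν
  have hfr : 2 ≤ finrank F V := by
    rw [finrank_eq_card_basis b]
    simp
  haveI : Fintype F := Fintype.ofFinite F
  obtain ⟨w, hw⟩ := Cfsg.Agent.Lib.Orth.Closure.exists_Q_eq (Q := Q) h2 hQ hfr (ν * c)
  have hvec : ∀ x y : F, Q (x • b 0 + y • b 1) = x * x * c + y * y * d := by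
    intro x y
    rw [QuadraticMap.map_add Q (x • b 0) (y • b 1), QuadraticMap.map_smul, QuadraticMap.map_smul, polar_smul_left, polar_smul_right, h01]
    simp
    rfl
  set α := b.repr w 0 with hα
  set β := b.repr w 1 with hβ
  have hw' : w = α • b 0 + β • b 1 := by
    conv_lhs => rw [← b.sum_repr w, Fin.sum_univ_two]
  have hαβ : α * α * c + β * β * d = ν * c := by
    rw [← hvec, ← hw', hw]
  set t := d * β / c with ht
  have htc : t * c = d * β := by
    rw [ht]
    field_simp
  have he : t * t * c + α * α * d = ν * d := by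
    apply mul_right_cancel₀ h0
    linear_combination (t * c + d * β) * htc + d * hαβ
  let mat : Matrix (Fin 2) (Fin 2) F := !![α, -t; β, α]
  let δ : V →ₗ[F] V := Matrix.toLin b b mat
  have hδ0 : δ (b 0) = α • b 0 + β • b 1 := by
    rw [Matrix.toLin_self, Fin.sum_univ_two]
    simp [mat]
  have hδ1 : δ (b 1) = (-t) • b 0 + α • b 1 := by
    rw [Matrix.toLin_self, Fin.sum_univ_two]
    simp [mat]
  refine ⟨δ, fun v => rfl, ?_, ?_⟩
  · intro v
    have hv : v = b.repr v 0 • b 0 + b.repr v 1 • b 1 := by
      conv_lhs => rw [← b.sum_repr v, Fin.sum_univ_two]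
    set x := b.repr v 0
    set y := b.repr v 1
    have e1 : δ v = (x * α + y * (-t)) • b 0 + (x * β + y * α) • b 1 := by
      rw [hv, map_add, map_smul, map_smul, hδ0, hδ1]
      simp only [smul_add, smul_smul, add_smul]
      abel
    rw [e1, hvec, hv, hvec]
    linear_combination x * x * hαβ + y * y * he + 2 * x * y * (-α) * htc
  · rw [LinearMap.det_toLin, pow_one]
    simp only [mat, Matrix.det_fin_two_of]
    apply mul_right_cancel₀ h0
    linear_combination hαβ + β * htc

end good

end Cfsg.Agent.Lib.Classical.OmegaSSField
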