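/-
Isometries of odd order on a quadratic space: the non-degenerate invariant blocks, and the similarities and isometries commuting
with such an isometry.
-/
import Mathlib
import Cfsg.Agent.Lib.Classical.OmegaSSField

set_option autoImplicit false
set_option linter.unusedSimpArgs false
set_option linter.unusedSectionVars false
set_option linter.style.haveILetI false
set_option linter.unusedVariables false

namespace Cfsg.Agent.Lib.Classical.OmegaSSBlock

open Module QuadraticMap Polynomial Cfsg.Agent.Lib.Classical.OmegaSSLin Cfsg.Agent.Lib.Classical.OmegaSSField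

universe u

variable {F : Type u} [Field F] [Finite F] {V : Type u} [AddCommGroup V] [Module F V] [FiniteDimensional F V]

theorem nondeg_sub {Q : QuadraticForm F V} (hQ : (polarBilin Q).Nondegenerate) {Z : Submodule F V} (hd : Disjoint Z (orthP Q Z)) :
    (polarBilin (Q.comp Z.subtype)).Nondegenerate := by
  have key : ∀ a : Z, (∀ b : Z, polar Q (a : V) (b : V) = 0) → a = 0 := by
    intro a ha
    have h1 : (a : V) ∈ orthP Q Z := by
      intro z hz
      show polar Q z a = 0
      rw [polar_comm]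
      exact ha ⟨z, hz⟩
    exact Subtype.ext ((Submodule.disjoint_def.1 hd) _ a.2 h1)
  constructor
  · intro a ha
    exact key a ha
  · intro a ha
    apply key a
    intro b
    rw [polar_comm]
    exact ha b

theorem polar_isRefl (Q : QuadraticForm F V) : (polarBilin Q).IsRefl := by
  intro x y h
  show polar Q y x = 0
  rw [polar_comm]
  exact h

theorem isCompl_of_disjoint {Q : QuadraticForm F V} (hQ : (polarBilin Q).Nondegenerate) {Z : Submodule F V} (hd : Disjoint Z (orthP Q Z)) :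
    IsCompl Z (orthP Q Z) :=
  (LinearMap.BilinForm.isCompl_orthogonal_iff_disjoint (polar_isRefl Q)).2 hd

theorem nondeg_orth {Q : QuadraticForm F V} (hQ : (polarBilin Q).Nondegenerate) {Z : Submodule F V} (hc : IsCompl Z (orthP Q Z)) :
    (polarBilin (Q.comp (orthP Q Z).subtype)).Nondegenerate := by
  have key : ∀ a : orthP Q Z, (∀ b : orthP Q Z, polar Q (a : V) (b : V) = 0) → a = 0 := by
    intro a ha
    apply Subtype.ext
    apply hQ.1 a.1
    intro v
    obtain ⟨z, w, rfl⟩ := exists_decomp hc v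
    show polar Q (a : V) ((z : V) + w) = 0
    rw [polar_add_right, ha w, polar_comm]
    have := a.2 z z.2
    rw [show polar Q (z : V) (a : V) = 0 from this]
    simp
  constructor
  · intro a ha
    exact key a ha
  · intro a ha
    apply key a
    intro b
    rw [polar_comm]
    exact ha b

theorem polar_of_iso {Q : QuadraticForm F V} {g : V →ₗ[F] V} (hg : ∀ v, Q (g v) = Q v) (x y : V) : polar Q (g x) (g y) = polar Q x y := by
  rw [polar, polar, ← map_add, hg, hg, hg]

theorem inj_of_iso {Q : QuadraticForm F V} (hQ : (polarBilin Q).Nondegenerate) {g : V →ₗ[F] V} (hg : ∀ v, Q (g v) = Q v) : Function.Injective g := by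
  rw [injective_iff_map_eq_zero]
  intro x hx
  apply hQ.1 x
  intro t
  show polar Q x t = 0
  rw [← polar_of_iso hg x t, hx]
  simp

/-- An invariant subspace of a injective endomorphism is mapped onto itself. -/
theorem exists_preimage {g : V →ₗ[F] V} (hinj : Function.Injective g) {Z : Submodule F V} (hinv : ∀ z ∈ Z, g z ∈ Z) {z : V} (hz : z ∈ Z) :
    ∃ z' ∈ Z, g z' = z := by
  have h1 : Function.Injective (g.restrict hinv) := by
    intro a b hab
    apply Subtype.ext
    apply hinj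
    exact congrArg Subtype.val hab
  obtain ⟨a, ha⟩ := LinearMap.surjective_of_injective h1 ⟨z, hz⟩
  exact ⟨a.1, a.2, congrArg Subtype.val ha⟩

theorem orth_inv {Q : QuadraticForm F V} (hQ : (polarBilin Q).Nondegenerate) {g : V →ₗ[F] V} (hg : ∀ v, Q (g v) = Q v) {Z : Submodule F V}
    (hinv : ∀ z ∈ Z, g z ∈ Z) : ∀ w ∈ orthP Q Z, g w ∈ orthP Q Z := by
  intro w hw z hz
  obtain ⟨z', hz', rfl⟩ := exists_preimage (inj_of_iso hQ hg) hinv hz
  show polar Q (g z') (g w) = 0
  rw [polar_of_iso hg]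
  exact hw z' hz'

theorem pow_restrict_val {g : Module.End F V} {Z : Submodule F V} (hinv : ∀ z ∈ Z, g z ∈ Z) (n : ℕ) (x : Z) :
    (((g.restrict hinv : Module.End F Z) ^ n) x : V) = (g ^ n) x := by
  induction n with
  | zero => rfl
  | succ n ih =>
    rw [pow_succ', Module.End.mul_apply, pow_succ', Module.End.mul_apply, ← ih]
    rfl

theorem pow_restrict_one {g : Module.End F V} {Z : Submodule F V} (hinv : ∀ z ∈ Z, g z ∈ Z) {n : ℕ} (h : g ^ n = 1) :
    (g.restrict hinv : Module.End F Z) ^ n = 1 := by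
  apply LinearMap.ext
  intro x
  apply Subtype.ext
  rw [pow_restrict_val, h]
  rfl

theorem exists_inv_compl {g : Module.End F V} {r : ℕ} (hrF : (r : F) ≠ 0) (hgr : g ^ r = 1) (S : Submodule F V) (hS : ∀ x ∈ S, g x ∈ S) :
    ∃ T : Submodule F V, (∀ x ∈ T, g x ∈ T) ∧ IsCompl S T := by
  have hss : g.IsSemisimple := by
    apply Module.End.isSemisimple_of_squarefree_aeval_eq_zero (p := X ^ r - 1)
    · have h1 : (X ^ r - C (1 : F)).Separable := separable_X_pow_sub_C 1 hrF one_ne_zero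
      have h3 := h1.squarefree
      rwa [C_1] at h3
    · simp [hgr]
  obtain ⟨T, hT, hc⟩ := Module.End.isSemisimple_iff.1 hss S ((Module.End.mem_invtSubmodule g).2 hS)
  exact ⟨T, hT, hc⟩

set_option maxHeartbeats 2000000 in
/-- **A non-degenerate invariant block.** -/
theorem exists_block (h2 : (2 : F) ≠ 0) {Q : QuadraticForm F V} (hQ : (polarBilin Q).Nondegenerate) (g : Module.End F V) (hg : ∀ v, Q (g v) = Q v)
    {r : ℕ} (hro : Odd r) (hrF : (r : F) ≠ 0) (hgr : g ^ r = 1) (hne : ∃ v, g v ≠ v) :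
    ∃ Z : Submodule F V, Z ≠ ⊥ ∧ IsCompl Z (orthP Q Z) ∧ ∃ hinv : ∀ z ∈ Z, g z ∈ Z,
      GoodE1 (Q.comp Z.subtype) (g.restrict hinv) ∧ GoodE2 (Q.comp Z.subtype) (g.restrict hinv) := by
  classical
  have hcompl := exists_inv_compl (g := g) hrF hgr
  have hginj : Function.Injective g := inj_of_iso hQ hg
  let Fix : Submodule F V := LinearMap.ker (g - 1)
  have hFixm : ∀ x, x ∈ Fix ↔ g x = x := by
    intro x
    show (g - 1) x = 0 ↔ _
    rw [LinearMap.sub_apply, sub_eq_zero]
    rfl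
  obtain ⟨W, hWinv, hW⟩ := hcompl Fix (by
    intro x hx
    rw [hFixm] at hx ⊢
    rw [hx, hx])
  let S : Set (Submodule F V) := {Y | Y ≠ ⊥ ∧ (∀ x ∈ Y, g x ∈ Y) ∧ ∀ x ∈ Y, g x = x → x = 0}
  have hWS : W ∈ S := by
    refine ⟨?_, hWinv, ?_⟩
    · rintro rfl
      obtain ⟨v, hv⟩ := hne
      have h1 : Fix = ⊤ := by
        have := hW.sup_eq_top
        rwa [sup_bot_eq] at this
      apply hv
      rw [← hFixm, h1]
      trivial
    · intro x hx hgx
      exact (Submodule.disjoint_def.1 hW.disjoint) x ((hFixm x).2 hgx) hx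
  obtain ⟨Y₀, hY₀, hmin⟩ := WellFounded.has_min (wellFounded_lt (α := Submodule F V)) S ⟨W, hWS⟩
  obtain ⟨hY₀0, hinv₀, hfpf⟩ := hY₀
  have hmin' : ∀ Y ∈ S, Y ≤ Y₀ → Y = Y₀ := by
    intro Y hY hle
    by_contra hne'
    exact hmin Y hY (lt_of_le_of_ne hle hne')
  let g₀ : Module.End F Y₀ := g.restrict hinv₀
  have hg₀ : ∀ a : Y₀, (g₀ a : V) = g a := fun a => rfl
  haveI : Nontrivial Y₀ := Submodule.nontrivial_iff_ne_bot.2 hY₀0
  have hI : IsIrr g₀ := by
    intro S' hS'
    by_cases h0 : S' = ⊥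
    · exact Or.inl h0
    right
    have hmem : S'.map Y₀.subtype ∈ S := by
      refine ⟨?_, ?_, ?_⟩
      · intro h
        apply h0
        rw [Submodule.eq_bot_iff]
        intro a ha
        have h1 : (a : V) ∈ S'.map Y₀.subtype := ⟨a, ha, rfl⟩
        rw [h] at h1
        exact Subtype.ext h1
      · rintro _ ⟨a, ha, rfl⟩
        exact ⟨g₀ a, hS' a ha, rfl⟩
      · rintro _ ⟨a, ha, rfl⟩ h
        exact hfpf _ a.2 h
    have h1 := hmin' _ hmem (Submodule.map_subtype_le _ _)
    rw [eq_top_iff]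
    intro a _
    have h3 : (a : V) ∈ S'.map Y₀.subtype := by
      rw [h1]
      exact a.2
    obtain ⟨b, hb, hba⟩ := h3
    have : b = a := Subtype.ext hba
    rwa [← this]
  have hgr₀ : g₀ ^ r = 1 := pow_restrict_one hinv₀ hgr
  by_cases hd : Disjoint Y₀ (orthP Q Y₀)
  · refine ⟨Y₀, hY₀0, isCompl_of_disjoint hQ hd, hinv₀, ?_⟩
    exact irr_good h2 (nondeg_sub hQ hd) g₀ (fun v => hg v.1) hro hgr₀ (fun v hv => Subtype.ext (hfpf _ v.2 (congrArg Subtype.val hv))) hI
  -- the totally singular case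
  have hle : Y₀ ≤ orthP Q Y₀ := by
    have hXinv := orth_inv hQ hg hinv₀
    have h0 : Y₀ ⊓ orthP Q Y₀ ≠ ⊥ := by
      intro h
      exact hd (disjoint_iff.2 h)
    have hm : Y₀ ⊓ orthP Q Y₀ ∈ S := by
      refine ⟨h0, ?_, ?_⟩
      · rintro x ⟨h1, h3⟩
        exact ⟨hinv₀ x h1, hXinv x h3⟩
      · rintro x ⟨h1, h3⟩ h4
        exact hfpf x h1 h4
    have h1 := hmin' _ hm inf_le_left
    exact inf_eq_left.1 h1
  have hti : ∀ a ∈ Y₀, ∀ b ∈ Y₀, polar Q a b = 0 := fun a ha b hb => hle hb a ha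
  have hQ0 : ∀ a ∈ Y₀, Q a = 0 := by
    intro a ha
    have h1 := hti a ha a ha
    rw [QuadraticMap.polar_self] at h1
    simp only [nsmul_eq_mul, Nat.cast_ofNat] at h1
    exact (mul_eq_zero.1 h1).resolve_left h2
  obtain ⟨C, hCinv, hXC⟩ := hcompl (orthP Q Y₀) (orth_inv hQ hg hinv₀)
  let P : Y₀ →ₗ[F] C →ₗ[F] F := (polarBilin Q).domRestrict₁₂ Y₀ C
  have hPapp : ∀ a c, P a c = polar Q (a : V) (c : V) := fun a c => rfl
  have hPa : ∀ a, (∀ c, P a c = 0) → a = 0 := by
    intro a ha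
    apply Subtype.ext
    apply hQ.1 a.1
    intro v
    obtain ⟨x, c, rfl⟩ := exists_decomp hXC v
    show polar Q (a : V) ((x : V) + c) = 0
    have hx : polar Q (a : V) (x : V) = 0 := x.2 a a.2
    rw [polar_add_right, ← hPapp, ha c, hx, add_zero]
  have hPc : ∀ c, (∀ a, P a c = 0) → c = 0 := by
    intro c hc
    apply Subtype.ext
    refine (Submodule.disjoint_def.1 hXC.disjoint) _ ?_ c.2
    intro a ha
    exact hc ⟨a, ha⟩
  have hdC : finrank F C = finrank F Y₀ := by
    have h1 := Submodule.finrank_add_eq_of_isCompl hXC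
    have h3 : finrank F (orthP Q Y₀) = finrank F V - finrank F Y₀ := LinearMap.BilinForm.finrank_orthogonal hQ Y₀
    have h4 := Submodule.finrank_le Y₀
    omega
  have hPinj : Function.Injective P := by
    rw [injective_iff_map_eq_zero]
    intro a ha
    apply hPa
    intro c
    rw [ha]
    rfl
  have hPbij : Function.Bijective P :=
    ⟨hPinj, (LinearMap.injective_iff_surjective_of_finrank_eq_finrank (K := F) (V := Y₀) (V₂ := Module.Dual F C)
      (by rw [Subspace.dual_finrank_eq, hdC])).1 hPinj⟩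
  let τ : Y₀ ≃ₗ[F] Module.Dual F C := LinearEquiv.ofBijective P hPbij
  let R : C →ₗ[F] Module.Dual F C := (2⁻¹ : F) • (polarBilin Q).domRestrict₁₂ C C
  let ψ : C →ₗ[F] Y₀ := (τ.symm : Module.Dual F C →ₗ[F] Y₀) ∘ₗ R
  have hψ : ∀ c c' : C, polar Q (ψ c : V) (c' : V) = 2⁻¹ * polar Q (c : V) (c' : V) := by
    intro c c'
    have h1 : τ (ψ c) = R c := τ.apply_symm_apply _
    have h3 : P (ψ c) c' = R c c' := by
      rw [← h1]
      rfl
    rw [← hPapp, h3]
    rfl
  let gC : Module.End F C := g.restrict hCinv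
  have hgC : ∀ a : C, (gC a : V) = g a := fun a => rfl
  have hgCinj : Function.Injective gC := by
    intro a b hab
    apply Subtype.ext
    apply hginj
    exact congrArg Subtype.val hab
  have hgCsurj : Function.Surjective gC := LinearMap.surjective_of_injective hgCinj
  have hψg : ∀ c, ψ (gC c) = g₀ (ψ c) := by
    intro c
    rw [← sub_eq_zero]
    apply hPa
    intro c'
    obtain ⟨c'', rfl⟩ := hgCsurj c'
    rw [map_sub, LinearMap.sub_apply, hPapp, hPapp, hψ, hgC, hgC, hg₀, polar_of_iso hg, polar_of_iso hg, hψ, sub_self]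
  let e₀ : (Y₀ × C) →ₗ[F] V := LinearMap.coprod Y₀.subtype (C.subtype - Y₀.subtype ∘ₗ ψ)
  have he₀ : ∀ a c, e₀ (a, c) = (a : V) + ((c : V) - (ψ c : V)) := by
    intro a c
    simp [e₀]
  have hinj : Function.Injective e₀ := by
    rw [injective_iff_map_eq_zero]
    rintro ⟨a, c⟩ h
    rw [he₀] at h
    have hc : (c : V) = (ψ c : V) - a := by
      linear_combination (norm := module) h
    have hc0 : c = 0 := by
      apply Subtype.ext
      refine (Submodule.disjoint_def.1 hXC.disjoint) _ ?_ c.2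
      rw [hc]
      exact hle (Y₀.sub_mem (ψ c).2 a.2)
    subst hc0
    have ha0 : a = 0 := by
      apply Subtype.ext
      simpa using h
    rw [ha0]
    rfl
  have hQe : ∀ a c, Q (e₀ (a, c)) = P a c := by
    intro a c
    rw [he₀, QuadraticMap.map_add Q (a : V), hQ0 _ a.2, polar_sub_right, hti _ a.2 _ (ψ c).2, sub_zero, zero_add, hPapp]
    have h1 : Q ((c : V) - (ψ c : V)) = 0 := by
      rw [sub_eq_add_neg, QuadraticMap.map_add Q (c : V), QuadraticMap.map_neg, hQ0 _ (ψ c).2, polar_neg_right, polar_comm, hψ,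
        QuadraticMap.polar_self]
      simp only [nsmul_eq_mul, Nat.cast_ofNat]
      field_simp
      ring
    rw [h1, zero_add]
  have hge : ∀ a c, g (e₀ (a, c)) = e₀ (g₀ a, gC c) := by
    intro a c
    rw [he₀, he₀, hψg, map_add, map_sub]
    rfl
  let Z : Submodule F V := LinearMap.range e₀
  let e : (Y₀ × C) ≃ₗ[F] Z := LinearEquiv.ofInjective e₀ hinj
  have he : ∀ x, (e x : V) = e₀ x := fun x => rfl
  have hginv : ∀ z ∈ Z, g z ∈ Z := by
    rintro _ ⟨⟨a, c⟩, rfl⟩
    exact ⟨(g₀ a, gC c), (hge a c).symm⟩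
  have hpolar : ∀ a b c d, polar Q (e₀ (a, b)) (e₀ (c, d)) = P a d + P c b := by
    intro a b c d
    have h1 : e₀ (a, b) + e₀ (c, d) = e₀ (a + c, b + d) := by
      rw [← map_add]
      rfl
    rw [polar, h1, hQe, hQe, hQe]
    simp only [map_add, LinearMap.add_apply]
    ring
  have hZ0 : Z ≠ ⊥ := by
    intro h
    apply hY₀0
    rw [eq_bot_iff]
    intro a ha
    have h1 : a ∈ Z := ⟨(⟨a, ha⟩, 0), by
      rw [he₀]
      simp⟩
    rw [h] at h1
    exact h1
  have hdZ : Disjoint Z (orthP Q Z) := by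
    rw [Submodule.disjoint_def]
    rintro _ ⟨⟨a, c⟩, rfl⟩ h
    have h1 : ∀ a' c', P a' c + P a c' = 0 := by
      intro a' c'
      rw [← hpolar]
      exact h _ ⟨(a', c'), rfl⟩
    have ha0 : a = 0 := by
      apply hPa
      intro c'
      have := h1 0 c'
      simpa using this
    have hc0 : c = 0 := by
      apply hPc
      intro a'
      have := h1 a' 0
      simpa using this
    rw [ha0, hc0]
    exact map_zero e₀
  refine ⟨Z, hZ0, isCompl_of_disjoint hQ hdZ, hginv, ?_⟩
  refine hyp_good h2 e (Q.comp Z.subtype) P hPa hPc hQe g₀ gC (g.restrict hginv) ?_ (fun v => hg v.1) hI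
  intro a b
  apply Subtype.ext
  exact hge a b

/-- A non-degenerate plane. -/
theorem exists_plane (h2 : (2 : F) ≠ 0) {Q : QuadraticForm F V} (hQ : (polarBilin Q).Nondegenerate) (hfr : 2 ≤ finrank F V) :
    ∃ Z : Submodule F V, Z ≠ ⊥ ∧ IsCompl Z (orthP Q Z) ∧ GoodE1 (Q.comp Z.subtype) LinearMap.id := by
  classical
  haveI : Fintype F := Fintype.ofFinite F
  obtain ⟨v₁, hv₁⟩ := Cfsg.Agent.Lib.Orth.Closure.exists_Q_eq (Q := Q) h2 hQ hfr 1
  have hv₁0 : Q v₁ ≠ 0 := by
    rw [hv₁]
    exact one_ne_zero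
  have hself : ∀ v, polar Q v v = 2 * Q v := by
    intro v
    rw [QuadraticMap.polar_self]
    simp only [nsmul_eq_mul, Nat.cast_ofNat]
  -- the orthogonal of the line
  let L : Submodule F V := Submodule.span F {v₁}
  have hLd : Disjoint L (orthP Q L) := by
    rw [Submodule.disjoint_def]
    intro x hx hx'
    obtain ⟨t, rfl⟩ := Submodule.mem_span_singleton.1 hx
    have h1 : polar Q v₁ (t • v₁) = 0 := hx' v₁ (Submodule.mem_span_singleton_self v₁)
    rw [polar_smul_right, hself, smul_eq_mul] at h1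
    have ht : t = 0 := (mul_eq_zero.1 h1).resolve_right (mul_ne_zero h2 hv₁0)
    rw [ht, zero_smul]
  have hLc := isCompl_of_disjoint hQ hLd
  have hLnd := nondeg_orth hQ hLc
  have hLfr : finrank F L + finrank F (orthP Q L) = finrank F V := Submodule.finrank_add_eq_of_isCompl hLc
  have hL1 : finrank F L = 1 := finrank_span_singleton (fun h => hv₁0 (by rw [h]; simp))
  haveI : Nontrivial (orthP Q L) := Module.nontrivial_of_finrank_pos (R := F) (by omega)
  obtain ⟨v₂', hv₂⟩ := Cfsg.Agent.Lib.Orth.Closure.exists_nonsingular (Q := Q.comp (orthP Q L).subtype) hLnd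
  set v₂ : V := v₂'.1 with hv₂'
  have hv₂0 : Q v₂ ≠ 0 := hv₂
  have h12 : polar Q v₁ v₂ = 0 := v₂'.2 v₁ (Submodule.mem_span_singleton_self v₁)
  have h21 : polar Q v₂ v₁ = 0 := by
    rw [polar_comm]
    exact h12
  have hli : LinearIndependent F ![v₁, v₂] := by
    rw [LinearIndependent.pair_iff]
    intro α β hab
    have h1 := congrArg (polar Q v₁) hab
    have h3 := congrArg (polar Q v₂) hab
    simp only [polar_add_right, polar_smul_right, h12, h21, hself, smul_eq_mul, mul_zero, add_zero, zero_add, polar_zero_right] at h1 h3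
    exact ⟨(mul_eq_zero.1 h1).resolve_right (mul_ne_zero h2 hv₁0), (mul_eq_zero.1 h3).resolve_right (mul_ne_zero h2 hv₂0)⟩
  let Z : Submodule F V := Submodule.span F (Set.range ![v₁, v₂])
  have hmemZ : ∀ x, x ∈ Z ↔ ∃ α β : F, α • v₁ + β • v₂ = x := by
    intro x
    show x ∈ Submodule.span F (Set.range ![v₁, v₂]) ↔ _
    rw [Matrix.range_cons, Matrix.range_cons, Matrix.range_empty, Set.union_empty, ← Set.insert_eq]
    exact Submodule.mem_span_pair
  have hv₁Z : v₁ ∈ Z := Submodule.subset_span ⟨0, rfl⟩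
  have hv₂Z : v₂ ∈ Z := Submodule.subset_span ⟨1, rfl⟩
  have hZd : Disjoint Z (orthP Q Z) := by
    rw [Submodule.disjoint_def]
    intro x hx hx'
    obtain ⟨α, β, rfl⟩ := (hmemZ x).1 hx
    have h1 : polar Q v₁ (α • v₁ + β • v₂) = 0 := hx' v₁ hv₁Z
    have h3 : polar Q v₂ (α • v₁ + β • v₂) = 0 := hx' v₂ hv₂Z
    simp only [polar_add_right, polar_smul_right, h12, h21, hself, smul_eq_mul, mul_zero, add_zero, zero_add] at h1 h3
    have hα := (mul_eq_zero.1 h1).resolve_right (mul_ne_zero h2 hv₁0)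
    have hβ := (mul_eq_zero.1 h3).resolve_right (mul_ne_zero h2 hv₂0)
    rw [hα, hβ]
    simp
  let b : Basis (Fin 2) F Z := Basis.span hli
  have hb0 : (b 0 : V) = v₁ := congrArg Subtype.val (Basis.span_apply hli 0)
  have hb1 : (b 1 : V) = v₂ := congrArg Subtype.val (Basis.span_apply hli 1)
  refine ⟨Z, ?_, isCompl_of_disjoint hQ hZd, ?_⟩
  · intro h
    have : v₁ ∈ Z := hv₁Z
    rw [h] at this
    exact hv₁0 (by
      rw [(Submodule.mem_bot F).1 this]
      simp)
  · apply plane_good h2 (nondeg_sub hQ hZd) b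
    · show Q (b 0 : V) ≠ 0
      rw [hb0]
      exact hv₁0
    · show Q (b 1 : V) ≠ 0
      rw [hb1]
      exact hv₂0
    · show polar Q (b 0 : V) (b 1 : V) = 0
      rw [hb0, hb1]
      exact h12

set_option maxHeartbeats 1000000 in
/-- **Similarities commuting with an isometry of odd order.** -/
theorem e1_all (h2 : (2 : F) ≠ 0) {r : ℕ} (hro : Odd r) (hrF : (r : F) ≠ 0) :
    ∀ (n : ℕ) (V : Type u) [AddCommGroup V] [Module F V] [FiniteDimensional F V] (Q : QuadraticForm F V)
      (hQ : (polarBilin Q).Nondegenerate) (g : Module.End F V) (hg : ∀ v, Q (g v) = Q v) (hgr : g ^ r = 1),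
      finrank F V = n → Even n → GoodE1 Q g := by
  intro n
  induction n using Nat.strong_induction_on with
  | _ n ih =>
    intro V _ _ _ Q hQ g hg hgr hn hev
    rcases Nat.eq_zero_or_pos n with rfl | hpos
    · haveI : Subsingleton V := Module.finrank_zero_iff.1 hn
      refine ⟨0, by rw [hn], fun ν hν => ⟨LinearMap.id, fun v => rfl, fun v => ?_, ?_⟩⟩
      · rw [Subsingleton.elim v 0]
        simp
      · rw [LinearMap.det_id, pow_zero]
    have hn2 : 2 ≤ n := by
      obtain ⟨k, hk⟩ := hev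
      omega
    obtain ⟨Z, hZ0, hc, hinv, hZgood⟩ : ∃ Z : Submodule F V, Z ≠ ⊥ ∧ IsCompl Z (orthP Q Z) ∧ ∃ hinv : ∀ z ∈ Z, g z ∈ Z,
        GoodE1 (Q.comp Z.subtype) (g.restrict hinv) := by
      by_cases hne : ∃ v, g v ≠ v
      · obtain ⟨Z, h1, h3, h4, h5, -⟩ := exists_block h2 hQ g hg hro hrF hgr hne
        exact ⟨Z, h1, h3, h4, h5⟩
      · push Not at hne
        obtain ⟨Z, h1, h3, h5⟩ := exists_plane h2 hQ (by omega)
        have hinv : ∀ z ∈ Z, g z ∈ Z := by
          intro z hz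
          rw [hne]
          exact hz
        refine ⟨Z, h1, h3, hinv, ?_⟩
        have e : g.restrict hinv = LinearMap.id := by
          apply LinearMap.ext
          intro x
          apply Subtype.ext
          exact hne x.1
        rw [e]
        exact h5
    set W := orthP Q Z with hW
    have hWinv : ∀ w ∈ W, g w ∈ W := orth_inv hQ hg hinv
    have hdim : finrank F Z + finrank F W = n := by
      rw [Submodule.finrank_add_eq_of_isCompl hc, hn]
    obtain ⟨MZ, hMZ, hδZ⟩ := hZgood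
    have hZpos : 0 < finrank F Z := by
      rw [Module.finrank_pos_iff]
      exact Submodule.nontrivial_iff_ne_bot.2 hZ0
    obtain ⟨MW, hMW, hδW⟩ := ih (finrank F W) (by omega) W (Q.comp W.subtype) (nondeg_orth hQ hc) (g.restrict hWinv) (fun v => hg v.1)
      (pow_restrict_one hWinv hgr) rfl (by
        obtain ⟨k, hk⟩ := hev
        exact ⟨k - MZ, by omega⟩)
    refine ⟨MZ + MW, by omega, fun ν hν => ?_⟩
    obtain ⟨δZ, h1Z, h3Z, h4Z⟩ := hδZ ν hν
    obtain ⟨δW, h1W, h3W, h4W⟩ := hδW ν hν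
    refine ⟨blockL hc δZ δW, ?_, ?_, ?_⟩
    · intro v
      obtain ⟨a, b, rfl⟩ := exists_decomp hc v
      have e1 : g ((a : V) + b) = ((g.restrict hinv a : Z) : V) + (g.restrict hWinv b : W) := map_add g _ _
      rw [e1, blockL_add, blockL_add, h1Z, h1W, map_add]
      rfl
    · intro v
      obtain ⟨a, b, rfl⟩ := exists_decomp hc v
      rw [blockL_add, QuadraticMap.map_add Q (δZ a : V), QuadraticMap.map_add Q (a : V)]
      have e1 : polar Q (δZ a : V) (δW b : V) = 0 := (δW b).2 _ (δZ a).2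
      have e2 : polar Q (a : V) (b : V) = 0 := b.2 _ a.2
      have e3 : Q (δZ a : V) = ν * Q (a : V) := h3Z a
      have e4 : Q (δW b : V) = ν * Q (b : V) := h3W b
      rw [e1, e2, e3, e4]
      ring
    · rw [det_blockL, h4Z, h4W, pow_add]

set_option maxHeartbeats 1000000 in
/-- **An isometry of non-trivial spinor class commuting with an isometry of odd order.** -/
theorem e2_all (h2 : (2 : F) ≠ 0) {r : ℕ} (hro : Odd r) (hrF : (r : F) ≠ 0) {Q : QuadraticForm F V}
      (hQ : (polarBilin Q).Nondegenerate) (g : Module.End F V) (hg : ∀ v, Q (g v) = Q v) (hgr : g ^ r = 1) (hne : ∃ v, g v ≠ v) :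
    ∃ u : V ≃ₗ[F] V, u ∈ Cfsg.Agent.Lib.Witt.Quadratic.isoGroup Q ∧ (∀ v, u (g v) = g (u v)) ∧ LinearMap.det (u : V →ₗ[F] V) = 1 ∧
      Cfsg.Agent.Lib.Orth.Spin.sn Q u = 1 := by
  obtain ⟨Z, hZ0, hc, hinv, -, y, y', hadj, hcomm, hyg, hy'g, hi, hi2, hns⟩ := exists_block h2 hQ g hg hro hrF hgr hne
  obtain ⟨u, hu, huy, huW, hdet, hsn⟩ := sn_block h2 hQ hc y y' hadj hcomm hi hi2
  refine ⟨u, hu, ?_, hdet, ?_⟩
  · intro v
    obtain ⟨a, b, rfl⟩ := exists_decomp hc v
    have hsurj : Function.Surjective y' := LinearMap.surjective_of_injective hi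
    obtain ⟨c, rfl⟩ := hsurj a
    have hgb : g (b : V) ∈ orthP Q Z := orth_inv hQ hg hinv _ b.2
    have e1 : g (y' c : V) = (y' (g.restrict hinv c) : V) := (congrArg Subtype.val (hy'g c)).symm
    rw [map_add, map_add, map_add, e1, huy, huy, huW _ hgb, huW _ b.2, hyg, map_add g]
    rfl
  · rw [hsn]
    exact Cfsg.Agent.Lib.Orth.Spin.sqc_eq_one_iff.2 hns

end Cfsg.Agent.Lib.Classical.OmegaSSBlock
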