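/-
Semisimple automorphisms of odd prime order of `PΩ^±_{2m}(q)`, `q` odd: the classes under the groups of the diagram do not split.
-/
import Mathlib
import Cfsg.Agent.Lib.Classical.OmegaGraphInv2
import Cfsg.Agent.Lib.Classical.OmegaSSBlock

set_option autoImplicit false
set_option linter.unusedSimpArgs false
set_option linter.unusedSectionVars false
set_option linter.style.haveILetI false
set_option linter.unusedVariables false
set_option linter.unnecessarySimpa false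

namespace Cfsg.Agent.Lib.Classical.OmegaSSMain

open Module MulAction QuadraticMap Matrix Cfsg.Agent.Lib.Witt.Quadratic Cfsg.Agent.Lib.Orth.Refl
open Cfsg.Agent.Lib.Orth.Gen Cfsg.Agent.Lib.OrthRefl.Eichler Cfsg.Agent.Lib.Classical.QuadEichler
open Cfsg.Agent.Lib.Classical.QuadEichSimple Cfsg.Agent.Lib.Classical.OmegaHP Cfsg.Agent.Lib.Classical.OmegaLocal
open Cfsg.Agent.Lib.Classical.OmegaRoot Cfsg.Agent.Lib.Classical.OmegaSemi Cfsg.Agent.Lib.Classical.OmegaConj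
open Cfsg.Agent.Lib.Classical.OmegaBar Cfsg.Agent.Lib.Classical.OmegaAut Cfsg.Agent.Lib.Classical.OmegaCount
open Cfsg.Agent.Lib.Orth.Forms Cfsg.Agent.Lib.Classical.BinaryForms Cfsg.Agent.Lib.Classical.QuadEichBridge
open Cfsg.Agent.Lib.Classical.OmegaForms Cfsg.Agent.Lib.Classical.OmegaOut Cfsg.Agent.Lib.Orth.Bridge
open Cfsg.Agent.Lib.Classical.MatrixBridge Cfsg.Agent.Lib.Classical.SympSimple
open Cfsg.Agent.Lib.Classical.OmegaPGO Cfsg.Agent.Lib.Classical.OmegaPGO2 Cfsg.Agent.Lib.Classical.OmegaFrob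
open Cfsg.Agent.Lib.Classical.OmegaOutOdd Cfsg.Agent.Lib.KS71.Speiser Cfsg.Agent.Lib.Classical.OmegaDesc
open Cfsg.Agent.Lib.Classical.OmegaFieldOdd Cfsg.Agent.Lib.Classical.OmegaCent Cfsg.Agent.Lib.KS71.ClassSplit
open Cfsg.Agent.Lib.Classical.OmegaFieldCount Cfsg.Agent.Lib.QuadFn.MaxSingular Cfsg.Agent.Lib.Orth.Parity
open Cfsg.Agent.Lib.Classical.OmegaClass Cfsg.Agent.Lib.Orth.HypBasis Cfsg.Agent.Lib.QuadFn.PlusForm
open Cfsg.Agent.Lib.Classical.OmegaType Cfsg.Agent.Lib.Classical.OmegaPlusConj Cfsg.Agent.Lib.Classical.OmegaCentF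
open Cfsg.Agent.Lib.Classical.OmegaCross Cfsg.Agent.Lib.Classical.OmegaMinusP
open Cfsg.Agent.Lib.Classical.OmegaMinusConj
open Cfsg.Agent.Lib.Classical.OmegaLift Cfsg.Agent.Lib.Orth.Levi
open Cfsg.Agent.Lib.Classical.OmegaQuadCount
open Cfsg.Agent.Lib.Classical.OmegaInvLin Cfsg.Agent.Lib.Classical.OmegaPlusOdd Cfsg.Agent.Lib.Classical.OmegaGF
open Cfsg.Agent.Lib.Classical.OmegaGraphInv Cfsg.Agent.Lib.Classical.OmegaModel Cfsg.Agent.Lib.Classical.OmegaGraphInv2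
open Cfsg.Agent.Lib.Classical.OmegaSSLin Cfsg.Agent.Lib.Classical.OmegaSSField Cfsg.Agent.Lib.Classical.OmegaSSBlock
open scoped commutatorElement

universe u

section main

variable {F : Type u} [Field F] [Fintype F] {ι : Type} [Fintype ι] [DecidableEq ι] {Q : QuadraticForm F (ι → F)} [Nontrivial (ι → F)]
variable (hQ : (polarBilin Q).Nondegenerate) (hn : 5 ≤ Fintype.card ι) (p : ℕ) [hp : Fact p.Prime] [hc : CharP F p]
variable {m : ℕ} {P : Subgroup (Hs ⇑Q)}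

omit [Nontrivial (ι → F)] in
theorem linH_mul (a b : Hs ⇑Q) (v : ι → F) : linH (a * b) v = linH a (linH b v) := by
  rw [linH_apply, linH_apply, linH_apply, Matrix.mulVec_mulVec]
  rfl

omit [Nontrivial (ι → F)] in
theorem linH_one (v : ι → F) : linH (1 : Hs ⇑Q) v = v := by
  rw [linH_apply]
  show (1 : Matrix ι ι F) *ᵥ v = v
  rw [Matrix.one_mulVec]

omit [Nontrivial (ι → F)] in
theorem linH_pow (g : Hs ⇑Q) (n : ℕ) (v : ι → F) : ((linH g : Module.End F (ι → F)) ^ n) v = linH (g ^ n) v := by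
  induction n with
  | zero =>
    rw [pow_zero, pow_zero, linH_one]
    rfl
  | succ n ih =>
    rw [pow_succ', Module.End.mul_apply, ih, pow_succ', linH_mul]

include hQ hn p in
/-- A representative which is an isometry of order dividing `r`. -/
theorem exists_iso_rep (ĝ : Hs ⇑Q) {r : ℕ} (hro : Odd r) (hr1 : conjHom ⇑Q ĝ ^ r = 1) :
    ∃ g : Hs ⇑Q, conjHom ⇑Q g = conjHom ⇑Q ĝ ∧ mult hQ g = 1 ∧ g ^ r = 1 := by
  rw [← map_pow, conjHom_eq_one_iff (p := p) hQ hn] at hr1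
  obtain ⟨c, hc0, hc⟩ := hr1
  obtain ⟨k, hk⟩ := hro
  set μ := mult hQ ĝ with hμ
  let cu : Fˣ := Units.mk0 c hc0
  have hμr : μ ^ r = cu * cu := by
    have h1 : mult hQ (ĝ ^ r) = cu * cu := by
      apply mult_eq
      intro v
      rw [hc, Matrix.smul_mulVec, Matrix.one_mulVec, QuadraticMap.map_smul, smul_eq_mul]
      rfl
    rw [← h1, map_pow]
  let t : Fˣ := μ ^ k * cu⁻¹
  have ht2 : t * t * μ = 1 := by
    have e : t * t * μ = μ ^ r * (cu * cu)⁻¹ := by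
      rw [hk, pow_succ, pow_mul, pow_two]
      simp only [t, _root_.mul_inv_rev, mul_pow]
      simp only [mul_assoc, mul_comm, mul_left_comm]
    rw [e, hμr, mul_inv_cancel]
  have htr : t ^ r * cu = 1 := by
    have e : t ^ r = (t * t) ^ k * t := by
      rw [hk, pow_succ, pow_mul, pow_two]
    have e2 : t * t = μ⁻¹ := eq_inv_of_mul_eq_one_left ht2
    rw [e, e2, inv_pow]
    simp only [t]
    simp
  let g : Hs ⇑Q := scH t * ĝ
  have hval : g.1.val = (t : F) • ĝ.1.val := by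
    show ((scH t : Hs ⇑Q).1 * ĝ.1 : GL ι F).val = _
    rw [Units.val_mul, scH_val, Matrix.smul_mul, Matrix.one_mul]
  have hpow : ∀ n : ℕ, (g ^ n).1.val = (t : F) ^ n • (ĝ ^ n).1.val := by
    intro n
    induction n with
    | zero =>
      simp
    | succ n ih =>
      have e1 : (g ^ (n + 1)).1.val = (g ^ n).1.val * g.1.val := by
        rw [pow_succ]
        rfl
      have e2 : (ĝ ^ (n + 1)).1.val = (ĝ ^ n).1.val * ĝ.1.val := by
        rw [pow_succ]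
        rfl
      rw [e1, e2, ih, hval, Matrix.smul_mul, Matrix.mul_smul, smul_smul, pow_succ]
  refine ⟨g, ?_, ?_, ?_⟩
  · exact conjHom_smul hQ hn p ĝ g (t : F) t.ne_zero hval
  · rw [map_mul, mult_scH]
    exact ht2
  · apply Subtype.ext
    apply Units.ext
    rw [hpow, hc, smul_smul]
    have e : ((t : F) ^ r * c) = 1 := by
      have := congrArg (Units.val) htr
      simpa [cu] using this
    rw [e, one_smul]
    rfl

include hQ in
/-- The similarity of given multiplier commuting with an isometry. -/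
theorem exists_delta (h2 : (2 : F) ≠ 0) (hcard : Fintype.card ι = 2 * m) (g : Hs ⇑Q) (hg1 : mult hQ g = 1) {r : ℕ} (hro : Odd r) (hrF : (r : F) ≠ 0)
    (hgr : g ^ r = 1) (ν : Fˣ) : ∃ d : Hs ⇑Q, mult hQ d = ν ∧ d * g = g * d ∧ d.1.val.det = (ν : F) ^ m := by
  have hiso : ∀ v, Q (linH g v) = Q v := by
    intro v
    rw [linH_apply, mult_spec hQ, hg1, Units.val_one, one_mul]
  have hgr' : (linH g : Module.End F (ι → F)) ^ r = 1 := by
    apply LinearMap.ext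
    intro v
    rw [linH_pow, hgr, linH_one]
    rfl
  have hfr : finrank F (ι → F) = 2 * m := by
    simp [hcard]
  obtain ⟨M, hM, hδ⟩ := e1_all h2 hro hrF (2 * m) (ι → F) Q hQ (linH g) hiso hgr' hfr (even_two_mul m)
  have hMm : M = m := by omega
  subst hMm
  obtain ⟨δ, h1, h3, h4⟩ := hδ ν ν.ne_zero
  let D : Matrix ι ι F := LinearMap.toMatrix' δ
  have hD : ∀ v, D *ᵥ v = δ v := fun v => LinearMap.toMatrix'_mulVec δ v
  have hdet : D.det = (ν : F) ^ M := by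
    rw [← h4]
    exact LinearMap.det_toMatrix' δ
  have hd0 : D.det ≠ 0 := by
    rw [hdet]
    exact pow_ne_zero _ ν.ne_zero
  let G : GL ι F := Matrix.GeneralLinearGroup.mkOfDetNeZero D hd0
  have hGv : G.val = D := rfl
  let d : Hs ⇑Q := ⟨G, ν, fun v => by
    rw [hGv, hD, h3]⟩
  have hdv : d.1.val = D := rfl
  refine ⟨d, ?_, ?_, ?_⟩
  · apply mult_eq
    intro v
    rw [hdv, hD, h3]
  · apply Subtype.ext
    apply Units.ext
    apply Cfsg.Agent.Lib.Orth.Words.mat_eq_of_mulVec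
    intro v
    have e1 : (d * g).1.val = d.1.val * g.1.val := rfl
    have e2 : (g * d).1.val = g.1.val * d.1.val := rfl
    rw [e1, e2, ← Matrix.mulVec_mulVec, ← Matrix.mulVec_mulVec, hdv, hD, hD]
    exact h1 v
  · rw [hdv, hdet]

include hQ in
/-- The isometry of non-trivial spinor class commuting with an isometry. -/
theorem exists_u (h2 : (2 : F) ≠ 0) (hn : 5 ≤ Fintype.card ι) (g : Hs ⇑Q) (hg1 : mult hQ g = 1) {r : ℕ} (hro : Odd r) (hrF : (r : F) ≠ 0)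
    (hgr : g ^ r = 1) (hne : ∃ v, linH g v ≠ v) :
    ∃ U : Cfsg.isometryGroup F ⇑Q, (∀ v, (U : GL ι F).val *ᵥ (linH g v) = linH g ((U : GL ι F).val *ᵥ v)) ∧ (U : GL ι F).val.det = 1 ∧
      U ∉ Cfsg.Omega F ⇑Q := by
  have hiso : ∀ v, Q (linH g v) = Q v := by
    intro v
    rw [linH_apply, mult_spec hQ, hg1, Units.val_one, one_mul]
  have hgr' : (linH g : Module.End F (ι → F)) ^ r = 1 := by
    apply LinearMap.ext
    intro v
    rw [linH_pow, hgr, linH_one]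
    rfl
  obtain ⟨u, hu, hcomm, hdet, hsn⟩ := e2_all h2 hro hrF hQ (linH g) hiso hgr' hne
  let U : Cfsg.isometryGroup F ⇑Q := (Cfsg.Agent.Lib.Orth.Bridge.toIso Q).symm ⟨u, hu⟩
  have hU : ∀ v, (U : GL ι F).val *ᵥ v = u v := fun v => Cfsg.Agent.Lib.Orth.Bridge.toIso_symm_mulVec Q ⟨u, hu⟩ v
  refine ⟨U, ?_, ?_, ?_⟩
  · intro v
    rw [hU, hU]
    exact hcomm v
  · rw [← hdet, ← LinearMap.det_toLin' (U : GL ι F).val]
    congr 1
    apply LinearMap.ext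
    intro v
    rw [Matrix.toLin'_apply, hU]
    rfl
  · intro hmem
    have hcard' : Fintype.card F ≠ 2 ∨ Fintype.card ι ≠ 4 := Or.inr (by omega)
    have h1 := ((Cfsg.Agent.Lib.Orth.Bridge.mem_Omega_iff Q hQ hcard' U).1 hmem).2
    have h3 : Cfsg.Agent.Lib.Orth.Bridge.toIso Q U = ⟨u, hu⟩ := MulEquiv.apply_symm_apply _ _
    rw [h3] at h1
    rw [hsn] at h1
    exact one_ne_zero h1

include hQ hn p in
/-- Similarities of square multiplier act as isometries. -/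
theorem conj_mem_po {h : Hs ⇑Q} (hs : IsSquare (mult hQ h : F)) : conjHom ⇑Q h ∈ Cfsg.poAut F ⇑Q := by
  obtain ⟨t, ht⟩ := hs
  have ht0 : t ≠ 0 := by
    rintro rfl
    exact (mult hQ h).ne_zero (by simpa using ht)
  let tu : Fˣ := Units.mk0 t ht0
  let g₂ : Hs ⇑Q := (scH tu)⁻¹ * h
  have hg₂ker : g₂ ∈ (mult hQ).ker := by
    rw [MonoidHom.mem_ker, map_mul, map_inv, mult_scH]
    apply Units.ext
    simp only [Units.val_mul, Units.val_inv_eq_inv_val, Units.val_one, Units.val_mk0, tu, ht]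
    field_simp
  have hiso : g₂.1 ∈ Cfsg.isometryGroup F ⇑Q := (mem_ker_mult hQ).1 hg₂ker
  have e : h = scH tu * g₂ := by
    simp only [g₂]
    group
  have hval : h.1.val = t • g₂.1.val := by
    conv_lhs => rw [e]
    show ((scH tu : Hs ⇑Q).1 * g₂.1 : GL ι F).val = _
    rw [Units.val_mul, scH_val, Matrix.smul_mul, Matrix.one_mul]
    rfl
  rw [conjHom_smul hQ hn p g₂ h t ht0 hval]
  exact Subgroup.subset_closure ⟨g₂.1, hiso, (induced_iff g₂ _).2 rfl⟩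

theorem po_le_pgo : Cfsg.poAut F ⇑Q ≤ Cfsg.pgoAut F ⇑Q := by
  rw [pgoAut_eq]
  apply (Subgroup.closure_le _).2
  rintro β ⟨g, hg, hβ⟩
  exact ⟨⟨g, isometry_le_Hs hg⟩, ((induced_iff ⟨g, isometry_le_Hs hg⟩ β).1 hβ).symm⟩

theorem conj_cancel {X : Type*} [Group X] {t c x : X} (h : c * x = x * c) : (t * c) * x * (t * c)⁻¹ = t * x * t⁻¹ := by
  have e : (t * c) * x * (t * c)⁻¹ = t * (c * x * c⁻¹) * t⁻¹ := by group
  rw [e, h]
  group

include hQ in
theorem pso_le_P (hP : IsClassSub hQ m P) (h2 : (2 : F) ≠ 0) : soH ⇑Q ≤ P := by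
  intro g hg
  rw [hP.det h2]
  have h1 : g.1 ∈ Cfsg.specialIsometryGL F ⇑Q := hg
  have h3 : mult hQ g = 1 := by
    rw [← MonoidHom.mem_ker, mem_ker_mult hQ]
    exact h1.1
  have h4 : g.1.val.det = 1 := by
    have := congrArg Units.val (h1.2 : Matrix.GeneralLinearGroup.det g.1 = 1)
    exact this
  rw [h3, h4]
  simp

set_option maxHeartbeats 2000000 in
include hQ hn p in
/-- **The classes of odd prime order.** -/
theorem main_ss (h2 : (2 : F) ≠ 0) (hn7 : 7 ≤ Fintype.card ι) (hcard : Fintype.card ι = 2 * m) (hP : IsClassSub hQ m P)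
    (x : MulAut (Cfsg.POmega F ⇑Q)) (hx : x ∈ Cfsg.pgoAut F ⇑Q) {r : ℕ} (hr : r.Prime) (hro : Odd r) (hrp : r ≠ p) (hxr : orderOf x = r) :
    (∀ y : MulAut (Cfsg.POmega F ⇑Q), (Cfsg.IsConjUnder (Cfsg.Inn (Cfsg.POmega F ⇑Q)) x y ↔ Cfsg.IsConjUnder (P.map (conjHom ⇑Q)) x y) ∧
      (Cfsg.IsConjUnder (Cfsg.psoAut F ⇑Q) x y ↔ Cfsg.IsConjUnder (P.map (conjHom ⇑Q)) x y)) ∧
    (∀ y : MulAut (Cfsg.POmega F ⇑Q), Cfsg.IsConjUnder (Cfsg.poAut F ⇑Q) x y ↔ Cfsg.IsConjUnder (Cfsg.pgoAut F ⇑Q) x y) := by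
  classical
  have hrF : (r : F) ≠ 0 := by
    intro h
    have h1 := (CharP.cast_eq_zero_iff F p r).1 h
    exact hrp ((Nat.prime_dvd_prime_iff_eq hp.out hr).1 h1).symm
  rw [pgoAut_eq] at hx
  obtain ⟨ĝ, rfl⟩ := hx
  have hx1 : conjHom ⇑Q ĝ ^ r = 1 := by
    have h := pow_orderOf_eq_one (conjHom ⇑Q ĝ)
    rw [hxr] at h
    exact h
  obtain ⟨g, hgĝ, hg1, hgr⟩ := exists_iso_rep hQ hn p ĝ hro hx1
  rw [← hgĝ] at hxr ⊢
  have hcomm : ∀ c : Hs ⇑Q, c * g = g * c → conjHom ⇑Q c * conjHom ⇑Q g = conjHom ⇑Q g * conjHom ⇑Q c := by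
    intro c hc
    rw [← map_mul, ← map_mul, hc]
  -- the similarity
  obtain ⟨ν₀, hν₀⟩ := exists_nonsq h2
  have hν₀0 : ν₀ ≠ 0 := by
    rintro rfl
    exact hν₀ IsSquare.zero
  let ν : Fˣ := Units.mk0 ν₀ hν₀0
  obtain ⟨δ, hδm, hδc, hδd⟩ := exists_delta hQ h2 hcard g hg1 hro hrF hgr ν
  have hδP : δ ∈ P := by
    rw [hP.det h2, hδd, hδm]
  have hδns : ¬ IsSquare (mult hQ δ : F) := by
    rw [hδm]
    exact hν₀
  have hsq : ∀ h : Hs ⇑Q, ¬ IsSquare (mult hQ h : F) → IsSquare (mult hQ (h * δ) : F) := by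
    intro h hh
    have e : (mult hQ (h * δ) : F) = (mult hQ h : F) * (mult hQ δ : F) := by
      rw [map_mul, Units.val_mul]
    rw [e, sq_mul_iff (mult hQ h).ne_zero (mult hQ δ).ne_zero]
    exact iff_of_false hh hδns
  -- the inclusions
  have hInnP : Cfsg.Inn (Cfsg.POmega F ⇑Q) ≤ Cfsg.psoAut F ⇑Q := inn_le_pso hQ p
  have hpsoP : Cfsg.psoAut F ⇑Q ≤ P.map (conjHom ⇑Q) := by
    rw [psoAut_eq]
    exact Subgroup.map_mono (pso_le_P hQ hP h2)
  have hmono : ∀ {A B : Subgroup (MulAut (Cfsg.POmega F ⇑Q))} (y : MulAut (Cfsg.POmega F ⇑Q)), A ≤ B → Cfsg.IsConjUnder A (conjHom ⇑Q g) y → Cfsg.IsConjUnder B (conjHom ⇑Q g) y := by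
    rintro A B y hAB ⟨h, hh, hy⟩
    exact ⟨h, hAB hh, hy⟩
  -- the covering
  have hcover : ∀ h ∈ P, ∃ c : Hs ⇑Q, c * g = g * c ∧ conjHom ⇑Q (h * c) ∈ Cfsg.Inn (Cfsg.POmega F ⇑Q) := by
    intro h hh
    obtain ⟨c₁, hc₁, hc₁P, hsq₁⟩ : ∃ c₁ : Hs ⇑Q, c₁ * g = g * c₁ ∧ c₁ ∈ P ∧ IsSquare (mult hQ (h * c₁) : F) := by
      by_cases hs : IsSquare (mult hQ h : F)
      · exact ⟨1, by simp, one_mem _, by simpa using hs⟩
      · exact ⟨δ, hδc, hδP, hsq h hs⟩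
    have hh₁ : h * c₁ ∈ P := mul_mem hh hc₁P
    by_cases hneg : ∃ s : Cfsg.Omega F ⇑Q, (s.1.1 : GL ι F).val = -1
    · -- the element of non-trivial spinor class
      have hne : ∃ v, linH g v ≠ v := by
        by_contra hall
        push Not at hall
        have h1 : g = 1 := by
          apply Subtype.ext
          apply Units.ext
          apply Cfsg.Agent.Lib.Orth.Words.mat_eq_of_mulVec
          intro v
          have e : ((1 : Hs ⇑Q).1 : GL ι F).val = 1 := rfl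
          rw [e, Matrix.one_mulVec]
          exact hall v
        rw [h1, map_one, orderOf_one] at hxr
        exact hr.one_lt.ne hxr
      obtain ⟨U, hUc, hUd, hUO⟩ := exists_u hQ h2 hn g hg1 hro hrF hgr hne
      let û : Hs ⇑Q := ⟨U.1, isometry_le_Hs U.2⟩
      have hûm : mult hQ û = 1 := by
        rw [← MonoidHom.mem_ker, mem_ker_mult hQ]
        exact U.2
      have hûP : û ∈ P := by
        rw [hP.det h2, hûm]
        simp only [Units.val_one, one_pow]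
        exact hUd
      have hûc : û * g = g * û := by
        apply Subtype.ext
        apply Units.ext
        apply Cfsg.Agent.Lib.Orth.Words.mat_eq_of_mulVec
        intro v
        have e1 : (û * g).1.val = û.1.val * g.1.val := rfl
        have e2 : (g * û).1.val = g.1.val * û.1.val := rfl
        rw [e1, e2, ← Matrix.mulVec_mulVec, ← Matrix.mulVec_mulVec]
        exact hUc v
      have hûO : conjHom ⇑Q û ∉ Cfsg.Inn (Cfsg.POmega F ⇑Q) := by
        intro h1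
        exact hUO (omega_of_inn hQ hn p hneg û U 1 one_ne_zero (by rw [one_smul]) h1)
      have hidx := relIndex_Nom (P := P) hQ hn p h2 hP hneg
      have hûM : (⟨û, hûP⟩ : P) ∈ Msq hQ P := by
        rw [mem_Msq]
        show IsSquare (mult hQ û : F)
        rw [hûm]
        exact ⟨1, by simp⟩
      have hh₁M : (⟨h * c₁, hh₁⟩ : P) ∈ Msq hQ P := by
        rw [mem_Msq]
        exact hsq₁
      have hkey := Subgroup.mul_mem_iff_of_index_two (H := (Nom P).subgroupOf (Msq hQ P)) hidx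
        (a := ⟨⟨h * c₁, hh₁⟩, hh₁M⟩) (b := ⟨⟨û, hûP⟩, hûM⟩)
      rw [Subgroup.mem_subgroupOf, Subgroup.mem_subgroupOf, Subgroup.mem_subgroupOf] at hkey
      have hb : conjHom ⇑Q û ∉ Cfsg.Inn (Cfsg.POmega F ⇑Q) := hûO
      by_cases hin : conjHom ⇑Q (h * c₁) ∈ Cfsg.Inn (Cfsg.POmega F ⇑Q)
      · exact ⟨c₁, hc₁, hin⟩
      · refine ⟨c₁ * û, ?_, ?_⟩
        · rw [mul_assoc, hûc, ← mul_assoc, hc₁, mul_assoc]
        · have h5 : conjHom ⇑Q (h * c₁ * û) ∈ Cfsg.Inn (Cfsg.POmega F ⇑Q) :=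
            hkey.2 (iff_of_false hin hb)
          rwa [← mul_assoc]
    · -- `-1` is not in `Ω`
      have hneg' : ¬ ∃ g : Cfsg.isometryGroup F ⇑Q, g ∈ Cfsg.Omega F ⇑Q ∧ ((g : GL ι F) : Matrix ι ι F) = -1 := by
        rintro ⟨g, hg, hg2⟩
        exact hneg ⟨⟨g, hg⟩, hg2⟩
      have h1 := Msq_le_Nom_not_neg hQ hn p h2 hn7 hcard hP hneg' (x := ⟨h * c₁, hh₁⟩) ((mem_Msq hQ _).2 hsq₁)
      exact ⟨c₁, hc₁, h1⟩
  constructor
  · intro y
    have hA : Cfsg.IsConjUnder (Cfsg.Inn (Cfsg.POmega F ⇑Q)) (conjHom ⇑Q g) y ↔ Cfsg.IsConjUnder (P.map (conjHom ⇑Q)) (conjHom ⇑Q g) y := by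
      refine ⟨hmono y (hInnP.trans hpsoP), ?_⟩
      rintro ⟨_, ⟨h, hh, rfl⟩, hy⟩
      obtain ⟨c, hc, hin⟩ := hcover h hh
      refine ⟨_, hin, ?_⟩
      rw [hy, map_mul, conj_cancel (hcomm c hc)]
    refine ⟨hA, ?_⟩
    exact ⟨hmono y hpsoP, fun h => hmono y hInnP (hA.2 h)⟩
  · intro y
    refine ⟨hmono y po_le_pgo, ?_⟩
    rintro ⟨t, ht, hy⟩
    rw [pgoAut_eq] at ht
    obtain ⟨h, rfl⟩ := ht
    by_cases hs : IsSquare (mult hQ h : F)
    · exact ⟨_, conj_mem_po hQ hn p hs, hy⟩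
    · refine ⟨_, conj_mem_po hQ hn p (hsq h hs), ?_⟩
      rw [hy, map_mul, conj_cancel (hcomm δ hδc)]

end main

section plus

variable {F : Type u} [Field F] [Fintype F]

set_option maxHeartbeats 2000000 in
/-- **S2720**. -/
theorem main_plus_ss {p : ℕ} [hp' : Fact p.Prime] [CharP F p] (hp : p ≠ 2) {m : ℕ} (hm : 4 ≤ m) (x : MulAut (Cfsg.POmega F (Cfsg.quadFormPlus m F)))
    (hx : x ∈ Cfsg.pgoAut F (Cfsg.quadFormPlus m F)) {r : ℕ} (hr : r.Prime) (hro : Odd r) (hrp : r ≠ p) (hxr : orderOf x = r) :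
    (∀ y : MulAut (Cfsg.POmega F (Cfsg.quadFormPlus m F)), (Cfsg.IsConjUnder (Cfsg.Inn (Cfsg.POmega F (Cfsg.quadFormPlus m F))) x y ↔ Cfsg.IsConjUnder (Cfsg.inndiagPOmegaPlus m F) x y) ∧
      (Cfsg.IsConjUnder (Cfsg.psoAut F (Cfsg.quadFormPlus m F)) x y ↔ Cfsg.IsConjUnder (Cfsg.inndiagPOmegaPlus m F) x y)) ∧
    (∀ y : MulAut (Cfsg.POmega F (Cfsg.quadFormPlus m F)), Cfsg.IsConjUnder (Cfsg.poAut F (Cfsg.quadFormPlus m F)) x y ↔ Cfsg.IsConjUnder (Cfsg.pgoAut F (Cfsg.quadFormPlus m F)) x y) := by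
  classical
  have h2 : (2 : F) ≠ 0 := by
    intro h
    have h1 := (CharP.cast_eq_zero_iff F p 2).1 (by exact_mod_cast h)
    exact hp ((Nat.prime_dvd_prime_iff_eq hp'.out Nat.prime_two).1 h1)
  have hQ := plusForm_nondeg (F := F) m
  have hcard := card_plus m
  have hn : 5 ≤ Fintype.card (Fin m ⊕ Fin m) := by omega
  have hn7 : 7 ≤ Fintype.card (Fin m ⊕ Fin m) := by omega
  haveI : Nonempty (Fin m ⊕ Fin m) := ⟨.inl ⟨0, by omega⟩⟩
  haveI : Nontrivial (Fin m ⊕ Fin m → F) := inferInstance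
  rw [inndiag_plus_eq]
  exact main_ss hQ hn p h2 hn7 hcard (isClassSub_HpPlus (F := F) m) x hx hr hro hrp hxr

set_option maxHeartbeats 2000000 in
/-- **S2721**. -/
theorem main_minus_ss {p : ℕ} [hp' : Fact p.Prime] [CharP F p] (hp : p ≠ 2) {m : ℕ} (hm : 3 ≤ m) (a b : F)
    (hab : ∀ z₁ z₂ : F, z₁ ^ 2 + a * z₁ * z₂ + b * z₂ ^ 2 = 0 → z₁ = 0 ∧ z₂ = 0) (x : MulAut (Cfsg.POmega F (Cfsg.quadFormMinus m F a b)))
    (hx : x ∈ Cfsg.pgoAut F (Cfsg.quadFormMinus m F a b)) {r : ℕ} (hr : r.Prime) (hro : Odd r) (hrp : r ≠ p) (hxr : orderOf x = r) :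
    (∀ y : MulAut (Cfsg.POmega F (Cfsg.quadFormMinus m F a b)), (Cfsg.IsConjUnder (Cfsg.Inn (Cfsg.POmega F (Cfsg.quadFormMinus m F a b))) x y ↔ Cfsg.IsConjUnder (Cfsg.inndiagPOmegaMinus m F a b) x y) ∧
      (Cfsg.IsConjUnder (Cfsg.psoAut F (Cfsg.quadFormMinus m F a b)) x y ↔ Cfsg.IsConjUnder (Cfsg.inndiagPOmegaMinus m F a b) x y)) ∧
    (∀ y : MulAut (Cfsg.POmega F (Cfsg.quadFormMinus m F a b)), Cfsg.IsConjUnder (Cfsg.poAut F (Cfsg.quadFormMinus m F a b)) x y ↔ Cfsg.IsConjUnder (Cfsg.pgoAut F (Cfsg.quadFormMinus m F a b)) x y) := by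
  classical
  have h2 : (2 : F) ≠ 0 := by
    intro h
    have h1 := (CharP.cast_eq_zero_iff F p 2).1 (by exact_mod_cast h)
    exact hp ((Nat.prime_dvd_prime_iff_eq hp'.out Nat.prime_two).1 h1)
  have hQ := minusForm_nondeg (F := F) m hab
  have hcard := card_minus' m
  have hn : 5 ≤ Fintype.card ((Fin m ⊕ Fin m) ⊕ Fin 2) := by omega
  have hn7 : 7 ≤ Fintype.card ((Fin m ⊕ Fin m) ⊕ Fin 2) := by omega
  have hn' : 5 ≤ 2 * m + 2 := by omega
  haveI : Nonempty ((Fin m ⊕ Fin m) ⊕ Fin 2) := ⟨.inr 0⟩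
  haveI : Nontrivial ((Fin m ⊕ Fin m) ⊕ Fin 2 → F) := inferInstance
  rw [inndiag_minus_eq' hn' hab]
  exact main_ss hQ hn p h2 hn7 hcard (isClassSub_Pm hn' hab) x hx hr hro hrp hxr

end plus

end Cfsg.Agent.Lib.Classical.OmegaSSMain
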