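import Mathlib
import Cfsg.Agent.Lib.KS71.PSLCent
import Cfsg.Agent.Lib.KS71.GalFin
import Cfsg.Agent.Lib.Classical.OmegaOut
import Cfsg.Agent.Lib.Classical.Transvections
import Cfsg.Agent.Lib.Classical.SLBasic
import Cfsg.Agent.Lib.Classical.LowOmega.CenterPSL2

/-!
# The structure of `Out(PSL_n(q))`

From the factorisation of automorphisms into conjugations, field automorphisms and the inverse
transpose: `Out(PSL_n(q))` maps onto `C_f × C_2` (onto `C_f` if `n = 2`) with cyclic kernel of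
order `gcd(n, q - 1)`.
-/

set_option autoImplicit false

namespace Cfsg.Agent.Lib.Classical.OutPSL

open Matrix
open Cfsg.Agent.Lib.KS71.PSLCore Cfsg.Agent.Lib.KS71.PSLAutGroup Cfsg.Agent.Lib.KS71.PSLCent

/-- A surjection from `Out G` with kernel generated by the image of a cyclic group. -/
theorem out_struct {G K U : Type*} [Group G] [Finite G] [Group K] [Finite K] [Group U] [IsCyclic U]
    (ρ : MulAut G →* K) (hρ : Function.Surjective ρ) (hInn : Cfsg.Inn G ≤ ρ.ker)
    (D : U →* MulAut G) (hD : ∀ u, ρ (D u) = 1)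
    (hker : ∀ β, ρ β = 1 → ∃ u, (D u)⁻¹ * β ∈ Cfsg.Inn G) :
    ∃ φ : Cfsg.Out G →* K, Function.Surjective φ ∧ IsCyclic φ.ker ∧
      Nat.card φ.ker * Nat.card K = Nat.card (Cfsg.Out G) := by
  let φ : Cfsg.Out G →* K := QuotientGroup.lift (Cfsg.Inn G) ρ (fun x hx => hInn hx)
  have hφ : ∀ β, φ (QuotientGroup.mk β) = ρ β := fun β => rfl
  have hsurj : Function.Surjective φ := fun k => by
    obtain ⟨β, rfl⟩ := hρ k
    exact ⟨QuotientGroup.mk β, rfl⟩
  refine ⟨φ, hsurj, ?_, ?_⟩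
  · let D' : U →* φ.ker :=
      MonoidHom.codRestrict ((QuotientGroup.mk' (Cfsg.Inn G)).comp D) φ.ker (fun u => by
        show φ (QuotientGroup.mk (D u)) = 1
        rw [hφ, hD])
    apply isCyclic_of_surjective D'
    rintro ⟨x, hx⟩
    obtain ⟨β, rfl⟩ := QuotientGroup.mk_surjective x
    have hβ : ρ β = 1 := hx
    obtain ⟨u, hu⟩ := hker β hβ
    refine ⟨u, Subtype.ext ?_⟩
    show (QuotientGroup.mk (D u) : Cfsg.Out G) = QuotientGroup.mk β
    exact QuotientGroup.eq.mpr hu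
  · have h1 := φ.ker.card_mul_index
    have h2 : φ.ker.index = Nat.card K := by
      rw [Subgroup.index_ker, MonoidHom.range_eq_top.mpr hsurj]
      exact Nat.card_congr Subgroup.topEquiv.toEquiv
    rw [← h2, h1]

variable {F : Type*} [Field F] {n : ℕ}

/-- The conjugation by the diagonal matrices, as a homomorphism. -/
theorem dg_mul (hn : 1 ≤ n) (u v : Fˣ) : (dg hn (u * v) : GL (Fin n) F) = dg hn u * dg hn v := by
  apply Units.ext
  rw [Units.val_mul, coe_dg, coe_dg, coe_dg, Matrix.diagonal_mul_diagonal]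
  congr 1
  funext i
  by_cases hi : i = ⟨0, by omega⟩
  · subst hi
    simp
  · simp [hi]

/-- The homomorphism from the units. -/
noncomputable def DD (hn : 1 ≤ n) : Fˣ →* MulAut (ProjectiveSpecialLinearGroup (Fin n) F) :=
  MonoidHom.mk' (fun u => autOf (conjS (dg hn u))) (fun u v => by
    rw [dg_mul, Cfsg.Agent.Lib.KS71.PSLAutGroup.conj_mul])

theorem inv_DD_conj (hn : 1 ≤ n) (g : GL (Fin n) F) :
    (DD hn (dt g))⁻¹ * autOf (conjS g) ∈ Cfsg.Inn (ProjectiveSpecialLinearGroup (Fin n) F) := by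
  rw [← Inn_eq]
  refine ⟨(dg hn (dt g))⁻¹ * g, ?_, ?_⟩
  · show dt ((dg hn (dt g))⁻¹ * g) = 1
    rw [map_mul, map_inv, dt_dg, inv_mul_cancel]
  · show autOf (conjS ((dg hn (dt g))⁻¹ * g)) = _
    rw [Cfsg.Agent.Lib.KS71.PSLAutGroup.conj_mul, Cfsg.Agent.Lib.KS71.PSLAutGroup.conj_inv]
    rfl

/-- The power of the inverse transpose. -/
noncomputable def tp (ε : Multiplicative (ZMod 2)) : MulAut (ProjectiveSpecialLinearGroup (Fin n) F) :=
  if ε = 1 then 1 else autOf invTrS

theorem tp_one : tp (1 : Multiplicative (ZMod 2)) = (1 : MulAut (ProjectiveSpecialLinearGroup (Fin n) F)) :=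
  if_pos rfl

theorem mult_two_cases (ε : Multiplicative (ZMod 2)) : ε = 1 ∨ ε = Multiplicative.ofAdd 1 := by
  revert ε
  decide

theorem tp_gen : tp (Multiplicative.ofAdd (1 : ZMod 2)) = (autOf invTrS : MulAut (ProjectiveSpecialLinearGroup (Fin n) F)) :=
  if_neg (by decide)

theorem tp_mul (a b : Multiplicative (ZMod 2)) :
    tp (a * b) = (tp a * tp b : MulAut (ProjectiveSpecialLinearGroup (Fin n) F)) := by
  rcases mult_two_cases a with rfl | rfl <;> rcases mult_two_cases b with rfl | rfl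
  · simp [tp_one]
  · simp [tp_one]
  · simp [tp_one]
  · rw [tp_gen, invTr_sq]
    exact tp_one

theorem tp_conj (ε : Multiplicative (ZMod 2)) (g : GL (Fin n) F) :
    ∃ g', tp ε * autOf (conjS g) = autOf (conjS g') * tp ε := by
  rcases mult_two_cases ε with rfl | rfl
  · exact ⟨g, by simp [tp_one]⟩
  · exact ⟨invTrGL g, by rw [tp_gen, invTr_conj]⟩

theorem tp_field (ε : Multiplicative (ZMod 2)) (σ : F ≃+* F) :
    (tp ε * autOf (fieldS σ) : MulAut (ProjectiveSpecialLinearGroup (Fin n) F)) = autOf (fieldS σ) * tp ε := by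
  rcases mult_two_cases ε with rfl | rfl
  · simp [tp_one]
  · rw [tp_gen, invTr_field]

/-- The description of an automorphism. -/
def Rep (β : MulAut (ProjectiveSpecialLinearGroup (Fin n) F)) (σ : F ≃+* F) (ε : Multiplicative (ZMod 2)) : Prop :=
  ∃ g : GL (Fin n) F, β = autOf (conjS g) * autOf (fieldS σ) * tp ε

theorem Rep_mul {β β' : MulAut (ProjectiveSpecialLinearGroup (Fin n) F)} {σ σ' : F ≃+* F}
    {ε ε' : Multiplicative (ZMod 2)} (h : Rep β σ ε) (h' : Rep β' σ' ε') :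
    Rep (β * β') (σ * σ') (ε * ε') := by
  obtain ⟨g, rfl⟩ := h
  obtain ⟨g', rfl⟩ := h'
  obtain ⟨g'', h''⟩ := tp_conj ε g'
  refine ⟨g * mapGL σ g'', ?_⟩
  rw [Cfsg.Agent.Lib.KS71.PSLAutGroup.conj_mul, field_mul, tp_mul]
  calc autOf (conjS g) * autOf (fieldS σ) * tp ε * (autOf (conjS g') * autOf (fieldS σ') * tp ε')
      = autOf (conjS g) * autOf (fieldS σ) * (tp ε * autOf (conjS g')) * autOf (fieldS σ') * tp ε' := by
        simp only [mul_assoc]
    _ = autOf (conjS g) * (autOf (fieldS σ) * autOf (conjS g'')) * (tp ε * autOf (fieldS σ')) * tp ε' := by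
        rw [h'']
        simp only [mul_assoc]
    _ = _ := by
        rw [field_conj, tp_field]
        simp only [mul_assoc]

theorem Rep_unique₂ {β : MulAut (ProjectiveSpecialLinearGroup (Fin n) F)} (hn : 2 ≤ n) {σ σ' : F ≃+* F}
    (h : Rep β σ 1) (h' : Rep β σ' 1) : σ = σ' := by
  obtain ⟨g, rfl⟩ := h
  obtain ⟨g', hg'⟩ := h'
  rw [tp_one, mul_one, mul_one] at hg'
  exact (semi_inj hn hg').1

theorem Rep_unique {β : MulAut (ProjectiveSpecialLinearGroup (Fin n) F)} (hn : 3 ≤ n) {σ σ' : F ≃+* F}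
    {ε ε' : Multiplicative (ZMod 2)} (h : Rep β σ ε) (h' : Rep β σ' ε') : σ = σ' ∧ ε = ε' := by
  obtain ⟨g, rfl⟩ := h
  obtain ⟨g', hg'⟩ := h'
  rcases mult_two_cases ε with rfl | rfl <;> rcases mult_two_cases ε' with rfl | rfl
  · rw [tp_one, mul_one, mul_one] at hg'
    exact ⟨(semi_inj (by omega) hg').1, rfl⟩
  · rw [tp_one, mul_one, tp_gen] at hg'
    exact absurd hg' (semi_ne_dual hn _ _ _ _)
  · rw [tp_one, mul_one, tp_gen] at hg'
    exact absurd hg'.symm (semi_ne_dual hn _ _ _ _)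
  · rw [tp_gen] at hg'
    exact ⟨(semi_inj (by omega) (mul_right_cancel hg')).1, rfl⟩

section Finite

variable [Fintype F]

/-- The map onto field automorphisms and the graph automorphism. -/
noncomputable def rho {p f : ℕ} (hp : p.Prime) (hF : Fintype.card F = p ^ f) (hf : 1 ≤ f) (hn : 3 ≤ n) :
    MulAut (ProjectiveSpecialLinearGroup (Fin n) F) →* (F ≃+* F) × Multiplicative (ZMod 2) :=
  have hex : ∀ β : MulAut (ProjectiveSpecialLinearGroup (Fin n) F),
      ∃ x : (F ≃+* F) × Multiplicative (ZMod 2), Rep β x.1 x.2 := fun β => by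
    obtain ⟨g, σ, h | h⟩ := Cfsg.Agent.Lib.KS71.PSLAutMain.main hp hF hf (by omega) β
    · exact ⟨(σ, 1), g, by rw [h, tp_one, mul_one]⟩
    · exact ⟨(σ, Multiplicative.ofAdd 1), g, by rw [h, tp_gen]⟩
  MonoidHom.mk' (fun β => Classical.choose (hex β)) (fun β β' => by
    have h1 := Classical.choose_spec (hex β)
    have h2 := Classical.choose_spec (hex β')
    have h3 := Classical.choose_spec (hex (β * β'))
    have h4 := Rep_unique hn h3 (Rep_mul h1 h2)
    exact Prod.ext h4.1 h4.2)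

theorem rho_eq {p f : ℕ} (hp : p.Prime) (hF : Fintype.card F = p ^ f) (hf : 1 ≤ f) (hn : 3 ≤ n)
    {β : MulAut (ProjectiveSpecialLinearGroup (Fin n) F)} {σ : F ≃+* F} {ε : Multiplicative (ZMod 2)}
    (h : Rep β σ ε) : rho hp hF hf hn β = (σ, ε) := by
  have hex : ∃ x : (F ≃+* F) × Multiplicative (ZMod 2), Rep β x.1 x.2 := ⟨(σ, ε), h⟩
  have h1 : Rep β (rho hp hF hf hn β).1 (rho hp hF hf hn β).2 := Classical.choose_spec hex
  have h2 := Rep_unique hn h1 h
  exact Prod.ext h2.1 h2.2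

theorem isCyclic_units_field : IsCyclic Fˣ := inferInstance

/-- The structure of `Out(PSL_n(F))` for `n ≥ 3`, in terms of the automorphisms of `F`. -/
theorem main_three {p f : ℕ} [hp : Fact p.Prime] (hF : Fintype.card F = p ^ f) (hf : 1 ≤ f) (hn : 3 ≤ n) :
    ∃ φ : Cfsg.Out (ProjectiveSpecialLinearGroup (Fin n) F) →* (F ≃+* F) × Multiplicative (ZMod 2),
      Function.Surjective φ ∧ IsCyclic φ.ker ∧ Nat.card φ.ker = Nat.gcd n (p ^ f - 1) := by
  have hp' : p.Prime := hp.out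
  let ρ := rho hp' hF hf hn
  have hFin : Finite (ProjectiveSpecialLinearGroup (Fin n) F) := inferInstance
  have hfin2 : Finite (F ≃+* F) := Cfsg.Agent.Lib.KS71.GalFin.instFiniteRingEquiv
  obtain ⟨φ, h1, h2, h3⟩ := out_struct (U := Fˣ) ρ
    (fun x => ⟨autOf (fieldS x.1) * tp x.2, rho_eq hp' hF hf hn ⟨1, by rw [conj_one, one_mul]⟩⟩)
    (by
      rintro _ ⟨y, rfl⟩
      obtain ⟨t, rfl⟩ := mkP_surj y
      show ρ _ = 1
      have : Rep (MulAut.conj (mkP t)) (1 : F ≃+* F) (1 : Multiplicative (ZMod 2)) := ⟨slGL t, by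
        rw [conj_mkP, field_one, tp_one, mul_one, mul_one]⟩
      exact rho_eq hp' hF hf hn this)
    (DD (by omega))
    (fun u => by
      have : Rep (DD (by omega) u : MulAut (ProjectiveSpecialLinearGroup (Fin n) F)) (1 : F ≃+* F) (1 : Multiplicative (ZMod 2)) :=
        ⟨dg (by omega) u, by
          rw [field_one, tp_one, mul_one, mul_one]
          rfl⟩
      exact rho_eq hp' hF hf hn this)
    (fun β hβ => by
      have hrep : Rep β (1 : F ≃+* F) (1 : Multiplicative (ZMod 2)) := by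
        obtain ⟨g, σ, h | h⟩ := Cfsg.Agent.Lib.KS71.PSLAutMain.main hp' hF hf (by omega) β
        · have h5 : Rep β σ (1 : Multiplicative (ZMod 2)) := ⟨g, by rw [h, tp_one, mul_one]⟩
          have h6 := rho_eq hp' hF hf hn h5
          have h7 : ((σ, 1) : (F ≃+* F) × Multiplicative (ZMod 2)) = 1 := h6.symm.trans hβ
          have h8 : σ = 1 := congrArg Prod.fst h7
          rw [← h8]
          exact h5
        · have h5 : Rep β σ (Multiplicative.ofAdd (1 : ZMod 2)) := ⟨g, by rw [h, tp_gen]⟩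
          have h6 := rho_eq hp' hF hf hn h5
          have h7 : ((σ, Multiplicative.ofAdd (1 : ZMod 2)) : (F ≃+* F) × Multiplicative (ZMod 2)) = 1 :=
            h6.symm.trans hβ
          have h8 : Multiplicative.ofAdd (1 : ZMod 2) = 1 := congrArg Prod.snd h7
          exact absurd h8 (by decide)
      obtain ⟨g, hg⟩ := hrep
      rw [field_one, tp_one, mul_one, mul_one] at hg
      refine ⟨dt g, ?_⟩
      rw [hg]
      exact inv_DD_conj (by omega) g)
  refine ⟨φ, h1, h2, ?_⟩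
  -- counting
  have hsimple : IsSimpleGroup (ProjectiveSpecialLinearGroup (Fin n) F) :=
    Cfsg.Agent.Lib.Classical.Transvections.psl_isSimpleGroup (by simpa using hn)
  have hperf : commutator (ProjectiveSpecialLinearGroup (Fin n) F) = ⊤ := by
    have : Group.IsPerfect (Matrix.SpecialLinearGroup (Fin n) F) :=
      ⟨Cfsg.Agent.Lib.Classical.Transvections.commutator_sl_eq_top (by simpa using hn)⟩
    have : Group.IsPerfect (ProjectiveSpecialLinearGroup (Fin n) F) := inferInstance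
    exact this.commutator_eq_top
  have hcen := Cfsg.Agent.Lib.Classical.OmegaOut.center_eq_bot hperf
  have hout := Cfsg.Agent.Lib.Classical.OmegaOut.card_out hcen
  have hne : Nonempty (Fin n) := ⟨⟨0, by omega⟩⟩
  rw [card_ge_three hF hf hn, Cfsg.Agent.Lib.Classical.SLBasic.card_pgl_eq_card_sl,
    Cfsg.Agent.Lib.Classical.SLBasic.card_sl_eq_mul_card_psl,
    Cfsg.Agent.Lib.Classical.SLBasic.card_center_sl] at hout
  have h2' : Nat.card (Multiplicative (ZMod 2)) = 2 := by
    rw [Nat.card_eq_fintype_card, Fintype.card_multiplicative, ZMod.card]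
  rw [← h3, Nat.card_prod, card_ringEquiv hF hf, h2', hF, Fintype.card_fin, Nat.gcd_comm] at hout
  have hP : 0 < Nat.card (ProjectiveSpecialLinearGroup (Fin n) F) := Nat.card_pos
  have hpos : 0 < 2 * f * Nat.card (ProjectiveSpecialLinearGroup (Fin n) F) := by positivity
  apply Nat.eq_of_mul_eq_mul_left hpos
  calc 2 * f * Nat.card (ProjectiveSpecialLinearGroup (Fin n) F) * Nat.card φ.ker
      = Nat.card φ.ker * (f * 2) * Nat.card (ProjectiveSpecialLinearGroup (Fin n) F) := by ring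
    _ = _ := by rw [hout]; ring

/-- The map onto field automorphisms for `n = 2`. -/
noncomputable def rho₂ {p f : ℕ} (hp : p.Prime) (hF : Fintype.card F = p ^ f) (hf : 1 ≤ f) :
    MulAut (ProjectiveSpecialLinearGroup (Fin 2) F) →* (F ≃+* F) :=
  have hex : ∀ β : MulAut (ProjectiveSpecialLinearGroup (Fin 2) F),
      ∃ x : F ≃+* F, Rep β x 1 := fun β => by
    obtain ⟨g, σ, h | h⟩ := Cfsg.Agent.Lib.KS71.PSLAutMain.main hp hF hf le_rfl β
    · exact ⟨σ, g, by rw [h, tp_one, mul_one]⟩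
    · -- the inverse transpose is inner for `n = 2`
      have hT : Cfsg.Agent.Lib.KS71.PSLAut3.TInv 2 F := fun β x hx =>
        Cfsg.Agent.Lib.KS71.PSLSylow.isT_map hp hF hf le_rfl β hx
      obtain ⟨g', σ', h'⟩ := Cfsg.Agent.Lib.KS71.PSLAut2.main2 hT β
      exact ⟨σ', g', by rw [h', tp_one, mul_one]⟩
  MonoidHom.mk' (fun β => Classical.choose (hex β)) (fun β β' => by
    have h1 := Classical.choose_spec (hex β)
    have h2 := Classical.choose_spec (hex β')
    have h3 := Classical.choose_spec (hex (β * β'))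
    have h5 := Rep_mul h1 h2
    rw [mul_one] at h5
    exact Rep_unique₂ le_rfl h3 h5)

theorem rho₂_eq {p f : ℕ} (hp : p.Prime) (hF : Fintype.card F = p ^ f) (hf : 1 ≤ f)
    {β : MulAut (ProjectiveSpecialLinearGroup (Fin 2) F)} {σ : F ≃+* F}
    (h : Rep β σ 1) : rho₂ hp hF hf β = σ := by
  have hex : ∃ x : F ≃+* F, Rep β x 1 := ⟨σ, h⟩
  have h1 : Rep β (rho₂ hp hF hf β) 1 := Classical.choose_spec hex
  exact Rep_unique₂ le_rfl h1 h

/-- The structure of `Out(PSL₂(F))`, in terms of the automorphisms of `F`. -/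
theorem main_two {p f : ℕ} [hp : Fact p.Prime] (hF : Fintype.card F = p ^ f) (hf : 1 ≤ f) :
    ∃ φ : Cfsg.Out (ProjectiveSpecialLinearGroup (Fin 2) F) →* (F ≃+* F),
      Function.Surjective φ ∧ IsCyclic φ.ker ∧ Nat.card φ.ker = Nat.gcd 2 (p ^ f - 1) := by
  have hp' : p.Prime := hp.out
  let ρ := rho₂ hp' hF hf
  have hFin : Finite (ProjectiveSpecialLinearGroup (Fin 2) F) := inferInstance
  have hfin2 : Finite (F ≃+* F) := Cfsg.Agent.Lib.KS71.GalFin.instFiniteRingEquiv
  obtain ⟨φ, h1, h2, h3⟩ := out_struct (U := Fˣ) ρ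
    (fun x => ⟨autOf (fieldS x), rho₂_eq hp' hF hf ⟨1, by rw [conj_one, one_mul, tp_one, mul_one]⟩⟩)
    (by
      rintro _ ⟨y, rfl⟩
      obtain ⟨t, rfl⟩ := mkP_surj y
      show ρ _ = 1
      have : Rep (MulAut.conj (mkP t)) (1 : F ≃+* F) (1 : Multiplicative (ZMod 2)) := ⟨slGL t, by
        rw [conj_mkP, field_one, tp_one, mul_one, mul_one]⟩
      exact rho₂_eq hp' hF hf this)
    (DD (by omega))
    (fun u => by
      have : Rep (DD (by omega) u : MulAut (ProjectiveSpecialLinearGroup (Fin 2) F)) (1 : F ≃+* F) (1 : Multiplicative (ZMod 2)) :=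
        ⟨dg (by omega) u, by
          rw [field_one, tp_one, mul_one, mul_one]
          rfl⟩
      exact rho₂_eq hp' hF hf this)
    (fun β hβ => by
      have hT : Cfsg.Agent.Lib.KS71.PSLAut3.TInv 2 F := fun β x hx =>
        Cfsg.Agent.Lib.KS71.PSLSylow.isT_map hp' hF hf le_rfl β hx
      obtain ⟨g, σ, h⟩ := Cfsg.Agent.Lib.KS71.PSLAut2.main2 hT β
      have h5 : Rep β σ (1 : Multiplicative (ZMod 2)) := ⟨g, by rw [h, tp_one, mul_one]⟩
      have h6 := rho₂_eq hp' hF hf h5
      have h7 : σ = 1 := h6.symm.trans hβ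
      rw [h7, field_one, mul_one] at h
      refine ⟨dt g, ?_⟩
      rw [h]
      exact inv_DD_conj (by omega) g)
  refine ⟨φ, h1, h2, ?_⟩
  have hcen := Cfsg.Agent.Lib.Classical.LowOmega.center_psl_two_eq_bot (F := F)
  have hout := Cfsg.Agent.Lib.Classical.OmegaOut.card_out hcen
  rw [card_two hF hf, Cfsg.Agent.Lib.Classical.SLBasic.card_pgl_eq_card_sl,
    Cfsg.Agent.Lib.Classical.SLBasic.card_sl_eq_mul_card_psl,
    Cfsg.Agent.Lib.Classical.SLBasic.card_center_sl] at hout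
  rw [← h3, card_ringEquiv hF hf, hF, Fintype.card_fin, Nat.gcd_comm] at hout
  have hP : 0 < Nat.card (ProjectiveSpecialLinearGroup (Fin 2) F) := Nat.card_pos
  have hpos : 0 < f * Nat.card (ProjectiveSpecialLinearGroup (Fin 2) F) := by positivity
  apply Nat.eq_of_mul_eq_mul_left hpos
  calc f * Nat.card (ProjectiveSpecialLinearGroup (Fin 2) F) * Nat.card φ.ker
      = Nat.card φ.ker * f * Nat.card (ProjectiveSpecialLinearGroup (Fin 2) F) := by ring
    _ = _ := by rw [hout]; ring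

/-- The isomorphism of the automorphism group of `F` with `ZMod f`. -/
theorem exists_gal_equiv {p f : ℕ} [hp : Fact p.Prime] (hF : Fintype.card F = p ^ f) (hf : 1 ≤ f) :
    Nonempty ((F ≃+* F) ≃* Multiplicative (ZMod f)) := by
  have hc : Nat.card (F ≃+* F) = f := card_ringEquiv hF hf
  have hcyc : IsCyclic (F ≃+* F) := Cfsg.Agent.Lib.KS71.GalFin.isCyclic
  have e := zmodCyclicMulEquiv hcyc
  rw [hc] at e
  exact ⟨e.symm⟩

theorem ker_comp {A B C : Type*} [Group A] [Group B] [Group C] (φ : A →* B) (e : B ≃* C) :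
    (e.toMonoidHom.comp φ).ker = φ.ker := by
  ext x
  simp [MonoidHom.mem_ker]

/-- `S2601`. -/
theorem main_S2601 {p f : ℕ} [hp : Fact p.Prime] (hf : 1 ≤ f) (hF : Fintype.card F = p ^ f) (hn : 3 ≤ n) :
    ∃ φ : Cfsg.Out (ProjectiveSpecialLinearGroup (Fin n) F) →* Multiplicative (ZMod f × ZMod 2),
      Function.Surjective φ ∧ IsCyclic φ.ker ∧ Nat.card φ.ker = Nat.gcd n (p ^ f - 1) := by
  obtain ⟨φ, h1, h2, h3⟩ := main_three (n := n) hF hf hn
  obtain ⟨e⟩ := exists_gal_equiv hF hf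
  let E : (F ≃+* F) × Multiplicative (ZMod 2) ≃* Multiplicative (ZMod f × ZMod 2) :=
    (MulEquiv.prodCongr e (MulEquiv.refl _)).trans (MulEquiv.prodMultiplicative _ _).symm
  refine ⟨E.toMonoidHom.comp φ, E.surjective.comp h1, ?_, ?_⟩
  · rw [ker_comp]
    exact h2
  · rw [ker_comp]
    exact h3

/-- `S2602`. -/
theorem main_S2602 {p f : ℕ} [hp : Fact p.Prime] (hf : 1 ≤ f) (hF : Fintype.card F = p ^ f) :
    ∃ φ : Cfsg.Out (ProjectiveSpecialLinearGroup (Fin 2) F) →* Multiplicative (ZMod f),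
      Function.Surjective φ ∧ IsCyclic φ.ker ∧ Nat.card φ.ker = Nat.gcd 2 (p ^ f - 1) := by
  obtain ⟨φ, h1, h2, h3⟩ := main_two hF hf
  obtain ⟨e⟩ := exists_gal_equiv hF hf
  refine ⟨e.toMonoidHom.comp φ, e.surjective.comp h1, ?_, ?_⟩
  · rw [ker_comp]
    exact h2
  · rw [ker_comp]
    exact h3

end Finite

end Cfsg.Agent.Lib.Classical.OutPSL
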