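import Mathlib
import Cfsg.Agent.Lib.Classical.SLBasic
import Cfsg.Agent.Lib.Classical.SL2Sylow

/-!
# A subgroup `A₅` of index `11` in `PSL₂(11)`: explicit certificates

`g₁, g₂ ∈ SL₂(11)` generate the subgroup `H̃` of order `120`, with image `H'` in `PSL₂(11)` of
order `60` and index `11`; the coset space of `H'` has ten points other than the base point,
which are all in one `H'`-orbit.
-/

set_option autoImplicit false
set_option maxRecDepth 100000
set_option linter.style.haveILetI false

namespace Cfsg.Agent.Lib.Classical.PSL211

instance fact11 : Fact (Nat.Prime 11) := ⟨by norm_num⟩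

abbrev S₂ := Matrix.SpecialLinearGroup (Fin 2) (ZMod 11)

abbrev G' := Matrix.ProjectiveSpecialLinearGroup (Fin 2) (ZMod 11)

abbrev T := ZMod 11 × ZMod 11 × ZMod 11 × ZMod 11

/-- The product of `2 × 2` matrices in coordinates. -/
def tmul (s t : T) : T :=
  (s.1 * t.1 + s.2.1 * t.2.2.1, s.1 * t.2.1 + s.2.1 * t.2.2.2,
    s.2.2.1 * t.1 + s.2.2.2 * t.2.2.1, s.2.2.1 * t.2.1 + s.2.2.2 * t.2.2.2)

/-- The inverse of an `SL₂` matrix in coordinates. -/
def tinv (t : T) : T := (t.2.2.2, -t.2.1, -t.2.2.1, t.1)

/-- The coordinates of an element. -/
def ent (m : S₂) : T := (m.1 0 0, m.1 0 1, m.1 1 0, m.1 1 1)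

theorem ent_mul (m n : S₂) : ent (m * n) = tmul (ent m) (ent n) := by
  simp [ent, tmul, Matrix.mul_apply, Fin.sum_univ_two, Matrix.SpecialLinearGroup.coe_mul]

theorem ent_inv (m : S₂) : ent m⁻¹ = tinv (ent m) := by
  simp [ent, tinv, Matrix.SpecialLinearGroup.SL2_inv_expl]

theorem ent_one : ent 1 = (1, 0, 0, 1) := by
  simp [ent]

theorem ent_injective : Function.Injective ent := by
  intro m n h
  apply Subtype.ext
  refine Matrix.ext fun i j => ?_
  simp only [ent, Prod.mk.injEq] at h
  fin_cases i <;> fin_cases j
  · exact h.1
  · exact h.2.1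
  · exact h.2.2.1
  · exact h.2.2.2

/-- The first generator. -/
def g₁ : S₂ := ⟨!![3,5;3,9], by rw [Matrix.det_fin_two_of]; decide⟩

/-- The second generator. -/
def g₂ : S₂ := ⟨!![5,10;6,10], by rw [Matrix.det_fin_two_of]; decide⟩

/-- The element moving the base point. -/
def x₀ : S₂ := ⟨!![0,1;10,0], by rw [Matrix.det_fin_two_of]; decide⟩

def tg₁ : T := (3,5,3,9)
def tg₂ : T := (5,10,6,10)
def tx₀ : T := (0,1,10,0)

theorem ent_g₁ : ent g₁ = tg₁ := rfl
theorem ent_g₂ : ent g₂ = tg₂ := rfl
theorem ent_x₀ : ent x₀ = tx₀ := rfl

/-- Evaluation of a word in coordinates. -/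
def evT (w : List Bool) : T := w.foldl (fun m b => tmul m (if b then tg₁ else tg₂)) (1, 0, 0, 1)

/-- Evaluation of a word. -/
def evS (w : List Bool) : S₂ := w.foldl (fun m b => m * (if b then g₁ else g₂)) 1

theorem ent_evS (w : List Bool) : ent (evS w) = evT w := by
  suffices h : ∀ (m : S₂) (t : T), ent m = t →
      ent (w.foldl (fun m b => m * (if b then g₁ else g₂)) m) =
        w.foldl (fun m b => tmul m (if b then tg₁ else tg₂)) t from h 1 _ ent_one
  induction w with
  | nil => intro m t h; exact h
  | cons b w ih =>
    intro m t h
    simp only [List.foldl_cons]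
    apply ih
    rw [ent_mul, h]
    cases b
    · simp [ent_g₂]
    · simp [ent_g₁]

/-- The group generated by `g₁` and `g₂`. -/
def Ht : Subgroup S₂ := Subgroup.closure {g₁, g₂}

theorem evS_mem (w : List Bool) : evS w ∈ Ht := by
  suffices h : ∀ m ∈ Ht, w.foldl (fun m b => m * (if b then g₁ else g₂)) m ∈ Ht from h 1 (one_mem _)
  induction w with
  | nil => intro m h; exact h
  | cons b w ih =>
    intro m h
    simp only [List.foldl_cons]
    apply ih
    apply mul_mem h
    cases b
    · exact Subgroup.subset_closure (by simp)
    · exact Subgroup.subset_closure (by simp)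

/-- The elements of the group generated by `g₁` and `g₂`. -/
def L : List T := [
  (0,1,10,10),
  (0,2,5,10),
  (0,3,7,0),
  (0,4,8,4),
  (0,5,2,7),
  (0,6,9,4),
  (0,7,3,7),
  (0,8,4,0),
  (0,9,6,1),
  (0,10,1,1),
  (1,0,0,1),
  (1,1,10,0),
  (1,2,5,0),
  (1,3,3,10),
  (1,4,2,9),
  (1,5,4,10),
  (1,6,1,7),
  (1,7,9,9),
  (1,8,7,2),
  (1,9,8,7),
  (1,10,6,6),
  (2,0,5,6),
  (2,1,0,6),
  (2,2,10,5),
  (2,3,4,1),
  (2,4,2,10),
  (2,5,3,8),
  (2,6,1,9),
  (2,7,9,10),
  (2,8,6,8),
  (2,9,8,9),
  (2,10,7,8),
  (3,0,4,4),
  (3,1,1,8),
  (3,2,10,7),
  (3,3,0,4),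
  (3,4,9,5),
  (3,5,3,9),
  (3,6,2,8),
  (3,7,8,8),
  (3,8,6,9),
  (3,9,5,8),
  (3,10,7,9),
  (4,0,7,3),
  (4,1,5,7),
  (4,2,10,8),
  (4,3,9,7),
  (4,4,4,7),
  (4,5,2,0),
  (4,6,1,10),
  (4,7,3,0),
  (4,8,0,3),
  (4,9,8,10),
  (4,10,6,7),
  (5,0,5,9),
  (5,1,0,9),
  (5,2,9,6),
  (5,3,8,5),
  (5,4,10,6),
  (5,5,7,5),
  (5,6,4,5),
  (5,7,2,3),
  (5,8,3,5),
  (5,9,1,2),
  (5,10,6,10),
  (6,0,6,2),
  (6,1,5,1),
  (6,2,10,9),
  (6,3,8,6),
  (6,4,9,8),
  (6,5,7,6),
  (6,6,4,6),
  (6,7,1,5),
  (6,8,3,6),
  (6,9,2,5),
  (6,10,0,2),
  (7,0,4,8),
  (7,1,5,4),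
  (7,2,3,1),
  (7,3,0,8),
  (7,4,8,0),
  (7,5,10,1),
  (7,6,9,0),
  (7,7,7,4),
  (7,8,2,4),
  (7,9,1,3),
  (7,10,6,4),
  (8,0,7,7),
  (8,1,4,2),
  (8,2,6,3),
  (8,3,5,2),
  (8,4,3,3),
  (8,5,9,3),
  (8,6,8,2),
  (8,7,2,6),
  (8,8,0,7),
  (8,9,1,4),
  (8,10,10,3),
  (9,0,6,5),
  (9,1,4,3),
  (9,2,3,2),
  (9,3,5,3),
  (9,4,2,1),
  (9,5,10,2),
  (9,6,8,3),
  (9,7,9,1),
  (9,8,7,10),
  (9,9,1,6),
  (9,10,0,5),
  (10,0,0,10),
  (10,1,5,5),
  (10,2,3,4),
  (10,3,4,9),
  (10,4,2,2),
  (10,5,10,4),
  (10,6,7,1),
  (10,7,9,2),
  (10,8,8,1),
  (10,9,6,0),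
  (10,10,1,0)]

/-- Words for the elements of `L`. -/
def W : List (List Bool) := [
  [true,true,true,true,false,true,true,false,false,true,true],
  [true,true,true,true,true,false,true,true,false,false,false],
  [true,false,false,true,true,false,false,true,true,false],
  [true,true,true,true,false,true,true],
  [true,true,false,true],
  [true,true,true,true,true,false,true],
  [true,false,true,true],
  [false,true,true,false,false,true,true,false,false,true],
  [true,true,false,true,true,false,false,false],
  [true,false,true,true,false,false,true,true],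
  [],
  [true,true,false,true,true,false,false],
  [false,true,true,false,false,false,true],
  [true,false],
  [false,false,true],
  [false,true],
  [true,false,false,true,true],
  [true,false,false],
  [false,true,true,false,false,true,true,false],
  [true,true,false,false,true],
  [true,false,true],
  [true,true,true,false,false,true,true,false,false,true],
  [true,true,true,true,false,false,true,true,false,false],
  [true,false,false,true],
  [true,false,false,true,true,false,false,true],
  [true,true,true,true,true,false,false,false],
  [true,true],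
  [false,true,true,false,false,true,true,false,false,true,true],
  [true,true,true,true,false,true,true,false],
  [false,true,true,false,false],
  [true,true,false,false,true,true,false,false,true,true,false],
  [false,false,true,true,false],
  [false,false,false,true],
  [false,true,true,false,false,false],
  [true,true,true,true,true,false,false,true,true],
  [true,false,false,false],
  [true,true,true,false,false],
  [true],
  [true,true,true,false,true,true,false,false,true],
  [true,true,true,true,false,false,true,true,false],
  [true,false,true,true,false,false,true],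
  [true,false,true,true,false,false],
  [true,false,true,true,false,false,false],
  [true,true,false,false],
  [true,true,false,true,true],
  [true,true,true,true,false,false,false,true],
  [true,true,false,false,true,true,false,false,true],
  [true,false,false,true,true,false,false,true,true],
  [true,true,true,false,true,true],
  [true,true,false,true,true,false],
  [true,true,true,true,true,false],
  [false,false,true,true],
  [true,true,false,false,false,true],
  [false,false,true,true,false,false],
  [true,true,false,false,true,true,false,false],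
  [false,false,true,true,false,false,true,true],
  [true,true,false,true,true,false,false,true,true],
  [true,true,true,false,true,true,false,false,true,true],
  [true,true,false,true,true,false,false,false,true],
  [true,true,true,true,false,true,true,false,false,false,true],
  [true,true,true,true,true,false,false,true,true,false],
  [false,false,false],
  [true,true,true,true,true,false,true,true,false,false,true],
  [false,true,true,false],
  [false],
  [true,true,true,true,true,false,false,true,true,false,false],
  [true,true,true,false],
  [true,true,true,false,true,true,false],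
  [true,true,false,true,true,false,false,true],
  [true,true,true,false,false,false],
  [true,true,false,false,true,true,false],
  [true,false,true,true,false,false,false,true],
  [true,true,true,true,true,false,true,true,false,false,false,true],
  [false,true,true,false,false,true,true],
  [true,true,true,true,true,false,true,true,false,false,true,true],
  [true,true,true,false,false,true,true,false,false,true,true],
  [true,true,true,true,true,false,false],
  [true,true,true,false,false,true,true,false,false],
  [true,true,true,true,true,false,false,false,true],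
  [true,true,true,false,false,true,true],
  [true,true,false],
  [true,true,true,true,true,false,true,true,false],
  [false,true,true],
  [false,false,true,true,false,false,true,true,false,false,true],
  [true,false,false,true,true,false,false,true,true,false,false],
  [true,false,false,false,true],
  [true,true,true,true,true,false,true,true],
  [true,true,true,false,false,false,true],
  [true,true,true,true,false,true,true,false,false,false],
  [true,true,true,true,false,true,true,false,false],
  [true,true,true,true,false,true,true,false,false,true],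
  [true,false,false,true,true,false],
  [false,true,true,false,false,true],
  [true,true,true,true],
  [false,false],
  [true,true,true,true,false,false,false],
  [true,true,false,false,true,true],
  [true,true,true,false,true,true,false,false,false],
  [false,false,true,true,false,false,true],
  [true,true,true,false,false,true,true,false],
  [false,true,true,false,false,true,true,false,false],
  [true,true,true,false,true,true,false,false],
  [true,false,true,true,false],
  [false,false,true,true,false,false,true,true,false],
  [true,true,true,true,true],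
  [true,true,false,false,false],
  [false,false,true,true,false,false,true,true,false,false],
  [true,true,true,true,false,false,true],
  [true,false,false,true,true,false,false],
  [true,true,true],
  [true,true,true,true,false,true],
  [true,true,true,true,true,false,false,true],
  [true,true,false,false,true,true,false,false,true,true],
  [true,true,true,true,false,false],
  [true,true,true,true,false,false,true,true],
  [true,true,true,false,true],
  [true,true,true,false,false,true],
  [true,true,true,true,false],
  [true,true,true,false,true,true,false,false,false,true],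
  [true,true,true,true,true,false,true,true,false,false]]

theorem L_eq_W : L = W.map evT := by decide +kernel

theorem L_nodup : L.Nodup := by decide +kernel

theorem L_length : L.length = 120 := by decide +kernel

theorem L_one : ((1, 0, 0, 1) : T) ∈ L := by decide +kernel

theorem L_neg_one : ((10, 0, 0, 10) : T) ∈ L := by decide +kernel

theorem L_right : ∀ t ∈ L, tmul t tg₁ ∈ L ∧ tmul t tg₂ ∈ L ∧ tmul t (tinv tg₁) ∈ L ∧ tmul t (tinv tg₂) ∈ L := by
  decide +kernel

theorem mem_Ht_iff (m : S₂) : m ∈ Ht ↔ ent m ∈ L := by
  constructor
  · intro hm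
    induction hm using Subgroup.closure_induction_right with
    | one => rw [ent_one]; exact L_one
    | mul_right x _ y hy h =>
      rw [ent_mul]
      rcases hy with rfl | rfl
      · exact (L_right _ h).1
      · exact (L_right _ h).2.1
    | mul_inv_cancel x _ y hy h =>
      rw [ent_mul, ent_inv]
      rcases hy with rfl | rfl
      · exact (L_right _ h).2.2.1
      · exact (L_right _ h).2.2.2
  · intro hm
    rw [L_eq_W, List.mem_map] at hm
    obtain ⟨w, -, hw⟩ := hm
    have : m = evS w := ent_injective (by rw [ent_evS, hw])
    rw [this]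
    exact evS_mem w

theorem card_Ht : Nat.card Ht = 120 := by
  classical
  have hbij : Function.Bijective (fun m : Ht => (⟨ent m.1, (mem_Ht_iff _).mp m.2⟩ : {t // t ∈ L})) := by
    constructor
    · intro m n h
      exact Subtype.ext (ent_injective (congrArg Subtype.val h))
    · rintro ⟨t, ht⟩
      have ht' := ht
      rw [L_eq_W, List.mem_map] at ht'
      obtain ⟨w, -, rfl⟩ := ht'
      exact ⟨⟨evS w, evS_mem w⟩, Subtype.ext (ent_evS w)⟩
  rw [Nat.card_eq_of_bijective _ hbij, Nat.card_eq_fintype_card, Fintype.card_subtype]
  have : (Finset.univ.filter fun t : T => t ∈ L) = L.toFinset := by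
    ext t
    simp
  rw [this, List.toFinset_card_of_nodup L_nodup, L_length]

theorem card_S₂ : Nat.card S₂ = 1320 := by
  have := SL2Sylow.card_SL2 (F := ZMod 11)
  rw [ZMod.card] at this
  exact this

theorem index_Ht : Ht.index = 11 := by
  have h := Ht.card_mul_index
  rw [card_Ht, card_S₂] at h
  omega

/-- The projection to `PSL₂(11)`. -/
abbrev π : S₂ →* G' := QuotientGroup.mk' _

theorem mem_center_iff (m : S₂) : m ∈ Subgroup.center S₂ ↔ m = 1 ∨ ent m = (10, 0, 0, 10) := by
  constructor
  · intro hm
    obtain ⟨r, hr, hr'⟩ := Matrix.SpecialLinearGroup.mem_center_iff.mp hm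
    have hr2 : r ^ 2 = 1 := by simpa using hr
    have hr3 : r = 1 ∨ r = 10 := by
      have hall : ∀ r : ZMod 11, r ^ 2 = 1 → r = 1 ∨ r = 10 := by decide +kernel
      exact hall r hr2
    rcases hr3 with rfl | rfl
    · left
      apply Subtype.ext
      rw [← hr']
      simp
    · right
      rw [ent]
      simp [← hr']
  · rintro (rfl | h)
    · exact one_mem _
    · apply Matrix.SpecialLinearGroup.mem_center_iff.mpr
      refine ⟨10, by decide +kernel, ?_⟩
      have hm : m = ⟨Matrix.scalar (Fin 2) 10, by decide +kernel⟩ := by
        apply ent_injective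
        rw [h]
        simp [ent]
      rw [hm]

theorem center_le : Subgroup.center S₂ ≤ Ht := by
  intro m hm
  rw [mem_center_iff] at hm
  rw [mem_Ht_iff]
  rcases hm with rfl | h
  · rw [ent_one]; exact L_one
  · rw [h]; exact L_neg_one

/-- The image of `Ht` in `PSL₂(11)`. -/
def H' : Subgroup G' := Ht.map π

theorem ker_π : π.ker = Subgroup.center S₂ := QuotientGroup.ker_mk' _

theorem π_surj : Function.Surjective π := QuotientGroup.mk'_surjective _

theorem mem_H'_iff (m : S₂) : π m ∈ H' ↔ m ∈ Ht := by
  constructor
  · rintro ⟨h, hh, he⟩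
    have h1 : h⁻¹ * m ∈ π.ker := by
      rw [MonoidHom.mem_ker, map_mul, map_inv, he, inv_mul_cancel]
    rw [ker_π] at h1
    have h2 := mul_mem hh (center_le h1)
    simpa using h2
  · intro h
    exact ⟨m, h, rfl⟩

theorem index_H' : H'.index = 11 := by
  rw [H', Subgroup.index_map_eq _ π_surj (by rw [ker_π]; exact center_le), index_Ht]

theorem card_G' : Nat.card G' = 660 := by
  have h1 := SLBasic.card_sl_eq_mul_card_psl (ι := Fin 2) (F := ZMod 11)
  have h2 := SLBasic.card_center_sl (ι := Fin 2) (F := ZMod 11)
  rw [h2, card_S₂, ZMod.card, Fintype.card_fin] at h1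
  norm_num [-Nat.card_eq_fintype_card] at h1
  have h3 : Nat.card G' * 2 = 1320 := h1.symm
  omega

theorem card_H' : Nat.card H' = 60 := by
  have h := H'.card_mul_index
  rw [index_H', card_G'] at h
  omega

/-- The words for the coset representatives. -/
def R : List (List Bool) := [
  [true,true,true,true,false,true,true,false,false,true,true],
  [true,true,true,true,true,false,true,true,false,false,false],
  [true,false,false,true,true,false,false,true,true,false],
  [true,true,true,true,false,true,true],
  [true,true,false,true],
  [],
  [true,true,false,true,true,false,false],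
  [false,false,true],
  [false,true],
  [true,false,false,true]]

theorem R_length : R.length = 10 := by decide +kernel

/-- The coset points. -/
def uu (i : Fin 10) : S₂ := evS (R.get (i.cast R_length.symm)) * x₀

theorem ent_uu (i : Fin 10) : ent (uu i) = tmul (evT (R.get (i.cast R_length.symm))) tx₀ := by
  rw [uu, ent_mul, ent_evS, ent_x₀]

theorem uu_not_base : ∀ i : Fin 10, tmul (evT (R.get (i.cast R_length.symm))) tx₀ ∉ L := by
  decide +kernel

theorem uu_ne : ∀ i j : Fin 10, i ≠ j →
    tmul (tinv (tmul (evT (R.get (i.cast R_length.symm))) tx₀)) (tmul (evT (R.get (j.cast R_length.symm))) tx₀) ∉ L := by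
  decide +kernel

/-- The map from the explicit points to the coset space. -/
noncomputable def pt : Option (Fin 10) → G' ⧸ H'
  | none => (QuotientGroup.mk 1)
  | some i => QuotientGroup.mk (π (uu i))

theorem pt_injective : Function.Injective pt := by
  have hbase : ∀ i, (QuotientGroup.mk (π (uu i)) : G' ⧸ H') ≠ QuotientGroup.mk 1 := by
    intro i h
    rw [eq_comm, QuotientGroup.eq, inv_one, one_mul, mem_H'_iff, mem_Ht_iff, ent_uu] at h
    exact uu_not_base i h
  rintro (_ | i) (_ | j) h
  · rfl
  · exact absurd h.symm (hbase j)
  · exact absurd h (hbase i)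
  · by_cases hij : i = j
    · rw [hij]
    · exfalso
      have h1 : (QuotientGroup.mk (π (uu i)) : G' ⧸ H') = QuotientGroup.mk (π (uu j)) := h
      rw [QuotientGroup.eq, ← map_inv, ← map_mul, mem_H'_iff, mem_Ht_iff, ent_mul, ent_inv, ent_uu, ent_uu] at h1
      exact uu_ne i j hij h1

theorem pt_surjective : Function.Surjective pt := by
  have h1 : Nat.card (G' ⧸ H') = 11 := index_H'
  have h2 : Nat.card (Option (Fin 10)) = 11 := by simp
  have : Finite (G' ⧸ H') := inferInstance
  exact (Function.Injective.bijective_of_nat_card_le pt_injective (by omega)).2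

/-- The stabilizer of the base point is transitive on the other points, as a statement in `G'`. -/
theorem exists_mul_eq {x y : G'} (hx : x ∉ H') (hy : y ∉ H') : ∃ h ∈ H', ∃ k ∈ H', y = h * x * k := by
  have hmain : ∀ z : G', z ∉ H' → ∃ i : Fin 10, ∃ k ∈ H', z = π (uu i) * k := by
    intro z hz
    obtain ⟨o, ho⟩ := pt_surjective (QuotientGroup.mk z)
    rcases o with _ | i
    · exfalso
      have h1 : (QuotientGroup.mk 1 : G' ⧸ H') = QuotientGroup.mk z := ho
      rw [QuotientGroup.eq, inv_one, one_mul] at h1
      exact hz h1
    · have h1 : (QuotientGroup.mk (π (uu i)) : G' ⧸ H') = QuotientGroup.mk z := ho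
      rw [QuotientGroup.eq] at h1
      exact ⟨i, _, h1, by group⟩
  obtain ⟨i, k, hk, rfl⟩ := hmain x hx
  obtain ⟨j, l, hl, rfl⟩ := hmain y hy
  have hev : ∀ i : Fin 10, π (evS (R.get (i.cast R_length.symm))) ∈ H' := fun i =>
    (mem_H'_iff _).mpr (evS_mem _)
  refine ⟨π (evS (R.get (j.cast R_length.symm))) * (π (evS (R.get (i.cast R_length.symm))))⁻¹,
    mul_mem (hev j) (inv_mem (hev i)), k⁻¹ * l, mul_mem (inv_mem hk) hl, ?_⟩
  simp only [uu, map_mul]
  group

end Cfsg.Agent.Lib.Classical.PSL211
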