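/-
`Out(PSp_4(F))`, `F` finite of characteristic two: the square of the graph endomorphism of `Sp_4(F)`
is the Frobenius field automorphism, so it is an automorphism for every `F` (including `F = 𝔽₂`),
and `Out(PSp_4(2^f))` is cyclic of order `2f`.
-/
import Mathlib
import Cfsg.Agent.Lib.KS71.PSpClass
import Cfsg.Agent.Lib.Classical.OmegaOut

set_option autoImplicit false
set_option linter.unusedSimpArgs false

namespace Cfsg.Agent.Lib.Classical.PSp4Out

open Matrix Cfsg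
open Cfsg.Agent.Lib.Classical.SympForm Cfsg.Agent.Lib.Classical.SympSimple
open Cfsg.Agent.Lib.KS71.PSpCore Cfsg.Agent.Lib.KS71.PSpTInv Cfsg.Agent.Lib.KS71.PSpGroup
open Cfsg.Agent.Lib.KS71.PSp4Graph Cfsg.Agent.Lib.KS71.PSpCard

variable {F : Type*} [Field F]

theorem ts_apply (v : Fin 2 ⊕ Fin 2 → F) (c : F) (r s : Fin 2 ⊕ Fin 2) :
    (ts v c).1 r s = (1 : Matrix _ _ F) r s + c * (v r * (Matrix.J (Fin 2) F *ᵥ v) s) := by
  show (1 + NN v c) r s = _
  unfold NN
  rw [Matrix.add_apply, Matrix.smul_apply, vecMulVec_apply, smul_eq_mul]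

theorem phi_phi_ts_entry (h2 : (2 : F) = 0) (v : Fin 2 ⊕ Fin 2 → F) (c : F) (I K : Fin 2 ⊕ Fin 2) :
    phiM (phiM (ts v c).1) I K = ((ts v c).1 I K) ^ 2 := by
  have hJ0 : (Matrix.J (Fin 2) F *ᵥ v) e0 = - v f0 := by
    simp [Matrix.J, Matrix.mulVec, dotProduct, Fintype.sum_sum_type, Matrix.one_apply]
  have hJ1 : (Matrix.J (Fin 2) F *ᵥ v) e1 = - v f1 := by
    simp [Matrix.J, Matrix.mulVec, dotProduct, Fintype.sum_sum_type, Matrix.one_apply]
  have hJ2 : (Matrix.J (Fin 2) F *ᵥ v) f0 = v e0 := by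
    simp [Matrix.J, Matrix.mulVec, dotProduct, Fintype.sum_sum_type, Matrix.one_apply]
  have hJ3 : (Matrix.J (Fin 2) F *ᵥ v) f1 = v e1 := by
    simp [Matrix.J, Matrix.mulVec, dotProduct, Fintype.sum_sum_type, Matrix.one_apply]
  have hg : ∀ r s, (ts v c).1 r s = (1 : Matrix _ _ F) r s + c * (v r * (Matrix.J (Fin 2) F *ᵥ v) s) :=
    ts_apply v c
  generalize Matrix.J (Fin 2) F *ᵥ v = W at hg hJ0 hJ1 hJ2 hJ3
  generalize (ts v c).1 = g at hg
  obtain ⟨a, ha⟩ : ∃ a, v e0 = a := ⟨_, rfl⟩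
  obtain ⟨b, hb⟩ : ∃ b, v e1 = b := ⟨_, rfl⟩
  obtain ⟨x, hx⟩ : ∃ x, v f0 = x := ⟨_, rfl⟩
  obtain ⟨y, hy⟩ : ∃ y, v f1 = y := ⟨_, rfl⟩
  rw [ha] at hJ2
  rw [hb] at hJ3
  rw [hx] at hJ0
  rw [hy] at hJ1
  have ha' : v (Sum.inl 0) = a := ha
  have hb' : v (Sum.inl 1) = b := hb
  have hx' : v (Sum.inr 0) = x := hx
  have hy' : v (Sum.inr 1) = y := hy
  have hW0 : W (Sum.inl 0) = - x := hJ0
  have hW1 : W (Sum.inl 1) = - y := hJ1
  have hW2 : W (Sum.inr 0) = a := hJ2
  have hW3 : W (Sum.inr 1) = b := hJ3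
  rcases I with i | i <;> rcases K with k | k <;> fin_cases i <;> fin_cases k <;>
    simp [phiM, Mn, pr, hg, hW0, hW1, hW2, hW3, hJ0, hJ1, hJ2, hJ3, ha, hb, hx, hy, ha', hb', hx', hy', Matrix.one_apply]
  · linear_combination (0) * h2
  · linear_combination ((-1)*c^2*a^2*y^2) * h2
  · linear_combination ((-1)*c^2*b^2*x^2) * h2
  · linear_combination (0) * h2
  · linear_combination (0) * h2
  · linear_combination (0) * h2
  · linear_combination ((-1)*c^2*a^2*b^2) * h2
  · linear_combination ((-1)*c^2*b^4) * h2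
  · linear_combination (0) * h2
  · linear_combination ((-1)*c^2*x^2*y^2) * h2
  · linear_combination (0) * h2
  · linear_combination ((-1)*c^2*y^4) * h2
  · linear_combination (0) * h2
  · linear_combination (0) * h2
  · linear_combination (0) * h2
  · linear_combination (0) * h2

/-- The Frobenius as a ring homomorphism. -/
def frobHom (h2 : (2 : F) = 0) : F →+* F where
  toFun x := x ^ 2
  map_one' := one_pow 2
  map_mul' x y := mul_pow x y 2
  map_zero' := by simp
  map_add' x y := by linear_combination (x * y) * h2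

variable [Fintype F]

/-- The Frobenius as a ring automorphism. -/
noncomputable def frobE (h2 : (2 : F) = 0) : F ≃+* F :=
  RingEquiv.ofBijective (frobHom h2)
    ⟨(frobHom h2).injective, Finite.surjective_of_injective (frobHom h2).injective⟩

theorem frobE_apply (h2 : (2 : F) = 0) (x : F) : frobE h2 x = x ^ 2 := rfl

omit [Fintype F] in
theorem transvection_eq_ts {A : Matrix.symplecticGroup (Fin 2) F} {w : Fin 2 ⊕ Fin 2 → F} {c : F}
    (hA : (A : Matrix (Fin 2 ⊕ Fin 2) (Fin 2 ⊕ Fin 2) F) = Cfsg.sympTransvection 2 w c) : A = ts w c :=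
  Subtype.ext hA

/-- The square of the graph endomorphism of `Sp_4` is the Frobenius. -/
theorem phi_phi (h2 : (2 : F) = 0) (s : Sp 2 F) : phi h2 (phi h2 s) = fieldSp (frobE h2) s := by
  have h : (phi h2).comp (phi h2) = (fieldSp (frobE h2)).toMonoidHom := by
    apply MonoidHom.eq_of_eqOn_dense closure_transvectionSet
    rintro A ⟨w, c, hA⟩
    rw [transvection_eq_ts hA]
    apply Subtype.ext
    refine Matrix.ext fun I K => ?_
    show phiM (phiM (ts w c).1) I K = ((ts w c).1.map (frobE h2)) I K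
    rw [phi_phi_ts_entry h2, Matrix.map_apply, frobE_apply]
  exact DFunLike.congr_fun h s

theorem psi_psi (h2 : (2 : F) = 0) (x : PSp 2 F) : psi h2 (psi h2 x) = fA (frobE h2) x := by
  obtain ⟨s, rfl⟩ := mkS_surj x
  show mkS (phi h2 (phi h2 s)) = mkS (fieldSp (frobE h2) s)
  rw [phi_phi]

theorem psi_bijective (h2 : (2 : F) = 0) : Function.Bijective (psi h2) := by
  have hinj : Function.Injective (psi h2) := by
    intro x y h
    apply (fA (frobE h2)).injective
    rw [← psi_psi, ← psi_psi, h]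
  exact ⟨hinj, Finite.surjective_of_injective hinj⟩

/-- The graph automorphism of `PSp_4`. -/
noncomputable def tauE (h2 : (2 : F) = 0) : MulAut (PSp 2 F) :=
  MulEquiv.ofBijective (psi h2) (psi_bijective h2)

theorem tauE_apply (h2 : (2 : F) = 0) (x : PSp 2 F) : tauE h2 x = psi h2 x := rfl

theorem tauE_sq (h2 : (2 : F) = 0) : tauE h2 * tauE h2 = fA (frobE h2) := by
  refine MulEquiv.ext fun x => ?_
  exact psi_psi h2 x

omit [Fintype F] in
theorem isT_t₀ : IsT (mkS (t₀ (F := F))) := by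
  refine ⟨D.mk (Pi.single e0 1) 1 ?_ one_ne_zero, rfl⟩
  intro h0
  have := congrFun h0 e0
  simp at this

theorem tauE_not_isT (h2 : (2 : F) = 0) : ¬ IsT (tauE h2 (mkS t₀)) := by
  rintro ⟨d, hd⟩
  have h3 : mkS (phi h2 t₀) = mkS (ts d.v d.c) := hd
  exact phi_t₀_ne h2 _ _ (mkS_inj h2 (by norm_num) h3)

/-- The count of automorphisms in characteristic two. -/
theorem card_aut {f : ℕ} (hF : Fintype.card F = 2 ^ f) (hf : 1 ≤ f) :
    Nat.card (MulAut (PSp 2 F)) = 2 * Nat.gcd 2 (2 ^ f - 1) * f * Nat.card (PSp 2 F) := by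
  classical
  have : Fact (Nat.Prime 2) := ⟨Nat.prime_two⟩
  have : CharP F 2 := charP_of_card_eq_prime_pow hF
  have h2 : (2 : F) = 0 := by exact_mod_cast CharP.cast_eq_zero F 2
  obtain ⟨τ, x₀, hx₀, hτ⟩ : ∃ τ : MulAut (PSp 2 F), ∃ x₀ : PSp 2 F, IsT x₀ ∧ ¬ IsT (τ x₀) :=
    ⟨tauE h2, mkS t₀, isT_t₀, tauE_not_isT h2⟩
  -- the image of `T` under `τ` is the class `Y`
  have hτY : ∀ x, IsT x → IsY (τ x) := by
    rcases dichotomy (by norm_num) h2 τ with h | h
    · exact absurd (h x₀ hx₀) hτ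
    · exact h
  have hYτ : ∀ y, IsY y → IsT (τ⁻¹ y) := by
    intro y hy
    obtain ⟨g, hg⟩ := IsY_single (hτY x₀ hx₀) hy
    have h1 : τ⁻¹ y = τ⁻¹ g * x₀ * (τ⁻¹ g)⁻¹ := by
      rw [hg, map_mul, map_mul, map_inv]
      congr 2
      exact MulEquiv.symm_apply_apply τ x₀
    rw [h1]
    exact IsT_conj hx₀ _
  let Φ : (PGSp 2 F × (F ≃+* F)) × Bool → MulAut (PSp 2 F) := fun x =>
    if x.2 then τ * Φ₀ x.1 else Φ₀ x.1
  have hne : ∀ x y, Φ₀ x ≠ τ * Φ₀ y := by
    intro x y h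
    apply hτ
    have h1 : τ = Φ₀ x * (Φ₀ y)⁻¹ := by rw [h]; group
    rw [h1]
    exact Φ₀_isT x (inv_of_T _ (fun _ h' => Φ₀_isT y h') _ hx₀)
  have hb : Function.Bijective Φ := by
    constructor
    · rintro ⟨x, a⟩ ⟨y, b⟩ h
      cases a <;> cases b
      · have h1 : Φ₀ x = Φ₀ y := h
        rw [Φ₀_inj (by norm_num) h1]
      · exact absurd h (hne _ _)
      · exact absurd h.symm (hne _ _)
      · have h1 : τ * Φ₀ x = τ * Φ₀ y := h
        rw [Φ₀_inj (by norm_num) (mul_left_cancel h1)]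
    · intro β
      rcases dichotomy (by norm_num) h2 β with h | h
      · obtain ⟨x, hx⟩ := exists_Φ₀_of_T (by norm_num) β h
        exact ⟨(x, false), hx⟩
      · obtain ⟨x, hx⟩ := exists_Φ₀_of_T (by norm_num) (τ⁻¹ * β) (fun y hy => hYτ _ (h y hy))
        refine ⟨(x, true), ?_⟩
        show τ * Φ₀ x = β
        rw [hx]
        group
  rw [← Nat.card_congr (Equiv.ofBijective _ hb), Nat.card_prod, Nat.card_prod,
    Cfsg.Agent.Lib.KS71.PSLAutGroup.card_ringEquiv hF hf, card_PSp_mul hF (by norm_num),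
    Nat.card_eq_fintype_card (α := Bool), Fintype.card_bool]
  ring

omit [Fintype F] in
/-- The centre of `PSp_4` is trivial in characteristic two. -/
theorem center_eq_bot (h2 : (2 : F) = 0) : Subgroup.center (PSp 2 F) = ⊥ := by
  rw [eq_bot_iff]
  intro x hx
  obtain ⟨s, rfl⟩ := mkS_surj x
  have hs : s ∈ Subgroup.center (Sp 2 F) := by
    rw [Subgroup.mem_center_iff]
    intro t
    have h3 := (Subgroup.mem_center_iff.1 hx) (mkS t)
    exact mkS_inj h2 (by norm_num) (by simpa using h3)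
  have h3 := (mem_center_symplecticGroup_iff (by norm_num) s).1 hs
  rw [negOne_eq_one h2, or_self] at h3
  rw [h3]
  exact one_mem _

theorem card_out {f : ℕ} (hF : Fintype.card F = 2 ^ f) (hf : 1 ≤ f) :
    Nat.card (Cfsg.Out (PSp 2 F)) = 2 * f := by
  have : Fact (Nat.Prime 2) := ⟨Nat.prime_two⟩
  have : CharP F 2 := charP_of_card_eq_prime_pow hF
  have h2 : (2 : F) = 0 := by exact_mod_cast CharP.cast_eq_zero F 2
  have hfin : Finite (PSp 2 F) := inferInstance
  have h1 := Cfsg.Agent.Lib.Classical.OmegaOut.card_out (center_eq_bot h2 (F := F))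
  rw [card_aut hF hf] at h1
  have hgcd : Nat.gcd 2 (2 ^ f - 1) = 1 := by
    have h4 : 1 ≤ 2 ^ f := Nat.one_le_two_pow
    have h5 : 2 ∣ 2 ^ f := dvd_pow_self 2 (by omega)
    have h6 : Odd (2 ^ f - 1) := by
      obtain ⟨k, hk⟩ := h5
      exact ⟨k - 1, by omega⟩
    exact (Nat.coprime_two_left.2 h6)
  rw [hgcd] at h1
  have h3 : 0 < Nat.card (PSp 2 F) := Nat.card_pos
  have h4 : Nat.card (Cfsg.Out (PSp 2 F)) * Nat.card (PSp 2 F) = (2 * f) * Nat.card (PSp 2 F) := by
    rw [h1]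
  exact Nat.eq_of_mul_eq_mul_right h3 h4

theorem frobE_pow (h2 : (2 : F) = 0) (k : ℕ) (x : F) : (frobE h2 ^ k) x = x ^ (2 ^ k) := by
  induction k with
  | zero => simp
  | succ k ih =>
    rw [pow_succ']
    show frobE h2 ((frobE h2 ^ k) x) = _
    rw [ih, frobE_apply]
    ring

theorem orderOf_frobE (h2 : (2 : F) = 0) {f : ℕ} (hF : Fintype.card F = 2 ^ f) (hf : 1 ≤ f) :
    orderOf (frobE h2) = f := by
  classical
  have h1 : frobE h2 ^ f = 1 := by
    refine RingEquiv.ext fun x => ?_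
    rw [frobE_pow, ← hF, FiniteField.pow_card]
    rfl
  have hd : orderOf (frobE h2) ∣ f := orderOf_dvd_of_pow_eq_one h1
  have hd0 : 0 < orderOf (frobE h2) := Nat.pos_of_dvd_of_pos hd (by omega)
  have h3 : frobE h2 ^ orderOf (frobE h2) = 1 := pow_orderOf_eq_one _
  have hroots : ∀ x : F, x ^ (2 ^ orderOf (frobE h2)) = x := by
    intro x
    rw [← frobE_pow h2, h3]
    rfl
  have hp : 1 < 2 ^ orderOf (frobE h2) := Nat.one_lt_two_pow (by omega)
  have hne := FiniteField.X_pow_card_sub_X_ne_zero F hp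
  have hdeg := FiniteField.X_pow_card_sub_X_natDegree_eq F hp
  have hsub : (Finset.univ : Finset F).val ⊆
      (Polynomial.X ^ (2 ^ orderOf (frobE h2)) - Polynomial.X : Polynomial F).roots := by
    intro x _
    rw [Polynomial.mem_roots hne]
    simp [hroots x]
  have hcard := Polynomial.card_le_degree_of_subset_roots hsub
  rw [hdeg, Finset.card_univ, hF] at hcard
  have hle : f ≤ orderOf (frobE h2) := (Nat.pow_le_pow_iff_right (by norm_num)).1 hcard
  exact le_antisymm (Nat.le_of_dvd (by omega) hd) hle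

omit [Fintype F] in
theorem fA_mem_inn {σ : F ≃+* F} (h : fA (m := 2) σ ∈ Cfsg.Inn (PSp 2 F)) : σ = 1 := by
  obtain ⟨y, hy⟩ := h
  obtain ⟨s, rfl⟩ := mkS_surj y
  have h1 : MulAut.conj (mkS s) = cA (spToGS s) := Cfsg.Agent.Lib.KS71.PSpClass.conj_mkS s
  have hy' : MulAut.conj (mkS s) = fA σ := hy
  have h3 : cA (spToGS s) * fA (1 : F ≃+* F) = cA (1 : ↥(GSp 2 F)) * fA σ := by
    rw [fA_one, cA_one, mul_one, one_mul, ← h1, hy']
  exact (semi_inj (by norm_num) h3).1.symm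

/-- The class of the graph automorphism generates. -/
theorem main {f : ℕ} (hf : 1 ≤ f) (hF : Fintype.card F = 2 ^ f) :
    IsCyclic (Cfsg.Out (PSp 2 F)) ∧ Nat.card (Cfsg.Out (PSp 2 F)) = 2 * f := by
  have : Fact (Nat.Prime 2) := ⟨Nat.prime_two⟩
  have : CharP F 2 := charP_of_card_eq_prime_pow hF
  have h2 : (2 : F) = 0 := by exact_mod_cast CharP.cast_eq_zero F 2
  have hcard := card_out hF hf
  refine ⟨?_, hcard⟩
  let q : MulAut (PSp 2 F) →* Cfsg.Out (PSp 2 F) := QuotientGroup.mk' _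
  have hq : ∀ β, q β = 1 ↔ β ∈ Cfsg.Inn (PSp 2 F) := fun β => QuotientGroup.eq_one_iff β
  let u := q (tauE h2)
  have hu2 : u ^ 2 = q (fA (frobE h2)) := by
    rw [sq, ← map_mul, tauE_sq]
  have hord2 : orderOf (u ^ 2) = f := by
    rw [hu2, ← orderOf_frobE h2 hF hf]
    apply orderOf_eq_orderOf_iff.2
    intro k
    have h5 : (fA (frobE h2) : MulAut (PSp 2 F)) ^ k = fA (frobE h2 ^ k) :=
      (map_pow (fieldHom (m := 2) (F := F)) (frobE h2) k).symm
    rw [← map_pow, h5, hq]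
    constructor
    · exact fA_mem_inn
    · intro h6
      rw [h6, fA_one]
      exact one_mem _
  have hfinO : Finite (Cfsg.Out (PSp 2 F)) := Nat.finite_of_card_ne_zero (by rw [hcard]; omega)
  have hd0 : orderOf u ≠ 0 := (orderOf_pos u).ne'
  have heven : 2 ∣ orderOf u := by
    by_contra hodd
    obtain ⟨e, he⟩ : Odd (orderOf u) := Nat.not_even_iff_odd.1 (fun h => hodd h.two_dvd)
    have h5 : (tauE h2) ^ (orderOf u) ∈ Cfsg.Inn (PSp 2 F) := by
      rw [← hq, map_pow]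
      exact pow_orderOf_eq_one u
    obtain ⟨y, hy⟩ := h5
    obtain ⟨s, rfl⟩ := mkS_surj y
    have h6 : MulAut.conj (mkS s) = cA (spToGS s) := Cfsg.Agent.Lib.KS71.PSpClass.conj_mkS s
    have hy' : MulAut.conj (mkS s) = (tauE h2) ^ (orderOf u) := hy
    have h7 : (tauE h2) ^ (orderOf u) = tauE h2 * fA (frobE h2 ^ e) := by
      rw [he, pow_succ', pow_mul, sq, tauE_sq]
      congr 1
      exact map_pow (fieldHom (m := 2) (F := F)) (frobE h2) e |>.symm
    have h8 : tauE h2 = cA (spToGS s) * fA (frobE h2 ^ e)⁻¹ := by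
      rw [← h6, hy', h7, fA_inv]
      group
    apply tauE_not_isT h2
    rw [h8]
    exact semi_isT _ _ isT_t₀
  have h3 := orderOf_pow' u (n := 2) (by norm_num)
  rw [hord2, Nat.gcd_eq_right heven] at h3
  have h4 : orderOf u = 2 * f := by
    obtain ⟨e, he⟩ := heven
    rw [he] at h3 ⊢
    rw [Nat.mul_div_cancel_left _ (by norm_num)] at h3
    rw [h3]
  exact isCyclic_of_orderOf_eq_card u (by rw [h4, hcard])

end Cfsg.Agent.Lib.Classical.PSp4Out
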