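import Cfsg.Agent.Lib.Classical.Transvections

/-!
Steinberg's explicit generators of `SL_{n+1}(K)`.
-/

set_option autoImplicit false
set_option linter.unusedSectionVars false
set_option linter.unusedSimpArgs false
set_option linter.style.haveILetI false

open Matrix Matrix.SpecialLinearGroup
open scoped MatrixGroups commutatorElement

namespace Cfsg.Agent.Lib.Classical.PslGen

open Cfsg.Agent.Lib.Classical.Transvections

variable {K : Type*} [Field K] {n : ℕ}

/-- The cyclic shift of indices. -/
def σ (q : Fin (n + 1)) : Fin (n + 1) :=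
  if h : q.val = 0 then ⟨n, by omega⟩ else ⟨q.val - 1, by omega⟩

/-- The inverse cyclic shift. -/
def τ (p : Fin (n + 1)) : Fin (n + 1) :=
  if h : p.val = n then ⟨0, by omega⟩ else ⟨p.val + 1, by have := p.2; omega⟩

lemma σ_τ (p : Fin (n + 1)) : σ (τ p) = p := by
  unfold σ τ
  by_cases h : p.val = n
  · simp only [h, dite_true]
    apply Fin.ext
    simp [h]
  · simp only [h, dite_false]
    apply Fin.ext
    simp

lemma τ_σ (q : Fin (n + 1)) : τ (σ q) = q := by
  unfold σ τ
  by_cases h : q.val = 0
  · simp only [h, dite_true]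
    apply Fin.ext
    simp [h]
  · simp only [h, dite_false]
    have h1 := q.2
    have h2 : q.val - 1 ≠ n := by omega
    simp only [h2, dite_false]
    apply Fin.ext
    simp only
    omega

lemma σ_injective : Function.Injective (σ (n := n)) := fun a b h => by
  rw [← τ_σ a, h, τ_σ]

/-- The signs of the monomial matrix. -/
def sg (q : Fin (n + 1)) : K := if q.val = 0 then (-1) ^ n else 1

lemma sg_mul_self (q : Fin (n + 1)) : (sg q : K) * sg q = 1 := by
  unfold sg
  by_cases h : q.val = 0
  · simp only [h, if_true]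
    rw [← mul_pow]
    simp
  · simp [h]

/-- The monomial matrix of the statements. -/
def wM (n : ℕ) (K : Type*) [Field K] : Matrix (Fin (n + 1)) (Fin (n + 1)) K :=
  Matrix.of (fun i j => if j.val = i.val + 1 then 1 else if i.val = n ∧ j.val = 0 then (-1) ^ n else 0)

lemma wM_apply (p q : Fin (n + 1)) : wM n K p q = if p = σ q then sg q else 0 := by
  unfold wM sg σ
  simp only [Matrix.of_apply]
  have hp := p.2
  have hq := q.2
  by_cases h : q.val = 0
  · simp only [h, dite_true, if_true]
    by_cases h2 : p.val = n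
    · rw [if_neg (by omega), if_pos ⟨h2, trivial⟩, if_pos (Fin.ext h2)]
    · rw [if_neg (by omega), if_neg (fun h3 => h2 h3.1), if_neg]
      intro h3
      exact h2 (congrArg Fin.val h3)
  · simp only [h, dite_false, if_false, and_false]
    by_cases h2 : q.val = p.val + 1
    · rw [if_pos h2, if_pos]
      apply Fin.ext
      simp only
      omega
    · rw [if_neg h2, if_neg]
      intro h3
      have h4 := congrArg Fin.val h3
      simp only at h4
      omega

/-- Conjugation by the monomial element. -/
lemma conj_w (w : SL(n + 1, K)) (hw : (w : Matrix (Fin (n + 1)) (Fin (n + 1)) K) = wM n K)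
    {i j : Fin (n + 1)} (hij : i ≠ j) (a : K) :
    w * transvection hij a * w⁻¹ =
      transvection (fun h => hij (σ_injective h)) (sg i * sg j * a) := by
  rw [mul_inv_eq_iff_eq_mul]
  apply Subtype.ext
  simp only [coe_mul, transvection_coe, mul_add, add_mul, mul_one, one_mul]
  congr 1
  rw [hw]
  ext p q
  by_cases hq : q = j
  · subst hq
    rw [mul_single_apply_same]
    by_cases hp : p = σ i
    · subst hp
      rw [single_mul_apply_same, wM_apply, wM_apply, if_pos rfl, if_pos rfl]
      have h1 := sg_mul_self (K := K) q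
      linear_combination (-(sg i * a)) * h1
    · rw [single_mul_apply_of_ne (h := hp), wM_apply, if_neg hp, zero_mul]
  · rw [mul_single_apply_of_ne (hbj := hq)]
    by_cases hp : p = σ i
    · subst hp
      rw [single_mul_apply_same, wM_apply, if_neg, mul_zero]
      intro h1
      exact hq (σ_injective h1).symm
    · rw [single_mul_apply_of_ne (h := hp)]

/-- All elementary matrices in position `(i,j)` lie in the subgroup. -/
def P (H : Subgroup (SL(n + 1, K))) (i j : Fin (n + 1)) : Prop :=
  ∀ (h : i ≠ j) (a : K), transvection h a ∈ H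

lemma P_σ {H : Subgroup (SL(n + 1, K))} (w : SL(n + 1, K))
    (hw : (w : Matrix (Fin (n + 1)) (Fin (n + 1)) K) = wM n K) (hwH : w ∈ H) {i j : Fin (n + 1)}
    (h : P H i j) : P H (σ i) (σ j) := by
  intro hne a
  have hij : i ≠ j := fun h1 => hne (by rw [h1])
  have h1 := H.mul_mem (H.mul_mem hwH (h hij (sg i * sg j * a))) (H.inv_mem hwH)
  rw [conj_w w hw hij] at h1
  have h2 : (sg i : K) * sg j * (sg i * sg j * a) = a := by
    have h3 := sg_mul_self (K := K) i
    have h4 := sg_mul_self (K := K) j
    have : (sg i : K) * sg j * (sg i * sg j * a) = (sg i * sg i) * (sg j * sg j) * a := by ring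
    rw [this, h3, h4]
    ring
  rwa [h2] at h1

lemma P_comp {H : Subgroup (SL(n + 1, K))} {i j l : Fin (n + 1)} (hij : i ≠ j) (hjl : j ≠ l)
    (hil : i ≠ l) (h1 : P H i j) (h2 : P H j l) : P H i l := by
  intro _ a
  have h3 := commutator_transvection hij hjl hil a (1 : K)
  rw [mul_one] at h3
  rw [← h3, commutatorElement_def]
  exact H.mul_mem (H.mul_mem (H.mul_mem (h1 hij a) (h2 hjl 1)) (H.inv_mem (h1 hij a)))
    (H.inv_mem (h2 hjl 1))

/-- From the elementary matrices in position `(0, 1)` and the monomial element, everything. -/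
theorem eq_top_of_mem (hn : 1 ≤ n) (H : Subgroup (SL(n + 1, K))) (w : SL(n + 1, K))
    (hw : (w : Matrix (Fin (n + 1)) (Fin (n + 1)) K) = wM n K) (hwH : w ∈ H)
    (hT : P H (⟨0, by omega⟩ : Fin (n + 1)) ⟨1, by omega⟩) : H = ⊤ := by
  -- the cyclic chain
  have h0 : P H (⟨n, by omega⟩ : Fin (n + 1)) ⟨0, by omega⟩ := by
    have h1 := P_σ w hw hwH hT
    have e0 : σ (⟨0, by omega⟩ : Fin (n + 1)) = ⟨n, by omega⟩ := by
      simp [σ]
    have e1 : σ (⟨1, by omega⟩ : Fin (n + 1)) = ⟨0, by omega⟩ := by
      simp [σ]
    rwa [e0, e1] at h1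
  have hchain : ∀ m : ℕ, (hm : m < n) → P H (⟨n - 1 - m, by omega⟩ : Fin (n + 1)) ⟨n - m, by omega⟩ := by
    intro m
    induction m with
    | zero =>
      intro hm
      have h1 := P_σ w hw hwH h0
      have e0 : σ (⟨n, by omega⟩ : Fin (n + 1)) = ⟨n - 1 - 0, by omega⟩ := by
        apply Fin.ext
        have h2 : n ≠ 0 := by omega
        simp only [σ, h2, dite_false]
        omega
      have e1 : σ (⟨0, by omega⟩ : Fin (n + 1)) = ⟨n - 0, by omega⟩ := by
        apply Fin.ext
        simp [σ]
      rwa [e0, e1] at h1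
    | succ m ih =>
      intro hm
      have h1 := P_σ w hw hwH (ih (by omega))
      have e0 : σ (⟨n - 1 - m, by omega⟩ : Fin (n + 1)) = ⟨n - 1 - (m + 1), by omega⟩ := by
        apply Fin.ext
        have h2 : n - 1 - m ≠ 0 := by omega
        simp only [σ, h2, dite_false]
        omega
      have e1 : σ (⟨n - m, by omega⟩ : Fin (n + 1)) = ⟨n - (m + 1), by omega⟩ := by
        apply Fin.ext
        have h2 : n - m ≠ 0 := by omega
        simp only [σ, h2, dite_false]
        omega
      rwa [e0, e1] at h1
  have hsucc : ∀ (i : ℕ) (hi : i < n), P H (⟨i, by omega⟩ : Fin (n + 1)) ⟨i + 1, by omega⟩ := by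
    intro i hi
    have h1 := hchain (n - 1 - i) (by omega)
    have e0 : (⟨n - 1 - (n - 1 - i), by omega⟩ : Fin (n + 1)) = ⟨i, by omega⟩ := by
      apply Fin.ext
      simp only
      omega
    have e1 : (⟨n - (n - 1 - i), by omega⟩ : Fin (n + 1)) = ⟨i + 1, by omega⟩ := by
      apply Fin.ext
      simp only
      omega
    rwa [e0, e1] at h1
  have hup : ∀ (d i : ℕ) (hi : i + d + 1 < n + 1),
      P H (⟨i, by omega⟩ : Fin (n + 1)) ⟨i + d + 1, hi⟩ := by
    intro d
    induction d with
    | zero =>
      intro i hi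
      exact hsucc i (by omega)
    | succ d ih =>
      intro i hi
      refine P_comp (j := ⟨i + d + 1, by omega⟩) ?_ ?_ ?_ (ih i (by omega)) (hsucc (i + d + 1) (by omega))
      · intro h
        have := congrArg Fin.val h
        simp only at this
        omega
      · intro h
        have := congrArg Fin.val h
        simp only at this
        omega
      · intro h
        have := congrArg Fin.val h
        simp only at this
        omega
  have hlt : ∀ i j : Fin (n + 1), i.val < j.val → P H i j := by
    rintro ⟨i, hi⟩ ⟨j, hj⟩ h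
    simp only at h
    have h1 := hup (j - i - 1) i (by omega)
    have e : (⟨i + (j - i - 1) + 1, by omega⟩ : Fin (n + 1)) = ⟨j, hj⟩ := by
      apply Fin.ext
      simp only
      omega
    rwa [e] at h1
  have hall : ∀ i j : Fin (n + 1), i ≠ j → P H i j := by
    intro i j hij
    have hv : i.val ≠ j.val := fun h => hij (Fin.ext h)
    rcases lt_or_gt_of_ne hv with h | h
    · exact hlt i j h
    · -- descending: go through `n` and `0`
      have hi := i.2
      have hj := j.2
      by_cases hin : i.val = n
      · by_cases hj0 : j.val = 0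
        · have e1 : i = ⟨n, by omega⟩ := Fin.ext hin
          have e2 : j = ⟨0, by omega⟩ := Fin.ext hj0
          rw [e1, e2]
          exact h0
        · have e1 : i = ⟨n, by omega⟩ := Fin.ext hin
          rw [e1]
          refine P_comp (j := ⟨0, by omega⟩) ?_ ?_ ?_ h0 (hlt _ _ ?_)
          · intro h1
            have := congrArg Fin.val h1
            simp only at this
            omega
          · intro h1
            have := congrArg Fin.val h1
            simp only at this
            omega
          · intro h1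
            have := congrArg Fin.val h1
            simp only at this
            omega
          · simp only
            omega
      · have hi0 : P H i ⟨0, by omega⟩ := by
          refine P_comp (j := ⟨n, by omega⟩) ?_ ?_ ?_ (hlt _ _ ?_) h0
          · intro h1
            have := congrArg Fin.val h1
            simp only at this
            omega
          · intro h1
            have := congrArg Fin.val h1
            simp only at this
            omega
          · intro h1
            have := congrArg Fin.val h1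
            simp only at this
            omega
          · simp only
            omega
        by_cases hj0 : j.val = 0
        · have e2 : j = ⟨0, by omega⟩ := Fin.ext hj0
          rw [e2]
          exact hi0
        · refine P_comp (j := ⟨0, by omega⟩) ?_ ?_ hij hi0 (hlt _ _ ?_)
          · intro h1
            have := congrArg Fin.val h1
            simp only at this
            omega
          · intro h1
            have := congrArg Fin.val h1
            simp only at this
            omega
          · simp only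
            omega
  haveI : Nontrivial (Fin (n + 1)) := Fin.nontrivial_iff_two_le.2 (by omega)
  rw [eq_top_iff]
  intro M _
  refine transvection_induction (fun x => x ∈ H) M ?_ (fun _ _ => H.mul_mem)
  intro i j hij a
  exact hall i j hij hij a

section Fields

/-- A large subgroup. -/
lemma eq_top_of_orbit [Fintype K] (k : Kˣ) (hk : ∀ u : Kˣ, u ∈ Subgroup.zpowers k)
    (A : AddSubgroup K) (t : K) (ht : t ≠ 0) (htA : t ∈ A) (hA : ∀ a ∈ A, (k : K) ^ 2 * a ∈ A) :
    A = ⊤ := by
  classical
  have hord : orderOf k = Nat.card Kˣ := orderOf_eq_card_of_forall_mem_zpowers hk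
  have hcard : Nat.card Kˣ = Fintype.card K - 1 := by
    rw [Nat.card_eq_fintype_card, Fintype.card_units]
  have hq1 := Fintype.one_lt_card (α := K)
  set g : Kˣ := k ^ 2 with hg
  have hpow : ∀ m : ℕ, (g : K) ^ m * t ∈ A := by
    intro m
    induction m with
    | zero => simpa using htA
    | succ m ih =>
      have h1 := hA _ ih
      have h2 : (g : K) ^ (m + 1) * t = (k : K) ^ 2 * ((g : K) ^ m * t) := by
        rw [hg, Units.val_pow_eq_pow_val]
        ring
      rwa [h2]
  have hmem : ∀ u ∈ Subgroup.zpowers g, (u : K) * t ∈ A := by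
    intro u hu
    obtain ⟨m, rfl⟩ := (mem_powers_iff_mem_zpowers).2 hu
    have h1 := hpow m
    simpa using h1
  -- counting
  let f : Option (Subgroup.zpowers g) → A := fun o => match o with
    | none => 0
    | some u => ⟨((u : Kˣ) : K) * t, hmem u u.2⟩
  have hf : Function.Injective f := by
    intro a b hab
    rcases a with _ | a <;> rcases b with _ | b
    · rfl
    · exfalso
      have h1 : (0 : K) = (((b : Kˣ) : K) * t) := congrArg Subtype.val hab
      exact (mul_ne_zero (Units.ne_zero _) ht) h1.symm
    · exfalso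
      have h1 : (((a : Kˣ) : K) * t) = 0 := congrArg Subtype.val hab
      exact (mul_ne_zero (Units.ne_zero _) ht) h1
    · have h1 : (((a : Kˣ) : K) * t) = (((b : Kˣ) : K) * t) := congrArg Subtype.val hab
      have h2 := mul_right_cancel₀ ht h1
      rw [Subtype.ext (Units.ext h2)]
  have hle : Nat.card (Option (Subgroup.zpowers g)) ≤ Nat.card A := Nat.card_le_card_of_injective f hf
  rw [Finite.card_option, Nat.card_zpowers] at hle
  have hog : orderOf g = orderOf k / Nat.gcd (orderOf k) 2 := orderOf_pow' k (by norm_num)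
  have hg2 : Nat.gcd (orderOf k) 2 ∣ 2 := Nat.gcd_dvd_right _ _
  have hg3 : Nat.gcd (orderOf k) 2 ∣ orderOf k := Nat.gcd_dvd_left _ _
  have hg4 : Nat.gcd (orderOf k) 2 ≤ 2 := Nat.le_of_dvd (by norm_num) hg2
  have hbig : Fintype.card K - 1 ≤ 2 * orderOf g := by
    rw [← hcard, ← hord, hog]
    have h5 := Nat.mul_div_cancel' hg3
    calc orderOf k = Nat.gcd (orderOf k) 2 * (orderOf k / Nat.gcd (orderOf k) 2) := h5.symm
      _ ≤ 2 * (orderOf k / Nat.gcd (orderOf k) 2) := Nat.mul_le_mul_right _ hg4
  have hdvd : Nat.card A ∣ Nat.card K := AddSubgroup.card_addSubgroup_dvd_card A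
  rw [Nat.card_eq_fintype_card (α := K)] at hdvd
  obtain ⟨e, he⟩ := hdvd
  have hc : Nat.card A = Fintype.card K := by
    have hpos := Nat.card_pos (α := A)
    have : e = 1 := by
      by_contra hne
      have he0 : e ≠ 0 := by
        rintro rfl
        omega
      have he2 : 2 ≤ e := by omega
      have h7 : Nat.card A * 2 ≤ Nat.card A * e := Nat.mul_le_mul_left _ he2
      omega
    rw [he, this, mul_one]
  apply AddSubgroup.eq_top_of_card_eq
  rw [hc, Nat.card_eq_fintype_card]

end Fields

/-- Conjugation of an elementary matrix by a diagonal matrix. -/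
lemma diag_conj (D : SL(n + 1, K)) (f : Fin (n + 1) → K)
    (hD : (D : Matrix (Fin (n + 1)) (Fin (n + 1)) K) = diagonal f) {i j : Fin (n + 1)} (hij : i ≠ j)
    (hf : f j ≠ 0) (a : K) :
    D * transvection hij a * D⁻¹ = transvection hij (f i * a / f j) := by
  rw [mul_inv_eq_iff_eq_mul]
  apply Subtype.ext
  simp only [coe_mul, transvection_coe, mul_add, add_mul, mul_one, one_mul]
  congr 1
  rw [hD]
  ext p q
  rw [Matrix.diagonal_mul, Matrix.mul_diagonal, single_apply, single_apply]
  by_cases h : i = p ∧ j = q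
  · rw [if_pos h, if_pos h, ← h.1, ← h.2]
    field_simp
  · rw [if_neg h, if_neg h]
    simp

lemma conj_diag (w : SL(n + 1, K)) (hw : (w : Matrix (Fin (n + 1)) (Fin (n + 1)) K) = wM n K)
    (h : SL(n + 1, K)) (f : Fin (n + 1) → K)
    (hh : (h : Matrix (Fin (n + 1)) (Fin (n + 1)) K) = diagonal f) :
    ((w * h * w⁻¹ : SL(n + 1, K)) : Matrix (Fin (n + 1)) (Fin (n + 1)) K) = diagonal (fun p => f (τ p)) := by
  have h1 : (w : Matrix (Fin (n + 1)) (Fin (n + 1)) K) * h =
      diagonal (fun p => f (τ p)) * (w : Matrix (Fin (n + 1)) (Fin (n + 1)) K) := by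
    rw [hw, hh]
    ext p q
    rw [Matrix.diagonal_mul, Matrix.mul_diagonal, wM_apply]
    by_cases hp : p = σ q
    · rw [if_pos hp, hp, τ_σ]
      ring
    · rw [if_neg hp]
      ring
  have h2 : ((w⁻¹ : SL(n + 1, K)) : Matrix (Fin (n + 1)) (Fin (n + 1)) K) *
      (w : Matrix (Fin (n + 1)) (Fin (n + 1)) K) = 1 ∧ (w : Matrix (Fin (n + 1)) (Fin (n + 1)) K) *
      ((w⁻¹ : SL(n + 1, K)) : Matrix (Fin (n + 1)) (Fin (n + 1)) K) = 1 := by
    constructor
    · rw [← coe_mul, inv_mul_cancel]
      rfl
    · rw [← coe_mul, mul_inv_cancel]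
      rfl
  rw [coe_mul, coe_mul, h1, mul_assoc, h2.2, mul_one]

lemma diag_comm (A B : SL(n + 1, K)) (f g : Fin (n + 1) → K)
    (hA : (A : Matrix (Fin (n + 1)) (Fin (n + 1)) K) = diagonal f)
    (hB : (B : Matrix (Fin (n + 1)) (Fin (n + 1)) K) = diagonal g) : A * B = B * A := by
  apply Subtype.ext
  rw [coe_mul, coe_mul, hA, hB, Matrix.diagonal_mul_diagonal, Matrix.diagonal_mul_diagonal]
  congr 1
  ext i
  ring

/-- The commutator computation. -/
lemma comm_calc {G : Type*} [Group G] (T : K → G) (hadd : ∀ a b, T (a + b) = T a * T b)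
    (h h' : G) (s d : K) (hT : ∀ a, h * T a * h⁻¹ = T (s * a)) (hT' : ∀ a, h' * T a * h'⁻¹ = T (d * a))
    (hc : h * h' = h' * h) (hinv : ∀ a, (T a)⁻¹ = T (-a)) :
    h * (T 1 * h' * (T 1)⁻¹) * h⁻¹ * (T 1 * h' * (T 1)⁻¹)⁻¹ = T ((s - 1) * (1 - d)) := by
  have e1 : h * (T 1 * h' * (T 1)⁻¹) * h⁻¹ = T (s * 1) * h' * T (s * (-1)) := by
    have h1 : h * (T 1 * h' * (T 1)⁻¹) * h⁻¹ =
        (h * T 1 * h⁻¹) * (h * h' * h⁻¹) * (h * T (-1) * h⁻¹) := by
      rw [hinv]
      group
    rw [h1, hT, hT, hc, mul_inv_cancel_right]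
  have e2 : (T 1 * h' * (T 1)⁻¹)⁻¹ = T 1 * h'⁻¹ * T (-1) := by
    rw [hinv, _root_.mul_inv_rev, _root_.mul_inv_rev, hinv, neg_neg, hinv]
    group
  rw [e1, e2]
  have e3 : T (s * 1) * h' * T (s * (-1)) * (T 1 * h'⁻¹ * T (-1)) =
      T (s * 1) * (h' * (T (s * (-1)) * T 1) * h'⁻¹) * T (-1) := by
    group
  rw [e3, ← hadd, hT', ← hadd, ← hadd]
  congr 1
  ring

/-- Generation for fields with more than three elements. -/
theorem gen_large [Fintype K] (hK : 3 < Fintype.card K) (hn : 1 ≤ n) (k : Kˣ)
    (hk : ∀ u : Kˣ, u ∈ Subgroup.zpowers k) (h x w : SL(n + 1, K))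
    (hh : (h : Matrix (Fin (n + 1)) (Fin (n + 1)) K) = Matrix.diagonal
      (fun i => if i.val = 0 then (k : K) else if i.val = 1 then ((k⁻¹ : Kˣ) : K) else 1))
    (hx : (x : Matrix (Fin (n + 1)) (Fin (n + 1)) K) =
      Matrix.transvection (0 : Fin (n + 1)) (1 : Fin (n + 1)) 1)
    (hw : (w : Matrix (Fin (n + 1)) (Fin (n + 1)) K) = wM n K) :
    Subgroup.closure ({h, x * w} : Set (SL(n + 1, K))) = ⊤ := by
  classical
  set H := Subgroup.closure ({h, x * w} : Set (SL(n + 1, K))) with hH
  have hhH : h ∈ H := Subgroup.subset_closure (by simp)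
  have hyH : x * w ∈ H := Subgroup.subset_closure (by simp)
  let i₀ : Fin (n + 1) := ⟨0, by omega⟩
  let j₀ : Fin (n + 1) := ⟨1, by omega⟩
  have h01 : i₀ ≠ j₀ := by
    intro h1
    have := congrArg Fin.val h1
    simp [i₀, j₀] at this
  let T : K → SL(n + 1, K) := fun a => SpecialLinearGroup.transvection h01 a
  have hxT : x = T 1 := by
    apply Subtype.ext
    rw [hx]
    have e1 : (1 : Fin (n + 1)) = j₀ := by
      apply Fin.ext
      simp [j₀, Fin.val_one', Nat.mod_eq_of_lt (show 1 < n + 1 by omega)]
    rw [e1]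
    rfl
  let f : Fin (n + 1) → K := fun i => if i.val = 0 then (k : K) else if i.val = 1 then ((k⁻¹ : Kˣ) : K) else 1
  have hf : ∀ i, f i ≠ 0 := by
    intro i
    simp only [f]
    split_ifs
    · exact k.ne_zero
    · exact (k⁻¹).ne_zero
    · exact one_ne_zero
  have hord : orderOf k = Nat.card Kˣ := orderOf_eq_card_of_forall_mem_zpowers hk
  have hcard : Nat.card Kˣ = Fintype.card K - 1 := by
    rw [Nat.card_eq_fintype_card, Fintype.card_units]
  have hk2 : (k : K) ^ 2 ≠ 1 := by
    intro h1
    have h2 : k ^ 2 = 1 := by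
      apply Units.ext
      simpa using h1
    have h3 := orderOf_dvd_of_pow_eq_one h2
    have h4 := Nat.le_of_dvd (by norm_num) h3
    omega
  have hk1 : (k : K) ≠ 1 := by
    intro h1
    apply hk2
    rw [h1, one_pow]
  have hk0 : (k : K) ≠ 0 := k.ne_zero
  have hkinv : ((k⁻¹ : Kˣ) : K) = (k : K)⁻¹ := by simp
  let h' : SL(n + 1, K) := w * h * w⁻¹
  have hh' : (h' : Matrix (Fin (n + 1)) (Fin (n + 1)) K) = diagonal (fun p => f (τ p)) :=
    conj_diag w hw h f hh
  have hf0 : f i₀ = k := by simp [f, i₀]
  have hf1 : f j₀ = (k : K)⁻¹ := by simp [f, j₀]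
  have hτ0 : τ i₀ = j₀ := by
    apply Fin.ext
    have : (i₀ : ℕ) ≠ n := by
      simp only [i₀]
      omega
    simp [τ, this, i₀, j₀]
  have hconj1 : ∀ a, h * T a * h⁻¹ = T ((k : K) ^ 2 * a) := by
    intro a
    have h1 := diag_conj h f hh h01 (hf j₀) a
    rw [hf0, hf1] at h1
    change h * SpecialLinearGroup.transvection h01 a * h⁻¹ = SpecialLinearGroup.transvection h01 _
    rw [h1]
    congr 1
    field_simp
  have hfτ : f (τ j₀) ≠ 0 := hf _
  obtain ⟨d, hd, hd1⟩ : ∃ d : K, (∀ a, h' * T a * h'⁻¹ = T (d * a)) ∧ d ≠ 1 := by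
    refine ⟨(k : K)⁻¹ / f (τ j₀), ?_, ?_⟩
    · intro a
      have h1 := diag_conj h' (fun p => f (τ p)) hh' h01 hfτ a
      simp only [hτ0, hf1] at h1
      change h' * SpecialLinearGroup.transvection h01 a * h'⁻¹ = SpecialLinearGroup.transvection h01 _
      rw [h1]
      congr 1
      field_simp
    · by_cases hn1 : n = 1
      · subst hn1
        have e : τ j₀ = i₀ := by
          apply Fin.ext
          simp [τ, i₀, j₀]
        rw [e, hf0]
        intro h1
        apply hk2
        field_simp at h1
        exact h1.symm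
      · have e : (τ j₀ : Fin (n + 1)).val = 2 := by
          have : (j₀ : ℕ) ≠ n := by
            simp only [j₀]
            omega
          simp [τ, this, j₀]
        have e2 : f (τ j₀) = 1 := by
          simp only [f]
          rw [if_neg (by omega), if_neg (by omega)]
        rw [e2, div_one]
        intro h1
        apply hk1
        rw [inv_eq_one] at h1
        exact h1
  have hc : h * h' = h' * h := diag_comm h h' _ _ hh hh'
  have hkey := comm_calc T (fun a b => transvection_add h01 a b) h h' ((k : K) ^ 2) d hconj1 hd hc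
    (fun a => transvection_inv h01 a)
  have hvH : T 1 * h' * (T 1)⁻¹ ∈ H := by
    have e : T 1 * h' * (T 1)⁻¹ = (x * w) * h * (x * w)⁻¹ := by
      rw [← hxT]
      simp only [h']
      group
    rw [e]
    exact H.mul_mem (H.mul_mem hyH hhH) (H.inv_mem hyH)
  have ht0 : T (((k : K) ^ 2 - 1) * (1 - d)) ∈ H := by
    rw [← hkey]
    exact H.mul_mem (H.mul_mem (H.mul_mem hhH hvH) (H.inv_mem hhH)) (H.inv_mem hvH)
  -- the additive subgroup
  let A : AddSubgroup K :=
    { carrier := {a | T a ∈ H}
      add_mem' := by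
        intro a b ha hb
        change T (a + b) ∈ H
        have e : T (a + b) = T a * T b := transvection_add h01 a b
        rw [e]
        exact H.mul_mem ha hb
      zero_mem' := by
        change T 0 ∈ H
        have e : T 0 = 1 := transvection_coeff_zero h01
        rw [e]
        exact H.one_mem
      neg_mem' := by
        intro a ha
        change T (-a) ∈ H
        have e : T (-a) = (T a)⁻¹ := (transvection_inv h01 a).symm
        rw [e]
        exact H.inv_mem ha }
  have hAtop : A = ⊤ := by
    refine eq_top_of_orbit k hk A _ ?_ ht0 ?_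
    · exact mul_ne_zero (sub_ne_zero.2 hk2) (sub_ne_zero.2 (Ne.symm hd1))
    · intro a ha
      change T _ ∈ H
      rw [← hconj1]
      exact H.mul_mem (H.mul_mem hhH ha) (H.inv_mem hhH)
  have hTH : ∀ a, T a ∈ H := by
    intro a
    have : a ∈ A := by
      rw [hAtop]
      exact AddSubgroup.mem_top a
    exact this
  have hwH : w ∈ H := by
    have e : w = x⁻¹ * (x * w) := by group
    rw [e]
    refine H.mul_mem (H.inv_mem ?_) hyH
    rw [hxT]
    exact hTH 1
  exact eq_top_of_mem hn H w hw hwH (fun _ a => hTH a)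

/-- Generation for fields with two or three elements. -/
theorem gen_small [Fintype K] (hK : Fintype.card K ≤ 3) (hn : 1 ≤ n) (x w : SL(n + 1, K))
    (hx : (x : Matrix (Fin (n + 1)) (Fin (n + 1)) K) =
      Matrix.transvection (0 : Fin (n + 1)) (1 : Fin (n + 1)) 1)
    (hw : (w : Matrix (Fin (n + 1)) (Fin (n + 1)) K) = wM n K) :
    Subgroup.closure ({x, w} : Set (SL(n + 1, K))) = ⊤ := by
  classical
  set H := Subgroup.closure ({x, w} : Set (SL(n + 1, K))) with hH
  have hxH : x ∈ H := Subgroup.subset_closure (by simp)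
  have hwH : w ∈ H := Subgroup.subset_closure (by simp)
  let i₀ : Fin (n + 1) := ⟨0, by omega⟩
  let j₀ : Fin (n + 1) := ⟨1, by omega⟩
  have h01 : i₀ ≠ j₀ := by
    intro h1
    have := congrArg Fin.val h1
    simp [i₀, j₀] at this
  have hxT : x = transvection h01 1 := by
    apply Subtype.ext
    rw [hx]
    have e1 : (1 : Fin (n + 1)) = j₀ := by
      apply Fin.ext
      simp [j₀, Fin.val_one', Nat.mod_eq_of_lt (show 1 < n + 1 by omega)]
    rw [e1]
    rfl
  have hvals : ∀ a : K, a = 0 ∨ a = 1 ∨ a = -1 := by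
    intro a
    have h1 := FiniteField.pow_card a
    have hq := Fintype.one_lt_card (α := K)
    have h23 : Fintype.card K = 2 ∨ Fintype.card K = 3 := by omega
    rcases h23 with h | h
    · rw [h] at h1
      have h2 : a * (a - 1) = 0 := by linear_combination h1
      rcases mul_eq_zero.1 h2 with h3 | h3
      · exact Or.inl h3
      · exact Or.inr (Or.inl (sub_eq_zero.1 h3))
    · rw [h] at h1
      have h2 : a * ((a - 1) * (a + 1)) = 0 := by linear_combination h1
      rcases mul_eq_zero.1 h2 with h3 | h3
      · exact Or.inl h3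
      · rcases mul_eq_zero.1 h3 with h4 | h4
        · exact Or.inr (Or.inl (sub_eq_zero.1 h4))
        · exact Or.inr (Or.inr (eq_neg_of_add_eq_zero_left h4))
  apply eq_top_of_mem hn H w hw hwH
  intro _ a
  rcases hvals a with rfl | rfl | rfl
  · rw [transvection_coeff_zero]
    exact H.one_mem
  · rw [← hxT]
    exact hxH
  · rw [← transvection_inv, ← hxT]
    exact H.inv_mem hxH

end Cfsg.Agent.Lib.Classical.PslGen
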