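import Mathlib

/-!
Regular unipotent elements of `SL_n(F)`: they form one `GL_n`-class, and this class splits into
`gcd(n, |Fˣ|)` classes of `SL_n`.
-/

set_option autoImplicit false
set_option linter.unusedSectionVars false
set_option linter.unusedSimpArgs false
set_option linter.style.haveILetI false

open Matrix
open scoped MatrixGroups

namespace Cfsg.Agent.Lib.Classical.RegUni

variable {F : Type*} [Field F] {n : ℕ}

/-- The upper shift. -/
def Js : Matrix (Fin n) (Fin n) F := Matrix.of fun i j => if (i : ℕ) + 1 = j then 1 else 0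

lemma Js_apply (i j : Fin n) : (Js : Matrix (Fin n) (Fin n) F) i j = if (i : ℕ) + 1 = j then 1 else 0 :=
  rfl

lemma mul_Js_zero (A : Matrix (Fin n) (Fin n) F) (i : Fin n) (h : 0 < n) : (A * Js : Matrix (Fin n) (Fin n) F) i ⟨0, h⟩ = 0 := by
  rw [Matrix.mul_apply]
  apply Finset.sum_eq_zero
  intro k _
  rw [Js_apply, if_neg (by simp)]
  simp

lemma mul_Js_succ (A : Matrix (Fin n) (Fin n) F) (i : Fin n) (j : ℕ) (h : j + 1 < n) :
    (A * Js : Matrix (Fin n) (Fin n) F) i ⟨j + 1, h⟩ = A i ⟨j, by omega⟩ := by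
  rw [Matrix.mul_apply, Finset.sum_eq_single (⟨j, by omega⟩ : Fin n)]
  · rw [Js_apply, if_pos rfl, mul_one]
  · intro k _ hk
    rw [Js_apply, if_neg, mul_zero]
    intro h1
    apply hk
    apply Fin.ext
    simp only at h1 ⊢
    omega
  · simp

lemma Js_mul_succ (A : Matrix (Fin n) (Fin n) F) (j : Fin n) (i : ℕ) (h : i + 1 < n) :
    (Js * A : Matrix (Fin n) (Fin n) F) ⟨i, by omega⟩ j = A ⟨i + 1, h⟩ j := by
  rw [Matrix.mul_apply, Finset.sum_eq_single (⟨i + 1, h⟩ : Fin n)]
  · rw [Js_apply, if_pos rfl, one_mul]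
  · intro k _ hk
    rw [Js_apply, if_neg, zero_mul]
    intro h1
    apply hk
    apply Fin.ext
    simp only at h1 ⊢
    omega
  · simp

lemma Js_pow_apply (k : ℕ) (i j : Fin n) :
    ((Js : Matrix (Fin n) (Fin n) F) ^ k) i j = if (i : ℕ) + k = j then 1 else 0 := by
  induction k generalizing j with
  | zero =>
    simp only [pow_zero, add_zero, Matrix.one_apply]
    by_cases h : i = j
    · simp [h]
    · rw [if_neg h, if_neg]
      intro h1
      exact h (Fin.ext h1)
  | succ k ih =>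
    rw [pow_succ]
    rcases j with ⟨j, hj⟩
    cases j with
    | zero =>
      rw [mul_Js_zero, if_neg]
      simp only
      omega
    | succ j =>
      rw [mul_Js_succ, ih]
      simp only
      congr 1
      apply propext
      constructor <;> intro h <;> omega

lemma Js_pow_self : (Js : Matrix (Fin n) (Fin n) F) ^ n = 0 := by
  ext i j
  rw [Js_pow_apply, if_neg (by have := j.2; omega)]
  rfl

lemma Js_rank_le (hn : 0 < n) : (Js : Matrix (Fin n) (Fin n) F).rank + 1 ≤ n := by
  classical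
  let w : Fin n → F := fun i => if (i : ℕ) = 0 then 1 else 0
  have h0 : (Js : Matrix (Fin n) (Fin n) F) * Matrix.diagonal w = 0 := by
    ext i j
    rw [Matrix.mul_diagonal, Js_apply]
    by_cases hj : (j : ℕ) = 0
    · rw [if_neg (by omega), zero_mul]
      rfl
    · have : w j = 0 := if_neg hj
      rw [this, mul_zero]
      rfl
  have h1 := rank_add_rank_le_card_of_mul_eq_zero h0
  rw [Matrix.rank_diagonal, Fintype.card_fin] at h1
  have h2 : 1 ≤ Fintype.card {i // w i ≠ 0} := by
    apply Fintype.card_pos_iff.2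
    refine ⟨⟨⟨0, hn⟩, ?_⟩⟩
    simp [w]
  omega

lemma Js_rank_ge (hn : 0 < n) : n - 1 ≤ (Js : Matrix (Fin n) (Fin n) F).rank := by
  classical
  let w : Fin n → F := fun i => if (i : ℕ) = 0 then 0 else 1
  have h0 : (Js : Matrix (Fin n) (Fin n) F)ᵀ * Js = Matrix.diagonal w := by
    ext i j
    rcases j with ⟨j, hj⟩
    cases j with
    | zero =>
      rw [mul_Js_zero, Matrix.diagonal_apply]
      by_cases h : i = ⟨0, hj⟩
      · rw [if_pos h, h]
        simp [w]
      · rw [if_neg h]
    | succ j =>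
      rw [mul_Js_succ, Matrix.transpose_apply, Js_apply, Matrix.diagonal_apply]
      simp only
      by_cases h : j + 1 = i
      · rw [if_pos h]
        have h2 : i = ⟨j + 1, hj⟩ := Fin.ext h.symm
        rw [if_pos h2, h2]
        simp [w]
      · rw [if_neg h, if_neg]
        intro h2
        apply h
        rw [h2]
  have h1 := Matrix.rank_mul_le_right (Js : Matrix (Fin n) (Fin n) F)ᵀ (Js : Matrix (Fin n) (Fin n) F)
  rw [h0, Matrix.rank_diagonal] at h1
  refine le_trans ?_ h1
  have h3 : Fintype.card {i : Fin n // w i ≠ 0} = Fintype.card {i : Fin n // i ≠ ⟨0, hn⟩} := by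
    apply Fintype.card_congr
    apply Equiv.subtypeEquivRight
    intro i
    constructor
    · intro h h2
      apply h
      simp [w, h2]
    · intro h
      have h5 : (i : ℕ) ≠ 0 := fun h4 => h (Fin.ext h4)
      simp [w, h5]
  rw [h3, Fintype.card_subtype_compl]
  simp

lemma Js_rank (hn : 0 < n) : (Js : Matrix (Fin n) (Fin n) F).rank = n - 1 := by
  have h1 := Js_rank_le (F := F) hn
  have h2 := Js_rank_ge (F := F) hn
  omega

/-- Sylvester's rank inequality, in the form used here. -/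
lemma rank_le_rank_mul_add (N M : Matrix (Fin n) (Fin n) F) :
    M.rank + N.rank ≤ (N * M).rank + n := by
  have hf := LinearMap.finrank_range_add_finrank_ker N.mulVecLin
  have hn : Module.finrank F (Fin n → F) = n := by simp
  rw [hn] at hf
  set W := LinearMap.range M.mulVecLin with hW
  have h1 : (N * M).rank = Module.finrank F (W.map N.mulVecLin) := by
    rw [Matrix.rank, Matrix.mulVecLin_mul, LinearMap.range_comp]
  have h2 := LinearMap.finrank_range_add_finrank_ker (N.mulVecLin.domRestrict W)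
  rw [LinearMap.range_domRestrict] at h2
  have h3 : Module.finrank F (LinearMap.ker (N.mulVecLin.domRestrict W)) ≤
      Module.finrank F (LinearMap.ker N.mulVecLin) := by
    rw [← Submodule.finrank_map_subtype_eq]
    apply Submodule.finrank_mono
    rintro _ ⟨x, hx, rfl⟩
    have hx' : N.mulVecLin.domRestrict W x = 0 := hx
    exact hx'
  have h4 : M.rank = Module.finrank F W := rfl
  have h5 : N.rank = Module.finrank F (LinearMap.range N.mulVecLin) := rfl
  omega

lemma pow_rank_ge (N : Matrix (Fin n) (Fin n) F) (hN : N.rank + 1 = n) (k : ℕ) :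
    n ≤ (N ^ k).rank + k := by
  induction k with
  | zero =>
    simp [Matrix.rank_one]
  | succ k ih =>
    rw [pow_succ']
    have h := rank_le_rank_mul_add N (N ^ k)
    omega

lemma pow_ne_zero_of_rank (hn : 2 ≤ n) (N : Matrix (Fin n) (Fin n) F) (hN : N.rank = n - 1) :
    N ^ (n - 1) ≠ 0 := by
  intro h
  have h1 := pow_rank_ge N (by omega) (n - 1)
  rw [h, Matrix.rank_zero] at h1
  omega

/-- The columns of the conjugating matrix. -/
def gM (N : Matrix (Fin n) (Fin n) F) (v : Fin n → F) : Matrix (Fin n) (Fin n) F :=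
  Matrix.of fun i j => ((N ^ (n - 1 - (j : ℕ))).mulVec v) i

lemma gM_isUnit (N : Matrix (Fin n) (Fin n) F) (hN : N ^ n = 0) (v : Fin n → F)
    (hv : (N ^ (n - 1)).mulVec v ≠ 0) : IsUnit (gM N v) := by
  classical
  rw [← Matrix.linearIndependent_cols_iff_isUnit, Fintype.linearIndependent_iff]
  intro a ha
  by_contra hne
  push Not at hne
  obtain ⟨j₁, hj₁⟩ := hne
  have hS : (Finset.univ.filter fun j => a j ≠ 0).Nonempty := ⟨j₁, by simp [hj₁]⟩
  set j₀ := (Finset.univ.filter fun j => a j ≠ 0).max' hS with hj₀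
  have hmem : a j₀ ≠ 0 := by
    have := Finset.max'_mem _ hS
    simpa using this
  have hmax : ∀ j, j₀ < j → a j = 0 := by
    intro j hj
    by_contra h
    have := Finset.le_max' (Finset.univ.filter fun j => a j ≠ 0) j (by simp [h])
    exact absurd hj (not_lt.2 this)
  have hpow : ∀ m, n ≤ m → (N ^ m).mulVec v = 0 := by
    intro m hm
    obtain ⟨r, rfl⟩ := Nat.exists_eq_add_of_le hm
    rw [pow_add, hN, zero_mul, Matrix.zero_mulVec]
  have h1 := congrArg (fun x => (N ^ (j₀ : ℕ)).mulVec x) ha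
  simp only [Matrix.mulVec_zero, Matrix.mulVec_sum, Matrix.mulVec_smul] at h1
  rw [Finset.sum_eq_single j₀] at h1
  · have h2 : (N ^ (j₀ : ℕ)).mulVec ((gM N v).col j₀) = (N ^ (n - 1)).mulVec v := by
      have h3 : (gM N v).col j₀ = (N ^ (n - 1 - (j₀ : ℕ))).mulVec v := rfl
      rw [h3, Matrix.mulVec_mulVec, ← pow_add]
      congr 2
      have := j₀.2
      omega
    rw [h2] at h1
    exact (smul_eq_zero.1 h1).elim hmem hv
  · intro j _ hj
    rcases lt_or_gt_of_ne hj with h | h
    · have h3 : (gM N v).col j = (N ^ (n - 1 - (j : ℕ))).mulVec v := rfl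
      rw [h3, Matrix.mulVec_mulVec, ← pow_add, hpow, smul_zero]
      have h4 : (j : ℕ) < j₀ := h
      have := j₀.2
      omega
    · rw [hmax j h, zero_smul]
  · simp

lemma mul_gM (N : Matrix (Fin n) (Fin n) F) (hN : N ^ n = 0) (v : Fin n → F) :
    N * gM N v = gM N v * Js := by
  ext i j
  have h1 : (N * gM N v : Matrix (Fin n) (Fin n) F) i j =
      (N.mulVec ((N ^ (n - 1 - (j : ℕ))).mulVec v)) i := rfl
  rw [h1, Matrix.mulVec_mulVec, ← pow_succ']
  rcases j with ⟨j, hj⟩
  cases j with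
  | zero =>
    rw [mul_Js_zero]
    simp only [Nat.sub_zero]
    have h2 : n - 1 + 1 = n := by omega
    rw [h2, hN, Matrix.zero_mulVec]
    rfl
  | succ j =>
    rw [mul_Js_succ]
    simp only
    have h2 : n - 1 - (j + 1) + 1 = n - 1 - j := by omega
    rw [h2]
    rfl

/-- Normal form of a regular nilpotent matrix. -/
theorem exists_normal (hn : 2 ≤ n) (N : Matrix (Fin n) (Fin n) F) (hN : N ^ n = 0)
    (hr : N.rank = n - 1) : ∃ g : GL (Fin n) F, N * (g : Matrix (Fin n) (Fin n) F) =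
      (g : Matrix (Fin n) (Fin n) F) * Js := by
  have h1 := pow_ne_zero_of_rank hn N hr
  obtain ⟨v, hv⟩ : ∃ v, (N ^ (n - 1)).mulVec v ≠ 0 := by
    by_contra h
    push Not at h
    apply h1
    apply Matrix.ext_of_mulVec_single
    intro j
    rw [h, Matrix.zero_mulVec]
  obtain ⟨u, hu⟩ := gM_isUnit N hN v hv
  refine ⟨u, ?_⟩
  rw [hu]
  exact mul_gM N hN v

section Centralizer

lemma comm_step {c : Matrix (Fin n) (Fin n) F} (hc : c * Js = Js * c) (i j : ℕ) (hi : i + 1 < n)
    (hj : j + 1 < n) : c ⟨i + 1, hi⟩ ⟨j + 1, hj⟩ = c ⟨i, by omega⟩ ⟨j, by omega⟩ := by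
  have h1 := congrFun (congrFun hc ⟨i, by omega⟩) ⟨j + 1, hj⟩
  rw [mul_Js_succ, Js_mul_succ _ _ _ hi] at h1
  exact h1.symm

lemma comm_col {c : Matrix (Fin n) (Fin n) F} (hc : c * Js = Js * c) (i : ℕ) (hi : i + 1 < n) :
    c ⟨i + 1, hi⟩ ⟨0, by omega⟩ = 0 := by
  have h1 := congrFun (congrFun hc ⟨i, by omega⟩) ⟨0, by omega⟩
  rw [mul_Js_zero, Js_mul_succ _ _ _ hi] at h1
  exact h1.symm

lemma comm_lower {c : Matrix (Fin n) (Fin n) F} (hc : c * Js = Js * c) (j : ℕ) :
    ∀ (i : ℕ) (hi : i < n) (hj : j < n), j < i → c ⟨i, hi⟩ ⟨j, hj⟩ = 0 := by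
  induction j with
  | zero =>
    intro i hi hj h
    obtain ⟨k, rfl⟩ : ∃ k, i = k + 1 := ⟨i - 1, by omega⟩
    exact comm_col hc k hi
  | succ j ih =>
    intro i hi hj h
    obtain ⟨k, rfl⟩ : ∃ k, i = k + 1 := ⟨i - 1, by omega⟩
    rw [comm_step hc k j hi hj]
    exact ih k (by omega) (by omega) (by omega)

lemma comm_diag {c : Matrix (Fin n) (Fin n) F} (hc : c * Js = Js * c) (h0 : 0 < n) (i : ℕ) (hi : i < n) :
    c ⟨i, hi⟩ ⟨i, hi⟩ = c ⟨0, h0⟩ ⟨0, h0⟩ := by
  induction i with
  | zero => rfl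
  | succ i ih =>
    rw [comm_step hc i i hi hi]
    exact ih (by omega)

/-- The determinant of a matrix commuting with the shift. -/
lemma comm_det {c : Matrix (Fin n) (Fin n) F} (hc : c * Js = Js * c) (h0 : 0 < n) :
    c.det = (c ⟨0, h0⟩ ⟨0, h0⟩) ^ n := by
  have h1 : c.BlockTriangular id := by
    rintro ⟨i, hi⟩ ⟨j, hj⟩ h
    exact comm_lower hc j i hi hj h
  rw [Matrix.det_of_isUpperTriangular h1]
  rw [Finset.prod_congr rfl (fun i _ => comm_diag hc h0 i.1 i.2)]
  simp

end Centralizer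

/-- The standard regular unipotent element. -/
def u₀ : SL(n, F) := ⟨1 + Js, by
  have h1 : (1 + Js : Matrix (Fin n) (Fin n) F).BlockTriangular id := by
    intro i j h
    rw [Matrix.add_apply, Matrix.one_apply, Js_apply, if_neg, if_neg, add_zero]
    · have h2 : (j : ℕ) < i := h
      omega
    · intro h2
      rw [h2] at h
      exact lt_irrefl _ h
  rw [Matrix.det_of_isUpperTriangular h1]
  apply Finset.prod_eq_one
  intro i _
  rw [Matrix.add_apply, Matrix.one_apply, Js_apply, if_pos rfl, if_neg (by omega), add_zero]⟩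

lemma coe_u₀ : ((u₀ : SL(n, F)) : Matrix (Fin n) (Fin n) F) = 1 + Js := rfl

/-- The predicate of the statement. -/
def Reg (u : SL(n, F)) : Prop :=
  ((u : Matrix (Fin n) (Fin n) F) - 1) ^ n = 0 ∧ ((u : Matrix (Fin n) (Fin n) F) - 1).rank = n - 1

/-- Conjugation of `SL_n` by `GL_n`. -/
def conjGL (g : GL (Fin n) F) (u : SL(n, F)) : SL(n, F) :=
  ⟨(g : Matrix (Fin n) (Fin n) F) * u * ((g⁻¹ : GL (Fin n) F) : Matrix (Fin n) (Fin n) F), by
    rw [Matrix.det_units_conj]
    exact u.2⟩

lemma coe_conjGL (g : GL (Fin n) F) (u : SL(n, F)) : (conjGL g u : Matrix (Fin n) (Fin n) F) =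
    (g : Matrix (Fin n) (Fin n) F) * u * ((g⁻¹ : GL (Fin n) F) : Matrix (Fin n) (Fin n) F) := rfl

lemma conj_sub_one (g : GL (Fin n) F) (u : SL(n, F)) :
    (conjGL g u : Matrix (Fin n) (Fin n) F) - 1 =
    (g : Matrix (Fin n) (Fin n) F) * ((u : Matrix (Fin n) (Fin n) F) - 1) *
      ((g⁻¹ : GL (Fin n) F) : Matrix (Fin n) (Fin n) F) := by
  rw [coe_conjGL, mul_sub, sub_mul, mul_one, Units.mul_inv]

lemma reg_conj (g : GL (Fin n) F) {u : SL(n, F)} (hu : Reg u) : Reg (conjGL g u) := by
  constructor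
  · rw [conj_sub_one, Units.conj_pow, hu.1, mul_zero, zero_mul]
  · rw [conj_sub_one, Matrix.rank_mul_eq_left_of_isUnit_det, Matrix.rank_mul_eq_right_of_isUnit_det,
      hu.2]
    · exact (Matrix.isUnit_iff_isUnit_det _).1 g.isUnit
    · exact (Matrix.isUnit_iff_isUnit_det _).1 (g⁻¹).isUnit

lemma reg_u₀ (hn : 0 < n) : Reg (u₀ : SL(n, F)) := by
  constructor
  · rw [coe_u₀, add_sub_cancel_left, Js_pow_self]
  · rw [coe_u₀, add_sub_cancel_left, Js_rank hn]

lemma exists_conj_of_reg (hn : 2 ≤ n) {u : SL(n, F)} (hu : Reg u) :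
    ∃ g : GL (Fin n) F, u = conjGL g u₀ := by
  obtain ⟨g, hg⟩ := exists_normal hn _ hu.1 hu.2
  refine ⟨g, ?_⟩
  apply Subtype.ext
  rw [coe_conjGL, coe_u₀]
  have h1 : (u : Matrix (Fin n) (Fin n) F) * (g : Matrix (Fin n) (Fin n) F) =
      (g : Matrix (Fin n) (Fin n) F) * (1 + Js) := by
    have h2 : ((u : Matrix (Fin n) (Fin n) F) - 1) * (g : Matrix (Fin n) (Fin n) F) =
        (g : Matrix (Fin n) (Fin n) F) * Js := hg
    rw [sub_mul, one_mul] at h2
    rw [mul_add, mul_one, ← h2]
    abel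
  rw [← h1, mul_assoc, Units.mul_inv, mul_one]

lemma toGL_inj : Function.Injective (SpecialLinearGroup.toGL : SL(n, F) → GL (Fin n) F) :=
  fun _ _ h => Subtype.ext (congrArg Units.val h)

lemma toGL_conj (g : GL (Fin n) F) (u : SL(n, F)) :
    SpecialLinearGroup.toGL (conjGL g u) = g * SpecialLinearGroup.toGL u * g⁻¹ :=
  Units.ext rfl

lemma det_scalar (c : Fˣ) :
    GeneralLinearGroup.det (GeneralLinearGroup.scalar (Fin n) c : GL (Fin n) F) = c ^ n := by
  apply Units.ext
  rw [GeneralLinearGroup.val_det_apply, GeneralLinearGroup.coe_scalar, Matrix.scalar_apply,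
    Matrix.det_diagonal]
  simp

/-- Two elements conjugate under `GL_n` by matrices with determinants in the same class. -/
lemma conj_eq_conj (g h : GL (Fin n) F) (c : Fˣ)
    (hdet : GeneralLinearGroup.det h = GeneralLinearGroup.det g * c ^ n) (u : SL(n, F)) :
    IsConj (conjGL g u) (conjGL h u) := by
  set k : GL (Fin n) F := h * (g * GeneralLinearGroup.scalar (Fin n) c)⁻¹ with hk
  have hs : (k : Matrix (Fin n) (Fin n) F).det = 1 := by
    have h1 : GeneralLinearGroup.det k = 1 := by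
      rw [hk, map_mul, map_inv, map_mul, hdet, det_scalar, mul_inv_cancel]
    have h3 := congrArg Units.val h1
    rwa [GeneralLinearGroup.val_det_apply] at h3
  rw [isConj_iff]
  let s' : SL(n, F) := ⟨k, hs⟩
  refine ⟨s', ?_⟩
  rw [mul_inv_eq_iff_eq_mul]
  apply toGL_inj
  have hk' : SpecialLinearGroup.toGL s' = k := Units.ext rfl
  rw [map_mul, map_mul, toGL_conj, toGL_conj, hk']
  have hh : h = k * g * GeneralLinearGroup.scalar (Fin n) c := by
    rw [hk]
    group
  have hz := GeneralLinearGroup.scalar_commute c (SpecialLinearGroup.toGL u)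
  set z : GL (Fin n) F := GeneralLinearGroup.scalar (Fin n) c
  set U := SpecialLinearGroup.toGL u
  have hz' : z * U * z⁻¹ = U := by
    rw [hz]
    group
  have e : h * U * h⁻¹ = k * g * (z * U * z⁻¹) * g⁻¹ * k⁻¹ := by
    rw [hh]
    group
  rw [e, hz']
  group

lemma comm_of_comm (x U : GL (Fin n) F)
    (h5 : (U : Matrix (Fin n) (Fin n) F) = 1 + Js) (h2 : x * U = U * x) :
    (x : Matrix (Fin n) (Fin n) F) * (Js : Matrix (Fin n) (Fin n) F) =
      (Js : Matrix (Fin n) (Fin n) F) * (x : Matrix (Fin n) (Fin n) F) := by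
  have h4 := congrArg Units.val h2
  rw [Units.val_mul, Units.val_mul, h5, mul_add, add_mul, mul_one, one_mul] at h4
  exact add_left_cancel h4

/-- Conjugate elements: the determinants differ by an `n`-th power. -/
lemma det_of_conj (h0 : 0 < n) (g h : GL (Fin n) F) (H : IsConj (conjGL g u₀) (conjGL h u₀)) :
    ∃ c : Fˣ, GeneralLinearGroup.det g = GeneralLinearGroup.det h * c ^ n := by
  obtain ⟨s, hs⟩ := isConj_iff.1 H
  have h1 := congrArg SpecialLinearGroup.toGL hs
  rw [map_mul, map_mul, map_inv, toGL_conj, toGL_conj] at h1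
  set S := SpecialLinearGroup.toGL s with hS
  set U := SpecialLinearGroup.toGL (u₀ : SL(n, F)) with hU
  set x := h⁻¹ * S * g with hx
  have h2 : x * U = U * x := by
    rw [hx]
    have e : h⁻¹ * S * g * U = h⁻¹ * ((S * (g * U * g⁻¹) * S⁻¹) * (S * g)) := by group
    rw [e, h1]
    group
  have h3 := comm_of_comm x U rfl h2
  have h4 := comm_det h3 h0
  have h5 : (x : Matrix (Fin n) (Fin n) F) ⟨0, h0⟩ ⟨0, h0⟩ ≠ 0 := by
    intro h6
    rw [h6, zero_pow (by omega)] at h4
    exact x.det_ne_zero h4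
  refine ⟨Units.mk0 _ h5, ?_⟩
  have h6 : GeneralLinearGroup.det x = (Units.mk0 _ h5) ^ n := by
    apply Units.ext
    rw [GeneralLinearGroup.val_det_apply, h4]
    simp
  rw [← h6, hx, map_mul, map_mul, map_inv]
  have h7 : GeneralLinearGroup.det S = 1 := by
    apply Units.ext
    rw [GeneralLinearGroup.val_det_apply]
    exact s.2
  rw [h7]
  group

/-- The count of classes of regular unipotent elements. -/
theorem main [Fintype F] (hn : 2 ≤ n) :
    Nat.card {C : ConjClasses (SL(n, F)) // ∃ u : SL(n, F), ConjClasses.mk u = C ∧ Reg u} =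
      Nat.gcd n (Fintype.card F - 1) := by
  classical
  haveI : Nonempty (Fin n) := ⟨⟨0, by omega⟩⟩
  have h0 : 0 < n := by omega
  let P : Subgroup Fˣ := (powMonoidHom n : Fˣ →* Fˣ).range
  have hex : ∀ a : Fˣ, ∃ g : GL (Fin n) F, GeneralLinearGroup.det g = a :=
    fun a => GeneralLinearGroup.det_surjective a
  choose d hd using hex
  let T := {C : ConjClasses (SL(n, F)) // ∃ u : SL(n, F), ConjClasses.mk u = C ∧ Reg u}
  let Φ : Fˣ → T := fun a =>
    ⟨ConjClasses.mk (conjGL (d a) u₀), conjGL (d a) u₀, rfl, reg_conj _ (reg_u₀ h0)⟩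
  have h1 : ∀ a b, a⁻¹ * b ∈ P → Φ a = Φ b := by
    rintro a b ⟨c, hc⟩
    apply Subtype.ext
    apply ConjClasses.mk_eq_mk_iff_isConj.2
    apply conj_eq_conj _ _ c
    rw [hd, hd]
    have hc' : c ^ n = a⁻¹ * b := hc
    rw [hc']
    group
  have h2 : ∀ a b, Φ a = Φ b → a⁻¹ * b ∈ P := by
    intro a b hab
    have h3 : ConjClasses.mk (conjGL (d a) u₀) = ConjClasses.mk (conjGL (d b) u₀) :=
      congrArg Subtype.val hab
    obtain ⟨c, hc⟩ := det_of_conj h0 _ _ (ConjClasses.mk_eq_mk_iff_isConj.1 h3.symm)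
    rw [hd, hd] at hc
    refine ⟨c, ?_⟩
    change c ^ n = a⁻¹ * b
    rw [hc]
    group
  have h3 : Function.Surjective Φ := by
    rintro ⟨C, u, rfl, hu⟩
    obtain ⟨g, rfl⟩ := exists_conj_of_reg hn hu
    refine ⟨GeneralLinearGroup.det g, ?_⟩
    apply Subtype.ext
    apply ConjClasses.mk_eq_mk_iff_isConj.2
    apply conj_eq_conj _ _ 1
    rw [hd, one_pow, mul_one]
  let f : Fˣ ⧸ P → T := Quotient.lift Φ (fun a b hab => h1 a b (QuotientGroup.leftRel_apply.1 hab))
  have hf : Function.Bijective f := by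
    constructor
    · intro x y hxy
      induction x using Quotient.inductionOn with | _ a =>
      induction y using Quotient.inductionOn with | _ b =>
      exact Quotient.sound (QuotientGroup.leftRel_apply.2 (h2 a b hxy))
    · intro t
      obtain ⟨a, ha⟩ := h3 t
      exact ⟨Quotient.mk _ a, ha⟩
  rw [← Nat.card_congr (Equiv.ofBijective f hf)]
  change P.index = _
  rw [IsCyclic.index_powMonoidHom_range, Nat.card_eq_fintype_card, Fintype.card_units, Nat.gcd_comm]

end Cfsg.Agent.Lib.Classical.RegUni
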