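import Mathlib

/-!
# `p`-elements and `p`-subgroups of `SL₂(F)`, `F` of characteristic `p`.

* `pow_p_eq_one`: a `p`-element has order dividing `p`.
* `trace_eq_two`: a `p`-element has trace `2`.
* `commute_of_trace`: two elements with `tr a = tr b = tr (a b) = 2` commute.
* `eq_neg_one_of_sq`: `x² = 1`, `x ≠ 1` implies `x = -1`, if the characteristic is not `2`.
-/

set_option autoImplicit false

open scoped MatrixGroups

namespace Cfsg.Agent.Lib.Classical.SL2Prime

open Matrix

variable {F : Type*} [Field F]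

/-- A `2 × 2` matrix with a vanishing power has vanishing square. -/
theorem sq_eq_zero_of_pow (N : Matrix (Fin 2) (Fin 2) F) {n : ℕ} (hn : N ^ n = 0) : N * N = 0 := by
  have hn0 : n ≠ 0 := by
    rintro rfl
    have h1 := congrFun (congrFun hn 0) 0
    simp at h1
  have hdet : N.det = 0 := by
    have h := congrArg Matrix.det hn
    rw [Matrix.det_pow, Matrix.det_zero] at h
    exact (pow_eq_zero_iff hn0).mp h
  have hCH : N * N = (N 0 0 + N 1 1) • N := by
    rw [Matrix.det_fin_two] at hdet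
    refine Matrix.ext fun i j => ?_
    fin_cases i <;> fin_cases j <;>
      simp [Matrix.mul_apply, Fin.sum_univ_two] <;> first | linear_combination -hdet | ring
  have hpow : ∀ k : ℕ, N ^ (k + 1) = (N 0 0 + N 1 1) ^ k • N := by
    intro k
    induction k with
    | zero => simp
    | succ k ih =>
      rw [pow_succ, ih, Matrix.smul_mul, hCH, smul_smul, pow_succ]
  obtain ⟨m, rfl⟩ := Nat.exists_eq_succ_of_ne_zero hn0
  rw [Nat.succ_eq_add_one, hpow] at hn
  rcases smul_eq_zero.mp hn with h | h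
  · have hτ : N 0 0 + N 1 1 = 0 := by
      by_contra hτ
      exact pow_ne_zero m hτ h
    rw [hCH, hτ, zero_smul]
  · rw [h]; simp

variable {p : ℕ} [hp : Fact p.Prime] [CharP F p]

/-- The "unipotent part" of a `p`-element squares to zero. -/
theorem sub_one_sq (x : SL(2, F)) {k : ℕ} (hx : x ^ p ^ k = 1) :
    ((x : Matrix (Fin 2) (Fin 2) F) - 1) * ((x : Matrix (Fin 2) (Fin 2) F) - 1) = 0 := by
  apply sq_eq_zero_of_pow _ (n := p ^ k)
  have : CharP (Matrix (Fin 2) (Fin 2) F) p := Matrix.charP p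
  have : ExpChar (Matrix (Fin 2) (Fin 2) F) p := ExpChar.prime hp.out
  rw [sub_pow_expChar_pow_of_commute p k (Commute.one_right _), one_pow]
  have : ((x ^ p ^ k : SL(2, F)) : Matrix (Fin 2) (Fin 2) F) = 1 := by rw [hx]; rfl
  rw [Matrix.SpecialLinearGroup.coe_pow] at this
  rw [this, sub_self]

/-- A `p`-element of `SL₂(F)` has order dividing `p`. -/
theorem pow_p_eq_one (x : SL(2, F)) {k : ℕ} (hx : x ^ p ^ k = 1) : x ^ p = 1 := by
  have h2 := sub_one_sq x hx
  have : CharP (Matrix (Fin 2) (Fin 2) F) p := Matrix.charP p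
  have : ExpChar (Matrix (Fin 2) (Fin 2) F) p := ExpChar.prime hp.out
  have h3 := sub_pow_expChar_of_commute (R := Matrix (Fin 2) (Fin 2) F) (p := p)
    (Commute.one_right (x : Matrix (Fin 2) (Fin 2) F))
  rw [one_pow] at h3
  have h4 : ((x : Matrix (Fin 2) (Fin 2) F) - 1) ^ p = 0 := by
    obtain ⟨m, hm⟩ : ∃ m, p = m + 2 := ⟨p - 2, by have := hp.out.two_le; omega⟩
    rw [hm, pow_add, pow_two, h2, mul_zero]
  rw [h4] at h3
  apply Subtype.ext
  rw [Matrix.SpecialLinearGroup.coe_pow, sub_eq_zero.mp h3.symm]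
  rfl

/-- A `p`-element of `SL₂(F)` has trace `2`. -/
theorem trace_eq_two (x : SL(2, F)) {k : ℕ} (hx : x ^ p ^ k = 1) :
    (x : Matrix (Fin 2) (Fin 2) F) 0 0 + (x : Matrix (Fin 2) (Fin 2) F) 1 1 = 2 := by
  have h2 := sub_one_sq x hx
  have hdet := x.2
  rw [Matrix.det_fin_two] at hdet
  have h00 := congrFun (congrFun h2 0) 0
  have h01 := congrFun (congrFun h2 0) 1
  have h10 := congrFun (congrFun h2 1) 0
  have h11 := congrFun (congrFun h2 1) 1
  simp [Matrix.mul_apply, Fin.sum_univ_two] at h00 h01 h10 h11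
  set a := (x : Matrix (Fin 2) (Fin 2) F) 0 0
  set b := (x : Matrix (Fin 2) (Fin 2) F) 0 1
  set c := (x : Matrix (Fin 2) (Fin 2) F) 1 0
  set d := (x : Matrix (Fin 2) (Fin 2) F) 1 1
  by_contra hne
  have hne' : a + d - 2 ≠ 0 := fun h => hne (by linear_combination h)
  have hb0 : b = 0 := by
    have : (a + d - 2) * b = 0 := by linear_combination h01
    exact (mul_eq_zero.mp this).resolve_left hne'
  rw [hb0] at h00 h11
  have ha : (a - 1) ^ 2 = 0 := by linear_combination h00
  have hd : (d - 1) ^ 2 = 0 := by linear_combination h11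
  have ha' := pow_eq_zero_iff (n := 2) (by norm_num) |>.mp ha
  have hd' := pow_eq_zero_iff (n := 2) (by norm_num) |>.mp hd
  exact hne (by linear_combination ha' + hd')

/-- Two elements of `SL₂(F)` with `tr a = tr b = tr (a b) = 2` commute. -/
theorem commute_of_trace {K : Type*} [Field K] (a b : SL(2, K))
    (ha : (a : Matrix (Fin 2) (Fin 2) K) 0 0 + (a : Matrix (Fin 2) (Fin 2) K) 1 1 = 2)
    (hb : (b : Matrix (Fin 2) (Fin 2) K) 0 0 + (b : Matrix (Fin 2) (Fin 2) K) 1 1 = 2)
    (hab : ((a * b : SL(2, K)) : Matrix (Fin 2) (Fin 2) K) 0 0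
      + ((a * b : SL(2, K)) : Matrix (Fin 2) (Fin 2) K) 1 1 = 2) : a * b = b * a := by
  have hda := a.2
  have hdb := b.2
  rw [Matrix.det_fin_two] at hda hdb
  simp only [Matrix.SpecialLinearGroup.coe_mul, Matrix.mul_apply, Fin.sum_univ_two] at hab
  set a1 := (a : Matrix (Fin 2) (Fin 2) K) 0 0
  set a2 := (a : Matrix (Fin 2) (Fin 2) K) 0 1
  set a3 := (a : Matrix (Fin 2) (Fin 2) K) 1 0
  set a4 := (a : Matrix (Fin 2) (Fin 2) K) 1 1
  set b1 := (b : Matrix (Fin 2) (Fin 2) K) 0 0
  set b2 := (b : Matrix (Fin 2) (Fin 2) K) 0 1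
  set b3 := (b : Matrix (Fin 2) (Fin 2) K) 1 0
  set b4 := (b : Matrix (Fin 2) (Fin 2) K) 1 1
  -- in coordinates `a = 1 + N`, `b = 1 + M`
  obtain ⟨n, hn⟩ : ∃ n, n = a1 - 1 := ⟨_, rfl⟩
  obtain ⟨m, hm⟩ : ∃ m, m = b1 - 1 := ⟨_, rfl⟩
  have ha1 : a1 = 1 + n := by rw [hn]; ring
  have ha4 : a4 = 1 - n := by rw [hn]; linear_combination ha
  have hb1 : b1 = 1 + m := by rw [hm]; ring
  have hb4 : b4 = 1 - m := by rw [hm]; linear_combination hb
  rw [ha1, ha4] at hda
  rw [hb1, hb4] at hdb
  rw [ha1, ha4, hb1, hb4] at hab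
  have hn2 : n ^ 2 + a2 * a3 = 0 := by linear_combination -hda
  have hm2 : m ^ 2 + b2 * b3 = 0 := by linear_combination -hdb
  have htr : 2 * n * m + a2 * b3 + a3 * b2 = 0 := by linear_combination hab
  have h1 : a2 * b3 - a3 * b2 = 0 := by
    have : (a2 * b3 - a3 * b2) ^ 2 = 0 := by
      linear_combination (a2 * b3 + a3 * b2 - 2 * n * m) * htr + 4 * m ^ 2 * hn2 - 4 * a2 * a3 * hm2
    exact pow_eq_zero_iff (n := 2) (by norm_num) |>.mp this
  have h2 : n * b2 - a2 * m = 0 := by
    have : (n * b2 - a2 * m) ^ 2 = 0 := by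
      linear_combination (- a2 * b2) * htr + b2 ^ 2 * hn2 + a2 ^ 2 * hm2
    exact pow_eq_zero_iff (n := 2) (by norm_num) |>.mp this
  have h3 : a3 * m - n * b3 = 0 := by
    have : (a3 * m - n * b3) ^ 2 = 0 := by
      linear_combination (- a3 * b3) * htr + b3 ^ 2 * hn2 + a3 ^ 2 * hm2
    exact pow_eq_zero_iff (n := 2) (by norm_num) |>.mp this
  apply Subtype.ext
  refine Matrix.ext fun i j => ?_
  simp only [Matrix.SpecialLinearGroup.coe_mul, Matrix.mul_apply, Fin.sum_univ_two]
  fin_cases i <;> fin_cases j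
  · show a1 * b1 + a2 * b3 = b1 * a1 + b2 * a3
    linear_combination h1
  · show a1 * b2 + a2 * b4 = b1 * a2 + b2 * a4
    rw [ha1, ha4, hb1, hb4]
    linear_combination 2 * h2
  · show a3 * b1 + a4 * b3 = b3 * a1 + b4 * a3
    rw [ha1, ha4, hb1, hb4]
    linear_combination 2 * h3
  · show a3 * b2 + a4 * b4 = b3 * a2 + b4 * a4
    linear_combination -h1

/-- In `SL₂(F)`, `F` of characteristic not `2`, the only involution is `-1`. -/
theorem eq_neg_one_of_sq {K : Type*} [Field K] (h2 : (2 : K) ≠ 0) (x : SL(2, K)) (hx : x ^ 2 = 1)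
    (hx1 : x ≠ 1) : (x : Matrix (Fin 2) (Fin 2) K) = -1 := by
  have hdet := x.2
  rw [Matrix.det_fin_two] at hdet
  have hx' : (x : Matrix (Fin 2) (Fin 2) K) * x = 1 := by
    have : ((x ^ 2 : SL(2, K)) : Matrix (Fin 2) (Fin 2) K) = 1 := by rw [hx]; rfl
    rwa [Matrix.SpecialLinearGroup.coe_pow, pow_two] at this
  have h00 := congrFun (congrFun hx' 0) 0
  have h01 := congrFun (congrFun hx' 0) 1
  have h10 := congrFun (congrFun hx' 1) 0
  have h11 := congrFun (congrFun hx' 1) 1
  simp [Matrix.mul_apply, Fin.sum_univ_two] at h00 h01 h10 h11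
  set a := (x : Matrix (Fin 2) (Fin 2) K) 0 0 with ha
  set b := (x : Matrix (Fin 2) (Fin 2) K) 0 1 with hb
  set c := (x : Matrix (Fin 2) (Fin 2) K) 1 0 with hc
  set d := (x : Matrix (Fin 2) (Fin 2) K) 1 1 with hd
  have htr : a + d ≠ 0 := by
    intro h
    have hd' : d = -a := by linear_combination h
    rw [hd'] at hdet h11
    apply h2
    linear_combination -h00 - hdet
  have hb0 : b = 0 := by
    have : (a + d) * b = 0 := by linear_combination h01
    exact (mul_eq_zero.mp this).resolve_left htr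
  have hc0 : c = 0 := by
    have : (a + d) * c = 0 := by linear_combination h10
    exact (mul_eq_zero.mp this).resolve_left htr
  rw [hb0] at hdet h00 h11
  have had : a = d := by
    have h : a * (a - d) = 0 := by linear_combination h00 - hdet
    have ha0 : a ≠ 0 := by
      rintro h0
      rw [h0] at h00
      simp at h00
    have := (mul_eq_zero.mp h).resolve_left ha0
    linear_combination this
  have ha2 : (a - 1) * (a + 1) = 0 := by
    rw [← had] at hdet
    linear_combination hdet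
  rcases mul_eq_zero.mp ha2 with h | h
  · exfalso
    apply hx1
    apply Subtype.ext
    refine Matrix.ext fun i j => ?_
    fin_cases i <;> fin_cases j
    · show a = _
      simp; linear_combination h
    · show b = _
      simp [hb0]
    · show c = _
      simp [hc0]
    · show d = _
      simp; rw [← had]; linear_combination h
  · refine Matrix.ext fun i j => ?_
    fin_cases i <;> fin_cases j
    · show a = _
      simp; linear_combination h
    · show b = _
      simp [hb0]
    · show c = _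
      simp [hc0]
    · show d = _
      simp; rw [← had]; linear_combination h

end Cfsg.Agent.Lib.Classical.SL2Prime
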