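import Cfsg.Agent.Lib.Classical.TransvRoot
import Cfsg.Agent.Lib.Classical.SympForm
import Cfsg.Agent.Lib.RootSubgroups.Abstract

/-!
The groups of symplectic transvections as a degenerate class of abstract root subgroups.
-/

set_option autoImplicit false
set_option linter.unusedSectionVars false
set_option linter.unusedSimpArgs false
set_option linter.style.haveILetI false
set_option linter.unusedVariables false

open scoped MatrixGroups commutatorElement
open Matrix Cfsg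

namespace Cfsg.Agent.Lib.Classical.TransvSp

open Cfsg.Agent.Lib.Classical.TransvRoot
open Cfsg.Agent.Lib.Classical.SympForm
open Cfsg.Agent.Lib.RootSubgroups.Abstract (not_commute_matched exists_match central_left)
open Cfsg.Agent.Lib.RootSubgroups

section Abstract

variable {G : Type*} [Group G] {A D : Subgroup G} {S : Set (Subgroup G)}

/-- A rank one pair with a non-trivial first group is not in the commutator case. -/
lemma not_case_of_rankOne (hr : IsRankOnePair A D) (hc : RootCommutatorCase S A D) {a : G} (ha : a ∈ A)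
    (ha1 : a ≠ 1) : False := by
  obtain ⟨d, hd, hd1, he⟩ := exists_match hr ha ha1
  refine not_commute_matched hr ha ha1 hd he ?_
  have h1 : d⁻¹ * a * d * a⁻¹ ∈ ⁅A, D⁆ := by
    have h2 : a * d⁻¹ * a⁻¹ * d⁻¹⁻¹ ∈ ⁅A, D⁆ := Abstract.comm_mem ha (D.inv_mem hd)
    have h3 : d⁻¹ * a * d * a⁻¹ = (a * d⁻¹ * a⁻¹ * d⁻¹⁻¹)⁻¹ := by group
    rw [h3]
    exact Subgroup.inv_mem _ h2
  exact central_left hc h1 ha

end Abstract

variable {F : Type*} [Field F] {m : ℕ}

/-- The inclusion of `Sp` into the matrices. -/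
def spIncl : symplecticGroup (Fin m) F →* Matrix (Fin m ⊕ Fin m) (Fin m ⊕ Fin m) F :=
  (symplecticGroup (Fin m) F).subtype

@[simp] lemma spIncl_apply (g : symplecticGroup (Fin m) F) : spIncl g = g.1 := rfl

lemma spIncl_inj : Function.Injective (spIncl (F := F) (m := m)) := Subtype.val_injective

/-- The covector of a vector. -/
abbrev jv (p : Fin m ⊕ Fin m → F) : Fin m ⊕ Fin m → F := J (Fin m) F *ᵥ p

lemma jv_dot (p q : Fin m ⊕ Fin m → F) : jv p ⬝ᵥ q = sympForm m F q p := dotProduct_comm _ _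

lemma form_self (p : Fin m ⊕ Fin m → F) : sympForm m F p p = 0 := sympBilin_isAlt p

lemma form_anti (p q : Fin m ⊕ Fin m → F) : sympForm m F p q = -sympForm m F q p := by
  have h1 := form_self (m := m) (F := F) (p + q)
  have h2 : sympForm m F (p + q) (p + q) =
      sympForm m F p p + sympForm m F p q + (sympForm m F q p + sympForm m F q q) := by
    simp only [sympForm, mulVec_add, dotProduct_add, add_dotProduct]
    ring
  rw [h2, form_self, form_self] at h1
  linear_combination h1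

lemma hself (p : Fin m ⊕ Fin m → F) : jv p ⬝ᵥ p = 0 := by
  rw [jv_dot, form_self]

lemma jv_ne_zero {p : Fin m ⊕ Fin m → F} (hp : p ≠ 0) : jv p ≠ 0 := by
  intro h
  apply hp
  have h1 := congrArg (fun v => J (Fin m) F *ᵥ v) h
  simp only [jv, mulVec_mulVec, J_squared, mulVec_zero, neg_mulVec, one_mulVec] at h1
  exact neg_eq_zero.1 h1

/-- The root group of a vector. -/
abbrev Tp (p : Fin m ⊕ Fin m → F) : Subgroup (symplecticGroup (Fin m) F) :=
  Tc spIncl p (jv p) (hself p)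

lemma full (p : Fin m ⊕ Fin m → F) : Full (spIncl (F := F) (m := m)) p (jv p) :=
  fun t => ⟨⟨sympTransvection m p t, sympTransvection_mem p t⟩, rfl⟩

lemma closure_eq (p : Fin m ⊕ Fin m → F) :
    Subgroup.closure {g : symplecticGroup (Fin m) F | ∃ c : F, ∀ v : Fin m ⊕ Fin m → F,
      (g : Matrix (Fin m ⊕ Fin m) (Fin m ⊕ Fin m) F) *ᵥ v =
        v + (c * (v ⬝ᵥ (Matrix.J (Fin m) F *ᵥ p))) • p} = Tp p := by
  have : {g : symplecticGroup (Fin m) F | ∃ c : F, ∀ v : Fin m ⊕ Fin m → F,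
      (g : Matrix (Fin m ⊕ Fin m) (Fin m ⊕ Fin m) F) *ᵥ v =
        v + (c * (v ⬝ᵥ (Matrix.J (Fin m) F *ᵥ p))) • p} =
      ((Tp p : Subgroup (symplecticGroup (Fin m) F)) : Set (symplecticGroup (Fin m) F)) := by
    ext g
    constructor
    · rintro ⟨c, hc⟩
      refine ⟨c, ?_⟩
      apply Matrix.ext_iff_mulVec.2
      intro v
      rw [spIncl_apply, hc]
      have := sympTransvection_mulVec p c v
      exact this.symm
    · rintro ⟨c, hc⟩
      refine ⟨c, fun v => ?_⟩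
      rw [spIncl_apply] at hc
      rw [hc]
      exact sympTransvection_mulVec p c v
  rw [this, Subgroup.closure_eq]

lemma conjBy_Tp (g : symplecticGroup (Fin m) F) (p : Fin m ⊕ Fin m → F) :
    conjBy (Tp p) g = Tp (g.1 *ᵥ p) := by
  ext x
  constructor
  · rintro ⟨y, ⟨t, ht⟩, rfl⟩
    refine ⟨t, ?_⟩
    rw [spIncl_apply] at ht
    change g.1 * y.1 * (g⁻¹).1 = _
    rw [ht]
    exact sp_mul_sympTransvection_mul_inv g p t
  · rintro ⟨t, ht⟩
    rw [spIncl_apply] at ht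
    refine ⟨⟨sympTransvection m p t, sympTransvection_mem p t⟩, ⟨t, rfl⟩, ?_⟩
    apply Subtype.ext
    rw [ht]
    exact sp_mul_sympTransvection_mul_inv g p t

/-- The set of the statement. -/
def rootSet (m : ℕ) (F : Type*) [Field F] : Set (Subgroup (symplecticGroup (Fin (m + 1)) F)) :=
  {A | ∃ p : Fin (m + 1) ⊕ Fin (m + 1) → F, p ≠ 0 ∧
    A = Subgroup.closure {g : symplecticGroup (Fin (m + 1)) F | ∃ c : F,
      ∀ v : Fin (m + 1) ⊕ Fin (m + 1) → F,
        (g : Matrix (Fin (m + 1) ⊕ Fin (m + 1)) (Fin (m + 1) ⊕ Fin (m + 1)) F) *ᵥ v =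
          v + (c * (v ⬝ᵥ (Matrix.J (Fin (m + 1)) F *ᵥ p))) • p}}

lemma mem_rootSet {A : Subgroup (symplecticGroup (Fin (m + 1)) F)} :
    A ∈ rootSet m F ↔ ∃ p : Fin (m + 1) ⊕ Fin (m + 1) → F, p ≠ 0 ∧ A = Tp p := by
  constructor
  · rintro ⟨p, hp, rfl⟩
    exact ⟨p, hp, closure_eq p⟩
  · rintro ⟨p, hp, rfl⟩
    exact ⟨p, hp, (closure_eq p).symm⟩

lemma Tp_ne_bot {p : Fin m ⊕ Fin m → F} (hp : p ≠ 0) : Tp p ≠ ⊥ := by
  intro e1
  have h1 : (⟨sympTransvection m p 1, sympTransvection_mem p 1⟩ : symplecticGroup (Fin m) F) ∈ Tp p :=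
    ⟨1, rfl⟩
  rw [e1, Subgroup.mem_bot] at h1
  have h2 := congrArg Subtype.val h1
  have h3 : (1 : Matrix (Fin m ⊕ Fin m) (Fin m ⊕ Fin m) F) + (1 : F) • E p (jv p) = 1 := h2
  have h4 : E p (jv p) = 0 := by simpa using h3
  exact E_ne_zero hp (jv_ne_zero hp) h4

lemma alpha_iff (p q : Fin m ⊕ Fin m → F) : jv p ⬝ᵥ q = 0 ↔ jv q ⬝ᵥ p = 0 := by
  rw [jv_dot, jv_dot, form_anti, neg_eq_zero]

lemma pair_cases {p q : Fin m ⊕ Fin m → F} :
    ⁅Tp p, Tp q⁆ = ⊥ ∨ IsRankOnePair (Tp p) (Tp q) := by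
  by_cases hα : jv p ⬝ᵥ q = 0
  · exact Or.inl (comm_bot spIncl_inj hα ((alpha_iff p q).1 hα))
  · exact Or.inr (rankOne spIncl_inj hα (fun h => hα ((alpha_iff p q).2 h)) (full _) (full _))

theorem isRootSet : IsRootSubgroupSet (rootSet m F) where
  commutative := by
    intro A hA
    obtain ⟨p, -, rfl⟩ := mem_rootSet.1 hA
    exact Tc_isMulComm spIncl_inj
  ne_bot := by
    intro A hA
    obtain ⟨p, hp, rfl⟩ := mem_rootSet.1 hA
    exact Tp_ne_bot hp
  generates := by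
    rw [eq_top_iff, ← closure_transvectionSet, Subgroup.closure_le]
    rintro x ⟨w, c, hx⟩
    by_cases hw : w = 0
    · have : x = 1 := by
        apply Subtype.ext
        rw [hx, hw]
        simp [sympTransvection]
      rw [this]
      exact one_mem _
    · have h1 : Tp w ∈ rootSet m F := mem_rootSet.2 ⟨w, hw, rfl⟩
      have h2 : x ∈ Tp w := ⟨c, hx⟩
      exact (le_iSup₂_of_le (f := fun (A : Subgroup _) (_ : A ∈ rootSet m F) => A) _ h1 le_rfl) h2
  conj_mem := by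
    intro A hA g
    obtain ⟨p, hp, rfl⟩ := mem_rootSet.1 hA
    refine mem_rootSet.2 ⟨g.1 *ᵥ p, ?_, conjBy_Tp g p⟩
    intro h
    apply hp
    have h1 := congrArg (fun v => (g⁻¹).1 *ᵥ v) h
    have h2 : (g⁻¹).1 * g.1 = 1 := congrArg Subtype.val (inv_mul_cancel g)
    simpa only [mulVec_mulVec, h2, one_mulVec, mulVec_zero] using h1
  pair := by
    intro A hA B hB
    obtain ⟨p, hp, rfl⟩ := mem_rootSet.1 hA
    obtain ⟨q, hq, rfl⟩ := mem_rootSet.1 hB
    rcases pair_cases (p := p) (q := q) with h | h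
    · exact Or.inl h
    · exact Or.inr (Or.inl h)

theorem isClass : IsRootSubgroupClass (rootSet m F) := by
  refine ⟨isRootSet, ?_, ?_⟩
  · have h1 : (1 : Fin (m + 1) ⊕ Fin (m + 1) → F) ≠ 0 := one_ne_zero
    exact ⟨_, mem_rootSet.2 ⟨1, h1, rfl⟩⟩
  · intro A hA B hB
    obtain ⟨p, hp, rfl⟩ := mem_rootSet.1 hA
    obtain ⟨q, hq, rfl⟩ := mem_rootSet.1 hB
    obtain ⟨g, -, hg⟩ := exists_closure_ne_zero p q hp hq
    refine ⟨g, ?_⟩
    rw [conjBy_Tp, hg]

theorem degenerate : IsDegenerateRootSet (rootSet m F) := by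
  intro A hA B hB hc
  obtain ⟨p, hp, rfl⟩ := mem_rootSet.1 hA
  obtain ⟨q, hq, rfl⟩ := mem_rootSet.1 hB
  rcases pair_cases (p := p) (q := q) with h | h
  · exact isRootSet.ne_bot _ hc.1 h
  · have h1 : (⟨sympTransvection (m + 1) p 1, sympTransvection_mem p 1⟩ :
        symplecticGroup (Fin (m + 1)) F) ∈ Tp p := ⟨1, rfl⟩
    refine not_case_of_rankOne h hc h1 ?_
    intro h2
    have h3 := congrArg Subtype.val h2
    have h4 : (1 : Matrix (Fin (m + 1) ⊕ Fin (m + 1)) (Fin (m + 1) ⊕ Fin (m + 1)) F) +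
        (1 : F) • E p (jv p) = 1 := h3
    have h5 : E p (jv p) = 0 := by simpa using h4
    exact E_ne_zero hp (jv_ne_zero hp) h5

theorem isKRoot : IsKRootSubgroupSet F (rootSet m F) := by
  refine ⟨isRootSet, ?_⟩
  intro A hA B hB hr
  obtain ⟨p, hp, rfl⟩ := mem_rootSet.1 hA
  obtain ⟨q, hq, rfl⟩ := mem_rootSet.1 hB
  exact psl2_pair spIncl_inj (alpha_ne spIncl_inj hp (jv_ne_zero hp) hq (jv_ne_zero hq) (full _) hr)
    (beta_ne spIncl_inj hp (jv_ne_zero hp) hq (jv_ne_zero hq) (full _) hr) (full _) (full _)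

/-- A vector off two hyperplanes. -/
lemma exists_off_two {I : Type*} [Fintype I] [DecidableEq I] {φ φ' : I → F} (hφ : φ ≠ 0) (hφ' : φ' ≠ 0) :
    ∃ v : I → F, φ ⬝ᵥ v ≠ 0 ∧ φ' ⬝ᵥ v ≠ 0 := by
  obtain ⟨i, hi⟩ : ∃ i, φ i ≠ 0 := by
    by_contra h2
    push Not at h2
    exact hφ (funext h2)
  obtain ⟨j, hj⟩ : ∃ i, φ' i ≠ 0 := by
    by_contra h2
    push Not at h2
    exact hφ' (funext h2)
  have dot_e : ∀ (w : I → F) (a : I), w ⬝ᵥ Pi.single a 1 = w a := fun w a => by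
    simp [dotProduct_single]
  by_cases h1 : φ' i = 0
  · by_cases h2 : φ j = 0
    · refine ⟨Pi.single i 1 + Pi.single j 1, ?_, ?_⟩
      · rw [dotProduct_add, dot_e, dot_e, h2, add_zero]
        exact hi
      · rw [dotProduct_add, dot_e, dot_e, h1, zero_add]
        exact hj
    · exact ⟨Pi.single j 1, by rwa [dot_e], by rwa [dot_e]⟩
  · exact ⟨Pi.single i 1, by rwa [dot_e], by rwa [dot_e]⟩

theorem connected : IsConnectedFamily (FAdj (rootSet m F)) (rootSet m F) := by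
  intro A hA B hB
  obtain ⟨p, hp, rfl⟩ := mem_rootSet.1 hA
  obtain ⟨q, hq, rfl⟩ := mem_rootSet.1 hB
  obtain ⟨v, hv, hv'⟩ := exists_off_two (jv_ne_zero hp) (jv_ne_zero hq)
  have hv0 : v ≠ 0 := by
    rintro rfl
    exact hv (dotProduct_zero _)
  have hC : Tp v ∈ rootSet m F := mem_rootSet.2 ⟨v, hv0, rfl⟩
  refine Relation.ReflTransGen.tail (Relation.ReflTransGen.single (b := Tp v) ⟨hA, hC, ?_⟩)
    ⟨hC, hB, ?_⟩
  · exact rankOne spIncl_inj hv (fun h => hv ((alpha_iff p v).2 h)) (full _) (full _)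
  · exact rankOne spIncl_inj (fun h => hv' ((alpha_iff q v).2 h)) hv' (full _) (full _)

end Cfsg.Agent.Lib.Classical.TransvSp
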